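import Mathlib
import Cfsg.Prelude.Def_GeometricClasses
import Cfsg.Prelude.Def_Classical
import Cfsg.Agent.Helper58.TSDefs
import Cfsg.Agent.Helper43.PrimeOrdO3
import Cfsg.Agent.Helper33.OType
import Cfsg.Agent.Helper43.OrthStd
import Cfsg.Agent.Helper43.TBXISO
import Cfsg.Agent.Helper37.TBBLKO
import Cfsg.Agent.Helper37.TBBLKE
import Cfsg.Agent.Helper35.TBFULL
import Cfsg.Agent.Helper96.OHDefs

set_option autoImplicit false

/-!
# CALL S88 (row S5988), shared stage NDIV, the bad element of maximal profile (helper86)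

* `el_glue`: a standard space of dimension `2 k₀` glued to a block; the fixed space of the glued
  isometry has dimension exactly `2 k₀`.
* `el_xfer`: transport of an isometry of a model space of plus type to `Q`, keeping the dimension
  of the fixed space.
* `el_badmax`: for `Q` of plus type on `ι → F`, `|ι| = 2 d`, `c ≤ 2 d`, `0 < (2 d) % c`: an
  isometry `T` of `Q` with `T ^ r = 1` and fixed space of dimension `(2 d) % c`.
-/

namespace Cfsg.Agent.Helper86.EL5988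

open Module Polynomial Cfsg Cfsg.Geo Cfsg.Agent.Helper58.TS
open Cfsg.Agent.Helper43 Cfsg.Agent.Helper43.OrthEven Cfsg.Agent.Helper43.CycFactors
  Cfsg.Agent.Helper43.PrimeOrdMat
open Cfsg.Agent.Helper43.TB (tb_xiso)
open Cfsg.Agent.Helper37.TB (tb_blk_odd tb_blk_even)
open Cfsg.Agent.Helper35.TB (tb_fixed_space)
open Cfsg.Agent.Helper96.OH
open scoped MatrixGroups

universe u

section glue

variable {F : Type u} [Field F] [Fintype F]

/-- glue a fixed space of dimension `2 k₀` and type defect `ε₀` to a block; the fixed space of the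
result has dimension `2 k₀`. -/
theorem el_glue (r : ℕ) [Fact r.Prime] (hrF : (r : F) ≠ 0) {V₁ : Type u} [AddCommGroup V₁]
    [Module F V₁] [FiniteDimensional F V₁] (Q₁ : QuadraticForm F V₁) (T₁ : Module.End F V₁)
    (hnd : PolarNondeg Q₁) (hT : ∀ v, Q₁ (T₁ v) = Q₁ v) (hcyc : aeval T₁ (cyclotomic r F) = 0)
    (l : ℕ) (hV₁ : finrank F V₁ = 2 * l) (k₀ ε₀ : ℕ) (hε : ε₀ ≤ 1) (hεk : ε₀ ≤ k₀) :
    ∃ (V' : Type u) (_ : AddCommGroup V') (_ : Module F V') (_ : FiniteDimensional F V')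
      (Q' : QuadraticForm F V') (T : Module.End F V'),
      PolarNondeg Q' ∧ finrank F V' = 2 * (k₀ + l) ∧
      (HasTS Q' (k₀ + l) ↔ (ε₀ = 0 ↔ HasTS Q₁ l)) ∧ (∀ v, Q' (T v) = Q' v) ∧ T ^ r = 1 ∧
      finrank F (LinearMap.ker (T - 1)) = 2 * k₀ := by
  classical
  have hrp : r.Prime := Fact.out
  obtain ⟨V₀, _, _, _, Q₀, hnd₀, hdim₀, htype₀, -⟩ := tb_fixed_space (F := F) k₀ ε₀ hε hεk
  obtain ⟨T, hTdef⟩ : ∃ T : Module.End F (V₀ × V₁), T = (1 : Module.End F V₀).prodMap T₁ :=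
    ⟨_, rfl⟩
  have hTapp : ∀ v : V₀ × V₁, T v = (v.1, T₁ v.2) := by
    intro v
    rw [hTdef]
    rfl
  have hXr : (X ^ r - 1 : F[X]) = cyclotomic r F * (X - 1) :=
    (cyclotomic_prime_mul_X_sub_one F r).symm
  have hT₁r : aeval T₁ (X ^ r - 1 : F[X]) = 0 := by
    rw [hXr, map_mul, hcyc, zero_mul]
  have hTr : T ^ r = 1 := by
    have h1 : aeval T (X ^ r - 1 : F[X]) = 0 := by
      rw [hTdef, Cfsg.Agent.Helper98.TB.tb_aeval_prod, hT₁r]
      have h2 : aeval (1 : Module.End F V₀) (X ^ r - 1 : F[X]) = 0 := by simp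
      rw [h2]
      exact LinearMap.prodMap_zero
    have h3 : aeval T (X ^ r - 1 : F[X]) = T ^ r - 1 := by simp
    rw [h3] at h1
    exact sub_eq_zero.mp h1
  -- `T₁` has no nonzero fixed vector
  have hfix₁ : ∀ v : V₁, T₁ v = v → v = 0 := by
    intro v hv
    by_contra hv0
    have hev : T₁.HasEigenvector 1 v :=
      ⟨Module.End.mem_eigenspace_iff.mpr (by rw [hv, one_smul]), hv0⟩
    have h5 := Module.End.aeval_apply_of_hasEigenvector hev (p := cyclotomic r F)
    rw [hcyc, eval_one_cyclotomic_prime, LinearMap.zero_apply] at h5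
    rcases smul_eq_zero.mp h5.symm with h6 | h6
    · exact hrF h6
    · exact hv0 h6
  have hker : LinearMap.ker (T - 1) = LinearMap.range (LinearMap.inl F V₀ V₁) := by
    ext v
    rw [LinearMap.mem_ker, LinearMap.sub_apply, Module.End.one_apply, sub_eq_zero, hTapp]
    constructor
    · intro h
      have h2 : T₁ v.2 = v.2 := congrArg Prod.snd h
      have h3 := hfix₁ v.2 h2
      exact ⟨v.1, by rw [LinearMap.inl_apply]; exact Prod.ext rfl h3.symm⟩
    · rintro ⟨w, rfl⟩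
      rw [LinearMap.inl_apply]
      show (w, T₁ 0) = (w, 0)
      rw [map_zero]
  refine ⟨V₀ × V₁, inferInstance, inferInstance, inferInstance, Q₀.prod Q₁, T,
    Cfsg.Agent.Helper31.TB.tb_prod_nd Q₀ Q₁ hnd₀ hnd, ?_, ?_, ?_, hTr, ?_⟩
  · rw [Module.finrank_prod, hdim₀, hV₁]
    ring
  · rw [Cfsg.Agent.Helper93.TB.tb_type_prod Q₀ Q₁ hnd₀ hnd k₀ l hdim₀ hV₁, htype₀]
  · intro v
    rw [hTapp, QuadraticMap.prod_apply, QuadraticMap.prod_apply, hT]
  · rw [hker, LinearMap.finrank_range_of_inj LinearMap.inl_injective, hdim₀]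

/-- transport of an isometry of a model space of plus type to `Q`. -/
theorem el_xfer {ι : Type} [Fintype ι] [DecidableEq ι] (Q : (ι → F) → F)
    (hQ : IsNondegenerateQuadraticForm Q) (d : ℕ) (hd : 1 ≤ d)
    (hcard : Fintype.card ι = 2 * d) (hplus : IsPlusTypeOn Q ⊤) (r : ℕ) {V' : Type u}
    [AddCommGroup V'] [Module F V'] [FiniteDimensional F V'] (Q' : QuadraticForm F V')
    (hnd : PolarNondeg Q') (hdim : finrank F V' = 2 * d) (htype : HasTS Q' d)
    (T : Module.End F V') (hT : ∀ v, Q' (T v) = Q' v) (hTr : T ^ r = 1) :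
    ∃ T' : Module.End F (ι → F), OPres Q T' ∧ T' ^ r = 1 ∧
      finrank F (LinearMap.ker (T' - 1)) = finrank F (LinearMap.ker (T - 1)) := by
  classical
  obtain ⟨Φ, hΦ⟩ := tb_xiso Q hQ d 0 hd hcard (typeDefect_plus hplus) Q' hnd hdim
    ⟨fun _ => rfl, fun _ => htype⟩
  obtain ⟨T', hT'app⟩ : ∃ T' : Module.End F (ι → F), ∀ x, T' x = Φ (T (Φ.symm x)) :=
    ⟨(Φ : V' →ₗ[F] (ι → F)) ∘ₗ T ∘ₗ (Φ.symm : (ι → F) →ₗ[F] V'), fun x => rfl⟩
  have hpow : ∀ n : ℕ, ∀ x, (T' ^ n) x = Φ ((T ^ n) (Φ.symm x)) := by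
    intro n
    induction n with
    | zero =>
      intro x
      rw [pow_zero, pow_zero, Module.End.one_apply, Module.End.one_apply,
        LinearEquiv.apply_symm_apply]
    | succ n ih =>
      intro x
      rw [pow_succ, Module.End.mul_apply, ih, hT'app, LinearEquiv.symm_apply_apply, pow_succ,
        Module.End.mul_apply]
  have hkereq : LinearMap.ker (T' - 1) =
      (LinearMap.ker (T - 1)).map (Φ : V' →ₗ[F] (ι → F)) := by
    ext x
    rw [LinearMap.mem_ker, LinearMap.sub_apply, Module.End.one_apply, sub_eq_zero, hT'app,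
      Submodule.mem_map]
    constructor
    · intro h
      refine ⟨Φ.symm x, ?_, LinearEquiv.apply_symm_apply Φ x⟩
      rw [LinearMap.mem_ker, LinearMap.sub_apply, Module.End.one_apply, sub_eq_zero]
      apply Φ.injective
      rw [h, LinearEquiv.apply_symm_apply]
    · rintro ⟨v, hv, rfl⟩
      rw [LinearMap.mem_ker, LinearMap.sub_apply, Module.End.one_apply, sub_eq_zero] at hv
      show Φ (T (Φ.symm (Φ v))) = Φ v
      rw [LinearEquiv.symm_apply_apply, hv]
  refine ⟨T', ?_, ?_, ?_⟩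
  · intro v
    rw [hT'app, hΦ, hT, ← hΦ, LinearEquiv.apply_symm_apply]
  · apply LinearMap.ext
    intro x
    rw [hpow, hTr, Module.End.one_apply, LinearEquiv.apply_symm_apply, Module.End.one_apply]
  · rw [hkereq, LinearEquiv.finrank_map_eq]

/-- BADMAX: an isometry of `Q` (plus type, `|ι| = 2 d`) with `T ^ r = 1` whose fixed space has
dimension `(2 d) % c`. -/
theorem el_badmax {ι : Type} [Fintype ι] [DecidableEq ι] (Q : (ι → F) → F)
    (hQ : IsNondegenerateQuadraticForm Q) (d : ℕ) (hcard : Fintype.card ι = 2 * d)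
    (hplus : IsPlusTypeOn Q ⊤) (p : ℕ) [Fact p.Prime] [CharP F p] (r : ℕ) [Fact r.Prime]
    (hr2 : 2 < r) (hrp : r ≠ p) (i c : ℕ) (hi : i = orderOf ((Fintype.card F : ℕ) : ZMod r))
    (hc : c = if Even i then i else 2 * i) (hcd : c ≤ 2 * d) (hpos : 0 < (2 * d) % c) :
    ∃ T : Module.End F (ι → F), OPres Q T ∧ T ^ r = 1 ∧
      finrank F (LinearMap.ker (T - 1)) = (2 * d) % c := by
  classical
  have hr : r.Prime := Fact.out
  have hipos : 0 < i := by rw [hi]; exact orderOf_pos_of_card (p := p) rfl hr hrp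
  have hrF : (r : F) ≠ 0 := natCast_ne_zero_of_ne (p := p) hr hrp
  have hd1 : 1 ≤ d := by
    rcases Nat.eq_zero_or_pos d with h | h
    · subst h
      simp at hpos
    · exact h
  rcases Nat.even_or_odd i with heven | hodd
  · -- `c = i`
    rw [if_pos heven] at hc
    have hc' : i = c := hc.symm
    subst hc'
    have heven' : Even (orderOf ((Fintype.card F : ℕ) : ZMod r)) := by rw [← hi]; exact heven
    obtain ⟨j, hj⟩ := heven
    have hj2 : i / 2 = j := by omega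
    have hcardJ : (cycJ F r).card * i = r - 1 := by
      rw [hi]; exact cycJ_card_mul (p := p) rfl hr hrp
    have hne : (cycJ F r).Nonempty := by
      rw [← Finset.card_pos]
      by_contra h
      have h0 : (cycJ F r).card = 0 := by omega
      rw [h0, zero_mul] at hcardJ
      omega
    obtain ⟨P, hP⟩ := hne
    obtain ⟨A, hA⟩ : ∃ A, A = (2 * d) / i := ⟨_, rfl⟩
    obtain ⟨ρ, hρ⟩ : ∃ ρ, ρ = (2 * d) % i := ⟨_, rfl⟩
    obtain ⟨V₁, _, _, _, Q₁, T₁, hnd₁, hT₁, hcyc₁, -, hfr₁, hts₁, -⟩ :=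
      tb_blk_even (F := F) p r hr2 hrp heven' P hP A
    rw [← hi, hj2] at hfr₁ hts₁
    have hdm := Nat.div_add_mod (2 * d) i
    rw [← hA, ← hρ] at hdm
    rw [← hρ] at hpos ⊢
    have hiA : i * A = 2 * (j * A) := by rw [hj]; ring
    obtain ⟨k₀, hk₀⟩ : ∃ k₀, ρ = 2 * k₀ := ⟨ρ / 2, by omega⟩
    have hk₀1 : 1 ≤ k₀ := by omega
    obtain ⟨ε₀, hε₀⟩ : ∃ ε₀ : ℕ, ε₀ = if Even A then 0 else 1 := ⟨_, rfl⟩
    have hε1 : ε₀ ≤ 1 := by
      rw [hε₀]
      split_ifs <;> omega
    obtain ⟨V', _, _, _, Q', T, hnd', hdim', htype', hT', hTr, hker⟩ :=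
      el_glue r hrF Q₁ T₁ hnd₁ hT₁ hcyc₁ (j * A) hfr₁ k₀ ε₀ hε1 (by omega)
    have hkl : k₀ + j * A = d := by omega
    rw [hkl] at hdim' htype'
    have htype : HasTS Q' d := by
      rw [htype', hts₁, hε₀]
      by_cases hA2 : Even A
      · rw [if_pos hA2]
        exact ⟨fun _ => hA2, fun _ => rfl⟩
      · rw [if_neg hA2]
        exact ⟨fun h => absurd h one_ne_zero, fun h => absurd h hA2⟩
    obtain ⟨T', hT'1, hT'2, hT'3⟩ :=
      el_xfer Q hQ d hd1 hcard hplus r Q' hnd' hdim' htype T hT' hTr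
    exact ⟨T', hT'1, hT'2, by rw [hT'3, hker, hk₀]⟩
  · -- `c = 2 i`
    have hne : ¬ Even i := Nat.not_even_iff_odd.mpr hodd
    rw [if_neg hne] at hc
    subst hc
    have hodd' : Odd (orderOf ((Fintype.card F : ℕ) : ZMod r)) := by rw [← hi]; exact hodd
    obtain ⟨V₁, _, _, _, Q₁, T₁, hnd₁, hT₁, hcyc₁, hfr₁, hts₁, -⟩ :=
      tb_blk_odd (F := F) p r hr2 hrp hodd' (d / i)
    rw [← hi] at hfr₁ hts₁
    have hmod : (2 * d) % (2 * i) = 2 * (d % i) := Nat.mul_mod_mul_left 2 d i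
    have hdm := Nat.div_add_mod d i
    obtain ⟨V', _, _, _, Q', T, hnd', hdim', htype', hT', hTr, hker⟩ :=
      el_glue r hrF Q₁ T₁ hnd₁ hT₁ hcyc₁ (i * (d / i)) hfr₁ (d % i) 0 (by omega) (by omega)
    have hkl : d % i + i * (d / i) = d := by omega
    rw [hkl] at hdim' htype'
    have htype : HasTS Q' d := htype'.mpr ⟨fun _ => hts₁, fun _ => rfl⟩
    obtain ⟨T', hT'1, hT'2, hT'3⟩ :=
      el_xfer Q hQ d hd1 hcard hplus r Q' hnd' hdim' htype T hT' hTr
    exact ⟨T', hT'1, hT'2, by rw [hT'3, hker, hmod]⟩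

end glue

end Cfsg.Agent.Helper86.EL5988
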