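import Mathlib
import Cfsg.Agent.Helper43.OTDefs
import Cfsg.Agent.Helper47.HTHTIB
import Cfsg.Agent.Helper29.OTINVB
import Cfsg.Agent.Helper45.OTBAD2A

set_option autoImplicit false

/-!
# CALL OT = S5972 (helper43), piece BAD2 (helper86): `ot_bad_two`, the bad involution.
-/

namespace Cfsg.Agent.Helper86.OT5972

open Module Polynomial Cfsg.Agent.Helper90.HT Cfsg.Agent.Helper43.OT
open Cfsg.Agent.Helper43.C3O (gm)
open Cfsg.Agent.Helper29.OT5972 Cfsg.Agent.Helper45.OT5972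

universe u

section grp3

variable {F : Type u} [Field F] [Fintype F] {ι : Type} [Fintype ι] [DecidableEq ι]

/-- BAD2 (uses BAD2A, INVB, `ht_bound` in `ker (T-1)`): the bad involution. -/
theorem ot_bad_two (h2 : (2 : F) ≠ 0) (hm1 : ¬ IsSquare (-1 : F)) (d : ℕ) (hd : 1 ≤ d) :
    ∃ x : Matrix.GeneralLinearGroup (Unit ⊕ (Fin d ⊕ Fin d)) F,
      x ∈ Cfsg.Geo.omegaGL (Cfsg.quadFormOdd d F) ∧ orderOf x = 2 ∧
      ∀ W : Submodule F (Unit ⊕ (Fin d ⊕ Fin d) → F), (∀ w ∈ W, Cfsg.quadFormOdd d F w = 0) →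
        W.map (Matrix.toLin'
          (x : Matrix (Unit ⊕ (Fin d ⊕ Fin d)) (Unit ⊕ (Fin d ⊕ Fin d)) F)) ≤ W →
        finrank F W < d := by
  classical
  obtain ⟨g, hgΩ, hg2, hdim, haniso⟩ := ot_bad_two_a h2 hm1 d hd
  refine ⟨(g : Matrix.GeneralLinearGroup (Unit ⊕ (Fin d ⊕ Fin d)) F), ?_, ?_, ?_⟩
  · exact Subgroup.mem_map_of_mem _ hgΩ
  · have hx2 : (g : Matrix.GeneralLinearGroup (Unit ⊕ (Fin d ⊕ Fin d)) F) ^ 2 = 1 := by
      apply Units.ext
      rw [pow_two]
      exact hg2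
    have hx1 : (g : Matrix.GeneralLinearGroup (Unit ⊕ (Fin d ⊕ Fin d)) F) ≠ 1 := by
      intro h1
      have hgm : gm g = 1 := congrArg Units.val h1
      rw [hgm] at hdim
      have hk : LinearMap.ker (Matrix.toLin' (1 : Matrix (Unit ⊕ (Fin d ⊕ Fin d))
          (Unit ⊕ (Fin d ⊕ Fin d)) F) + 1) = ⊥ := by
        rw [LinearMap.ker_eq_bot']
        intro v hv
        rw [Matrix.toLin'_one, LinearMap.add_apply, LinearMap.id_apply, Module.End.one_apply]
          at hv
        have h3 : (2 : F) • v = 0 := by rw [two_smul]; exact hv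
        exact (smul_eq_zero.mp h3).resolve_left h2
      rw [hk, finrank_bot] at hdim
      omega
    exact orderOf_eq_prime hx2 hx1
  · intro W hWs hWT
    obtain ⟨T, hTdef⟩ : ∃ T : Module.End F (Unit ⊕ (Fin d ⊕ Fin d) → F),
        T = Matrix.toLin' (gm g) := ⟨_, rfl⟩
    have hh := isHerm_ph (Cfsg.Agent.Helper43.oddQF d F)
    have hnd : ∀ v, (∀ w, ph (Cfsg.Agent.Helper43.oddQF d F) v w = 0) → v = 0 :=
      ph_odd_nondeg h2 d
    have hT : HPres (ph (Cfsg.Agent.Helper43.oddQF d F)) T := by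
      apply hpres_ph
      intro v
      rw [hTdef, Matrix.toLin'_apply]
      exact g.2 v v
    have hT2 : T ^ 2 = 1 := by
      rw [pow_two, hTdef]
      have h3 : Matrix.toLin' (gm g) * Matrix.toLin' (gm g) = Matrix.toLin' (gm g * gm g) :=
        (Matrix.toLin'_mul (gm g) (gm g)).symm
      rw [h3, hg2, Matrix.toLin'_one]
      rfl
    obtain ⟨hsum, hnd1, hnd2, hW⟩ :=
      ot_inv_b (ph (Cfsg.Agent.Helper43.oddQF d F)) hh hnd h2 T hT hT2
    have hWdim := hW W (by rw [hTdef]; exact hWT)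
    have hbot : W ⊓ LinearMap.ker (T + 1) = ⊥ := by
      rw [eq_bot_iff]
      intro w hw
      have hw2 : w ∈ LinearMap.ker (Matrix.toLin' (gm g) + 1) := by
        rw [← hTdef]; exact hw.2
      exact (Submodule.mem_bot F).mpr (haniso w hw2 (hWs w hw.1))
    rw [hbot, finrank_bot, add_zero] at hWdim
    have hTI : HTI (ph (Cfsg.Agent.Helper43.oddQF d F)) (W ⊓ LinearMap.ker (T - 1)) := by
      rw [hti_ph_iff h2]
      intro w hw
      exact hWs w hw.1
    have hb := Cfsg.Agent.Helper47.HT5953.ht_bound (RingHom.id F)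
      (ph (Cfsg.Agent.Helper43.oddQF d F)) hh (LinearMap.ker (T - 1))
      (W ⊓ LinearMap.ker (T - 1)) hnd1 inf_le_right hTI
    have hV : finrank F (Unit ⊕ (Fin d ⊕ Fin d) → F) = 2 * d + 1 := by
      rw [Module.finrank_fintype_fun_eq_card]
      simp
      omega
    rw [hTdef] at hsum hb hWdim
    omega

end grp3

end Cfsg.Agent.Helper86.OT5972
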