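import Mathlib
import Cfsg.Agent.Helper86.ELCNTCore

set_option autoImplicit false

/-!
# CALL S88 (row S5988), shared stage CAU, generic form (helper86), ALL characteristics.

* `el_gl_of_end`: an isometry `T : Module.End F (ι → F)` with `T ^ r = 1` as an element of the
  Prelude isometry group.
* `el_cauchy`: if the prime `r` divides the number of elliptic `m`-spaces (`m` even) and there is
  one, the isometry group has an element `x ≠ 1` with `x ^ r = 1`.
-/

namespace Cfsg.Agent.Helper86.EL5988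

open Module Polynomial Cfsg Cfsg.Geo
open Cfsg.Agent.Helper13.TIu Cfsg.Agent.Helper96.OH
open scoped MatrixGroups

variable {ι : Type} [Fintype ι] [DecidableEq ι] {F : Type*} [Field F] (Q : (ι → F) → F)

theorem el_toLin'_pow (M : Matrix ι ι F) (k : ℕ) :
    Matrix.toLin' M ^ k = Matrix.toLin' (M ^ k) := by
  induction k with
  | zero => rw [pow_zero, pow_zero, Matrix.toLin'_one]; rfl
  | succ k ih => rw [pow_succ, pow_succ, Matrix.toLin'_mul, ih]; rfl

/-- an isometry of finite order as an element of the isometry group -/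
theorem el_gl_of_end (T : Module.End F (ι → F)) (r : ℕ) (hr0 : 0 < r) (hT : OPres Q T)
    (hTr : T ^ r = 1) :
    ∃ x : GL ι F, x ∈ Cfsg.isometryGroup F Q ∧ x ^ r = 1 ∧
      Matrix.toLin' (x : Matrix ι ι F) = T := by
  have hM : Matrix.toLin' (LinearMap.toMatrix' T) = T := Matrix.toLin'_toMatrix' T
  have hMr : (LinearMap.toMatrix' T) ^ r = 1 := by
    apply Matrix.toLin'.injective
    rw [← el_toLin'_pow, hM, hTr, Matrix.toLin'_one]
    rfl
  obtain ⟨k, rfl⟩ : ∃ k, r = k + 1 := ⟨r - 1, by omega⟩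
  refine ⟨⟨LinearMap.toMatrix' T, (LinearMap.toMatrix' T) ^ k, ?_, ?_⟩, ?_, ?_, hM⟩
  · rw [← pow_succ']
    exact hMr
  · rw [← pow_succ]
    exact hMr
  · intro u v
    show Q (Matrix.mulVec (LinearMap.toMatrix' T) u) = Q u
    rw [← Matrix.toLin'_apply, hM]
    exact hT u
  · apply Units.ext
    rw [Units.val_pow_eq_pow_val]
    exact hMr

/-- CAU, generic: a nontrivial isometry of order `r`. -/
theorem el_cauchy [Fintype F] (hQ : IsNondegenerateQuadraticForm Q) (r : ℕ) [Fact r.Prime]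
    (m : ℕ) (hme : Even m)
    (hne : ∃ W : Submodule F (ι → F), finrank F W = m ∧ ONd Q W ∧ ¬ OPl Q W)
    (hr : r ∣ Nat.card {W : Submodule F (ι → F) // finrank F W = m ∧ ONd Q W ∧ ¬ OPl Q W}) :
    ∃ x : GL ι F, x ∈ Cfsg.isometryGroup F Q ∧ x ^ r = 1 ∧ x ≠ 1 := by
  obtain ⟨W₀, hW₀⟩ := hne
  have hcard : Nat.card {W : Submodule F (ι → F) // finrank F W = m ∧ ONd Q W ∧ ¬ OPl Q W} =
      Nat.card {W : Submodule F (ι → F) //
        (finrank F W = m ∧ ONd Q W ∧ ¬ OPl Q W) ∧ W ≤ ⊤} :=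
    Nat.card_congr (Equiv.subtypeEquivRight (fun W => ⟨fun h => ⟨h, le_top⟩, fun h => h.1⟩))
  rw [hcard] at hr
  obtain ⟨T, hT, hT1, hTr, -, -⟩ :=
    el_cnt_core Q hQ r m hme ⊤ (ond_top Q hQ) W₀ ⟨hW₀, le_top⟩ hr
  obtain ⟨x, hx, hxr, hxT⟩ := el_gl_of_end Q T r (Nat.Prime.pos Fact.out) hT hTr
  refine ⟨x, hx, hxr, ?_⟩
  intro h1
  apply hT1
  rw [← hxT, h1, Units.val_one, Matrix.toLin'_one]
  rfl

end Cfsg.Agent.Helper86.EL5988
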