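import Mathlib

set_option autoImplicit false

/-!
# CALL TS (helper58), piece AO0: `ts_arith_odd_plus` (pure arithmetic).
-/

namespace Cfsg.Agent.Helper86.TS5973

theorem ts_arith_odd_plus (i d m : ℕ) (hi : Odd i) (hm : 1 ≤ m) (hmd : m < d)
    (hH : ∃ j, j < m ∧ i ∣ d - j) :
    (∀ a, 1 ≤ a → i * a ≤ d → ∃ s w, s ≤ a ∧ w + i * a ≤ d ∧ m = i * s + w) ↔
      (i ≤ m ∧ 2 * (m % i) ≤ (2 * d) % (2 * i)) := by
  have hi0 : 0 < i := hi.pos
  have hmod : (2 * d) % (2 * i) = 2 * (d % i) := Nat.mul_mod_mul_left 2 d i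
  rw [hmod]
  have hdm := Nat.div_add_mod d i
  have hmm := Nat.div_add_mod m i
  have hdlt := Nat.mod_lt d hi0
  have hmlt := Nat.mod_lt m hi0
  constructor
  · intro h
    have him : i ≤ m := by
      by_contra hlt
      obtain ⟨j, hj, u, hu⟩ := hH
      have hu1 : 1 ≤ u := by
        rcases Nat.eq_zero_or_pos u with h0 | h0
        · rw [h0, mul_zero] at hu
          omega
        · exact h0
      obtain ⟨s, w, hs, hw, hmsw⟩ := h u hu1 (by omega)
      have hs0 : s = 0 := by
        by_contra hs0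
        have h1 : i ≤ i * s := Nat.le_mul_of_pos_right i (Nat.pos_of_ne_zero hs0)
        omega
      rw [hs0, mul_zero] at hmsw
      omega
    refine ⟨him, ?_⟩
    have hd1 : 1 ≤ d / i := (Nat.one_le_div_iff hi0).mpr (by omega)
    obtain ⟨s, w, hs, hw, hmsw⟩ := h (d / i) hd1 (by omega)
    have hwlt : w < i := by omega
    have hw' : m % i = w := by
      rw [hmsw, Nat.mul_add_mod]
      exact Nat.mod_eq_of_lt hwlt
    omega
  · rintro ⟨him, hle⟩ a ha hia
    by_cases hcase : m / i ≤ a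
    · refine ⟨m / i, m % i, hcase, ?_, hmm.symm⟩
      have ha' : a ≤ d / i := (Nat.le_div_iff_mul_le hi0).mpr (by rw [mul_comm]; exact hia)
      have h1 : i * a ≤ i * (d / i) := Nat.mul_le_mul_left i ha'
      omega
    · have hlt : a < m / i := Nat.lt_of_not_le hcase
      have h1 : i * (a + 1) ≤ i * (m / i) := Nat.mul_le_mul_left i hlt
      have h2 : i * (a + 1) = i * a + i := by ring
      refine ⟨a, m - i * a, le_refl a, by omega, by omega⟩

end Cfsg.Agent.Helper86.TS5973
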