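import Mathlib

set_option autoImplicit false

/-!
# CALL TS (helper58), piece ORD: `ts_ord` (pure arithmetic).
-/

namespace Cfsg.Agent.Helper86.TS5973

theorem ts_ord (r q : ℕ) [Fact r.Prime] (hr2 : 2 < r) (hrq : ¬ r ∣ q) (i : ℕ)
    (hi : i = orderOf ((q : ℕ) : ZMod r)) :
    0 < i ∧ i ∣ r - 1 ∧ (∀ e, r ∣ q ^ e - 1 ↔ i ∣ e) ∧
      (∀ e, r ∣ q ^ e + 1 ↔ (Even i ∧ e % i = i / 2)) := by
  have hrp : r.Prime := Fact.out
  have hx0 : ((q : ℕ) : ZMod r) ≠ 0 := by
    intro h
    exact hrq ((ZMod.natCast_eq_zero_iff q r).mp h)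
  have hq0 : 0 < q := by
    rcases Nat.eq_zero_or_pos q with h | h
    · exfalso
      apply hrq
      rw [h]
      exact dvd_zero r
    · exact h
  have hdvd : i ∣ r - 1 := by
    rw [hi]
    exact orderOf_dvd_of_pow_eq_one (ZMod.pow_card_sub_one_eq_one hx0)
  have hipos : 0 < i := Nat.pos_of_dvd_of_pos hdvd (by omega)
  have hpow : ∀ e, ((q : ℕ) : ZMod r) ^ e = 1 ↔ i ∣ e := by
    intro e
    rw [hi]
    exact (orderOf_dvd_iff_pow_eq_one).symm
  have hneg : (-1 : ZMod r) ≠ 1 := by
    intro h
    have h2 : ((2 : ℕ) : ZMod r) = 0 := by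
      have h3 : (1 : ZMod r) + 1 = 0 := by
        nth_rewrite 1 [← h]
        ring
      push_cast
      rw [← h3]
      ring
    have h4 := (ZMod.natCast_eq_zero_iff 2 r).mp h2
    have h5 := Nat.le_of_dvd (by norm_num) h4
    omega
  refine ⟨hipos, hdvd, ?_, ?_⟩
  · intro e
    rw [← hpow e, ← ZMod.natCast_eq_zero_iff, Nat.cast_sub (Nat.one_le_pow _ _ hq0),
      Nat.cast_pow, Nat.cast_one, sub_eq_zero]
  · intro e
    have hcast : r ∣ q ^ e + 1 ↔ ((q : ℕ) : ZMod r) ^ e = -1 := by
      rw [← ZMod.natCast_eq_zero_iff, Nat.cast_add, Nat.cast_pow, Nat.cast_one,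
        eq_neg_iff_add_eq_zero]
    rw [hcast]
    have hem := Nat.div_add_mod e i
    have hemlt := Nat.mod_lt e hipos
    constructor
    · intro h
      -- `i ∣ 2 e`, `¬ i ∣ e`
      have h2e : i ∣ 2 * e := by
        rw [← hpow, mul_comm, pow_mul, h]
        norm_num
      have hne : ¬ i ∣ e := by
        intro hd
        rw [← hpow, h] at hd
        exact hneg hd
      have hev : Even i := by
        by_contra hodd
        rw [Nat.not_even_iff_odd] at hodd
        have hcop : Nat.Coprime i 2 := Nat.Coprime.symm (Nat.coprime_two_left.mpr hodd)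
        exact hne (hcop.dvd_of_dvd_mul_left h2e)
      refine ⟨hev, ?_⟩
      obtain ⟨j, hj⟩ := hev
      -- `i = j + j`, `2 j ∣ 2 e`
      have hj' : j ∣ e := by
        have h3 : 2 * j ∣ 2 * e := by
          have h4 : 2 * j = i := by omega
          rw [h4]
          exact h2e
        exact (Nat.mul_dvd_mul_iff_left (by norm_num : 0 < 2)).mp h3
      obtain ⟨c, hc⟩ := hj'
      have hcodd : Odd c := by
        by_contra hce
        rw [Nat.not_odd_iff_even] at hce
        obtain ⟨c', hc'⟩ := hce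
        apply hne
        refine ⟨c', ?_⟩
        rw [hc, hc', hj]
        ring
      obtain ⟨c', hc'⟩ := hcodd
      have he : e = i * c' + j := by
        rw [hc, hc', hj]
        ring
      have hjlt : j < i := by omega
      have h5 : e % i = j := by
        rw [he, Nat.mul_add_mod]
        exact Nat.mod_eq_of_lt hjlt
      rw [h5]
      omega
    · rintro ⟨hev, hmod⟩
      obtain ⟨j, hj⟩ := hev
      have hj2 : i / 2 = j := by omega
      have he : e = i * (e / i) + j := by omega
      have hxi : ((q : ℕ) : ZMod r) ^ i = 1 := (hpow i).mpr dvd_rfl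
      have hy2 : (((q : ℕ) : ZMod r) ^ j) ^ 2 = 1 := by
        rw [← pow_mul]
        have h6 : j * 2 = i := by omega
        rw [h6, hxi]
      have hy1 : ((q : ℕ) : ZMod r) ^ j ≠ 1 := by
        intro h
        have h7 := (hpow j).mp h
        have h8 := Nat.le_of_dvd (by omega) h7
        omega
      have hy : ((q : ℕ) : ZMod r) ^ j = -1 := by
        have h9 : (((q : ℕ) : ZMod r) ^ j - 1) * (((q : ℕ) : ZMod r) ^ j + 1) = 0 := by
          linear_combination hy2
        rcases mul_eq_zero.mp h9 with h | h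
        · exact absurd (sub_eq_zero.mp h) hy1
        · exact eq_neg_of_add_eq_zero_left h
      rw [he, pow_add, pow_mul, hxi, one_pow, one_mul, hy]

end Cfsg.Agent.Helper86.TS5973
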