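import Mathlib
import Cfsg.Prelude.Def_GeometricClasses
import Cfsg.Prelude.Def_Classical
import Cfsg.Agent.Helper35.S88Defs
import Cfsg.Agent.Helper35.ELSUBT
import Cfsg.Agent.Helper86.ELCAU

set_option autoImplicit false

/-!
# CALL S90 (row S5990; top architect helper98), hypothesis stage CAUM (helper86)

`s90_cauchy`: `Helper86.S88.s88_cauchy` for an ambient form of MINUS type (`hminus`) and
`m + 2 ≤ 2 d`, ALL characteristics: if the prime `r` divides the number of elliptic `m`-spaces,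
the isometry group of `Q` has an element of order `r`.  (The type of `Q` is not used.)
-/

namespace Cfsg.Agent.Helper86.S90

open Module Cfsg Cfsg.Geo Cfsg.Agent.Helper35.S88
open scoped MatrixGroups

variable {ι : Type} [Fintype ι] [DecidableEq ι] {F : Type*} [Field F] [Fintype F]

/-- CAUM. -/
theorem s90_cauchy (Q : (ι → F) → F) (hQ : IsNondegenerateQuadraticForm Q) (d m : ℕ)
    (hcard : Fintype.card ι = 2 * d) (hminus : ¬ IsPlusTypeOn Q ⊤)
    (hm : 2 ≤ m) (hme : Even m) (hmn : m + 2 ≤ 2 * d) (r : ℕ) [Fact r.Prime]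
    (hrΩ : r ∣ Nat.card {W : Submodule F (ι → F) // Module.finrank F ↥W = m ∧
      IsNondegenerateOn (QuadraticMap.polar Q) W ∧ ¬ IsPlusTypeOn Q W}) :
    ∃ x : GL ι F, x ∈ Cfsg.isometryGroup F Q ∧ x ^ r = 1 ∧ x ≠ 1 := by
  have htop : finrank F (⊤ : Submodule F (ι → F)) = 2 * d := by
    rw [finrank_top, Module.finrank_fintype_fun_eq_card, hcard]
  obtain ⟨X, -, hXnd, hXdim, hXty⟩ := Cfsg.Agent.Helper35.EL.el_sub Q hQ ⊤
    (Cfsg.Agent.Helper96.OH.ond_top Q hQ) d htop m hme (by omega) (by omega) False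
  exact Cfsg.Agent.Helper86.EL5988.el_cauchy Q hQ r m hme
    ⟨X, hXdim, hXnd, fun h => hXty.mp h⟩ hrΩ

end Cfsg.Agent.Helper86.S90
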