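import Mathlib
import Cfsg.Prelude.Def_GeometricClasses
import Cfsg.Prelude.Def_Classical
import Cfsg.Agent.Helper58.TSDefs
import Cfsg.Agent.Helper43.PrimeOrdO3
import Cfsg.Agent.Helper33.OType
import Cfsg.Agent.Helper43.OrthStd
import Cfsg.Agent.Helper43.TBXISO
import Cfsg.Agent.Helper37.TBBLKO
import Cfsg.Agent.Helper37.TBBLKE
import Cfsg.Agent.Helper35.TBFULL
import Cfsg.Agent.Helper96.OHDefs
import Cfsg.Agent.Helper86.ELBADMAX

set_option autoImplicit false

/-!
# CALL S90 (row S5990), hypothesis stage NDIVM, the bad element of maximal profile for an ambient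
form of MINUS type (helper86)

* `el_xfer_m`: transport of an isometry of a model space of minus type to `Q` (minus type).
* `el_badmax_m`: for `Q` of minus type on `ι → F`, `|ι| = 2 d`, `c ≤ 2 d`, `0 < (2 d) % c`: an
  isometry `T` of `Q` with `T ^ r = 1` and fixed space of dimension `(2 d) % c`.
-/

namespace Cfsg.Agent.Helper86.EL5988

open Module Polynomial Cfsg Cfsg.Geo Cfsg.Agent.Helper58.TS
open Cfsg.Agent.Helper43 Cfsg.Agent.Helper43.OrthEven Cfsg.Agent.Helper43.CycFactors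
  Cfsg.Agent.Helper43.PrimeOrdMat
open Cfsg.Agent.Helper43.TB (tb_xiso)
open Cfsg.Agent.Helper37.TB (tb_blk_odd tb_blk_even)
open Cfsg.Agent.Helper35.TB (tb_fixed_space)
open Cfsg.Agent.Helper96.OH
open scoped MatrixGroups

universe u

section gluem

variable {F : Type u} [Field F] [Fintype F]

/-- transport of an isometry of a model space of minus type to `Q` (of minus type). -/
theorem el_xfer_m {ι : Type} [Fintype ι] [DecidableEq ι] (Q : (ι → F) → F)
    (hQ : IsNondegenerateQuadraticForm Q) (d : ℕ) (hd : 1 ≤ d)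
    (hcard : Fintype.card ι = 2 * d) (hminus : ¬ IsPlusTypeOn Q ⊤) (r : ℕ) {V' : Type u}
    [AddCommGroup V'] [Module F V'] [FiniteDimensional F V'] (Q' : QuadraticForm F V')
    (hnd : PolarNondeg Q') (hdim : finrank F V' = 2 * d) (htype : ¬ HasTS Q' d)
    (T : Module.End F V') (hT : ∀ v, Q' (T v) = Q' v) (hTr : T ^ r = 1) :
    ∃ T' : Module.End F (ι → F), OPres Q T' ∧ T' ^ r = 1 ∧
      finrank F (LinearMap.ker (T' - 1)) = finrank F (LinearMap.ker (T - 1)) := by
  classical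
  obtain ⟨Φ, hΦ⟩ := tb_xiso Q hQ d 1 hd hcard (typeDefect_minus hminus) Q' hnd hdim
    ⟨fun h => absurd h htype, fun h => absurd h one_ne_zero⟩
  obtain ⟨T', hT'app⟩ : ∃ T' : Module.End F (ι → F), ∀ x, T' x = Φ (T (Φ.symm x)) :=
    ⟨(Φ : V' →ₗ[F] (ι → F)) ∘ₗ T ∘ₗ (Φ.symm : (ι → F) →ₗ[F] V'), fun x => rfl⟩
  have hpow : ∀ n : ℕ, ∀ x, (T' ^ n) x = Φ ((T ^ n) (Φ.symm x)) := by
    intro n
    induction n with
    | zero =>
      intro x
      rw [pow_zero, pow_zero, Module.End.one_apply, Module.End.one_apply,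
        LinearEquiv.apply_symm_apply]
    | succ n ih =>
      intro x
      rw [pow_succ, Module.End.mul_apply, ih, hT'app, LinearEquiv.symm_apply_apply, pow_succ,
        Module.End.mul_apply]
  have hkereq : LinearMap.ker (T' - 1) =
      (LinearMap.ker (T - 1)).map (Φ : V' →ₗ[F] (ι → F)) := by
    ext x
    rw [LinearMap.mem_ker, LinearMap.sub_apply, Module.End.one_apply, sub_eq_zero, hT'app,
      Submodule.mem_map]
    constructor
    · intro h
      refine ⟨Φ.symm x, ?_, LinearEquiv.apply_symm_apply Φ x⟩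
      rw [LinearMap.mem_ker, LinearMap.sub_apply, Module.End.one_apply, sub_eq_zero]
      apply Φ.injective
      rw [h, LinearEquiv.apply_symm_apply]
    · rintro ⟨v, hv, rfl⟩
      rw [LinearMap.mem_ker, LinearMap.sub_apply, Module.End.one_apply, sub_eq_zero] at hv
      show Φ (T (Φ.symm (Φ v))) = Φ v
      rw [LinearEquiv.symm_apply_apply, hv]
  refine ⟨T', ?_, ?_, ?_⟩
  · intro v
    rw [hT'app, hΦ, hT, ← hΦ, LinearEquiv.apply_symm_apply]
  · apply LinearMap.ext
    intro x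
    rw [hpow, hTr, Module.End.one_apply, LinearEquiv.apply_symm_apply, Module.End.one_apply]
  · rw [hkereq, LinearEquiv.finrank_map_eq]

/-- BADMAX, minus type: an isometry of `Q` (minus type, `|ι| = 2 d`) with `T ^ r = 1` whose fixed space has
dimension `(2 d) % c`. -/
theorem el_badmax_m {ι : Type} [Fintype ι] [DecidableEq ι] (Q : (ι → F) → F)
    (hQ : IsNondegenerateQuadraticForm Q) (d : ℕ) (hcard : Fintype.card ι = 2 * d)
    (hminus : ¬ IsPlusTypeOn Q ⊤) (p : ℕ) [Fact p.Prime] [CharP F p] (r : ℕ) [Fact r.Prime]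
    (hr2 : 2 < r) (hrp : r ≠ p) (i c : ℕ) (hi : i = orderOf ((Fintype.card F : ℕ) : ZMod r))
    (hc : c = if Even i then i else 2 * i) (hcd : c ≤ 2 * d) (hpos : 0 < (2 * d) % c) :
    ∃ T : Module.End F (ι → F), OPres Q T ∧ T ^ r = 1 ∧
      finrank F (LinearMap.ker (T - 1)) = (2 * d) % c := by
  classical
  have hr : r.Prime := Fact.out
  have hipos : 0 < i := by rw [hi]; exact orderOf_pos_of_card (p := p) rfl hr hrp
  have hrF : (r : F) ≠ 0 := natCast_ne_zero_of_ne (p := p) hr hrp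
  have hd1 : 1 ≤ d := by
    rcases Nat.eq_zero_or_pos d with h | h
    · subst h
      simp at hpos
    · exact h
  rcases Nat.even_or_odd i with heven | hodd
  · -- `c = i`
    rw [if_pos heven] at hc
    have hc' : i = c := hc.symm
    subst hc'
    have heven' : Even (orderOf ((Fintype.card F : ℕ) : ZMod r)) := by rw [← hi]; exact heven
    obtain ⟨j, hj⟩ := heven
    have hj2 : i / 2 = j := by omega
    have hcardJ : (cycJ F r).card * i = r - 1 := by
      rw [hi]; exact cycJ_card_mul (p := p) rfl hr hrp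
    have hne : (cycJ F r).Nonempty := by
      rw [← Finset.card_pos]
      by_contra h
      have h0 : (cycJ F r).card = 0 := by omega
      rw [h0, zero_mul] at hcardJ
      omega
    obtain ⟨P, hP⟩ := hne
    obtain ⟨A, hA⟩ : ∃ A, A = (2 * d) / i := ⟨_, rfl⟩
    obtain ⟨ρ, hρ⟩ : ∃ ρ, ρ = (2 * d) % i := ⟨_, rfl⟩
    obtain ⟨V₁, _, _, _, Q₁, T₁, hnd₁, hT₁, hcyc₁, -, hfr₁, hts₁, -⟩ :=
      tb_blk_even (F := F) p r hr2 hrp heven' P hP A
    rw [← hi, hj2] at hfr₁ hts₁
    have hdm := Nat.div_add_mod (2 * d) i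
    rw [← hA, ← hρ] at hdm
    rw [← hρ] at hpos ⊢
    have hiA : i * A = 2 * (j * A) := by rw [hj]; ring
    obtain ⟨k₀, hk₀⟩ : ∃ k₀, ρ = 2 * k₀ := ⟨ρ / 2, by omega⟩
    have hk₀1 : 1 ≤ k₀ := by omega
    obtain ⟨ε₀, hε₀⟩ : ∃ ε₀ : ℕ, ε₀ = if Even A then 1 else 0 := ⟨_, rfl⟩
    have hε1 : ε₀ ≤ 1 := by
      rw [hε₀]
      split_ifs <;> omega
    obtain ⟨V', _, _, _, Q', T, hnd', hdim', htype', hT', hTr, hker⟩ :=
      el_glue r hrF Q₁ T₁ hnd₁ hT₁ hcyc₁ (j * A) hfr₁ k₀ ε₀ hε1 (by omega)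
    have hkl : k₀ + j * A = d := by omega
    rw [hkl] at hdim' htype'
    have htype : ¬ HasTS Q' d := by
      rw [htype', hts₁, hε₀]
      by_cases hA2 : Even A
      · rw [if_pos hA2]
        exact fun h => one_ne_zero (h.mpr hA2)
      · rw [if_neg hA2]
        exact fun h => hA2 (h.mp rfl)
    obtain ⟨T', hT'1, hT'2, hT'3⟩ :=
      el_xfer_m Q hQ d hd1 hcard hminus r Q' hnd' hdim' htype T hT' hTr
    exact ⟨T', hT'1, hT'2, by rw [hT'3, hker, hk₀]⟩
  · -- `c = 2 i`
    have hne : ¬ Even i := Nat.not_even_iff_odd.mpr hodd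
    rw [if_neg hne] at hc
    subst hc
    have hodd' : Odd (orderOf ((Fintype.card F : ℕ) : ZMod r)) := by rw [← hi]; exact hodd
    obtain ⟨V₁, _, _, _, Q₁, T₁, hnd₁, hT₁, hcyc₁, hfr₁, hts₁, -⟩ :=
      tb_blk_odd (F := F) p r hr2 hrp hodd' (d / i)
    rw [← hi] at hfr₁ hts₁
    have hmod : (2 * d) % (2 * i) = 2 * (d % i) := Nat.mul_mod_mul_left 2 d i
    have hdm := Nat.div_add_mod d i
    obtain ⟨V', _, _, _, Q', T, hnd', hdim', htype', hT', hTr, hker⟩ :=
      el_glue r hrF Q₁ T₁ hnd₁ hT₁ hcyc₁ (i * (d / i)) hfr₁ (d % i) 1 (by omega) (by omega)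
    have hkl : d % i + i * (d / i) = d := by omega
    rw [hkl] at hdim' htype'
    have htype : ¬ HasTS Q' d := fun h => one_ne_zero ((htype'.mp h).mpr hts₁)
    obtain ⟨T', hT'1, hT'2, hT'3⟩ :=
      el_xfer_m Q hQ d hd1 hcard hminus r Q' hnd' hdim' htype T hT' hTr
    exact ⟨T', hT'1, hT'2, by rw [hT'3, hker, hmod]⟩

end gluem

end Cfsg.Agent.Helper86.EL5988
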