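import Mathlib
import Cfsg.Prelude.Def_GeometricClasses
import Cfsg.Prelude.Def_Classical
import Cfsg.Agent.Helper35.S88Defs
import Cfsg.Agent.Helper86.ELNDIVM
import Cfsg.Agent.Helper86.ELBADMAXM

set_option autoImplicit false

/-!
# CALL S90 (row S5990; top architect helper98), hypothesis stage NDIVM (helper86)

`s90_ndiv`: `Helper86.S88.s88_ndiv` for an ambient form of MINUS type, ALL characteristics:
`r` odd `≠ p`, `i = ord_r(q)`, `c = i` (`i` even) or `2 i` (`i` odd), `m < c ≤ 2 d` and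
[`m < (2 d) % c`, or `m = (2 d) % c` and (`i` odd or `(2 d) / i` even)]: then `r` does NOT divide
the number of elliptic `m`-spaces.
-/

namespace Cfsg.Agent.Helper86.S90

open Module Cfsg Cfsg.Geo Cfsg.Agent.Helper35.S88
open scoped MatrixGroups

variable {ι : Type} [Fintype ι] [DecidableEq ι] {F : Type*} [Field F] [Fintype F]

/-- NDIVM. -/
theorem s90_ndiv {p : ℕ} [Fact p.Prime] [CharP F p] {q : ℕ} (hq : Fintype.card F = q)
    (Q : (ι → F) → F) (hQ : IsNondegenerateQuadraticForm Q) (d m : ℕ)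
    (hcard : Fintype.card ι = 2 * d) (hminus : ¬ IsPlusTypeOn Q ⊤)
    (hm : 2 ≤ m) (hme : Even m) (hmn : m + 2 ≤ 2 * d) (r : ℕ) [Fact r.Prime] (hr2 : 2 < r)
    (hrp : r ≠ p) (i c : ℕ) (hi : i = orderOf (q : ZMod r))
    (hc : c = if Even i then i else 2 * i) (hmc : m < c) (hcd : c ≤ 2 * d)
    (hk : m < (2 * d) % c ∨ (m = (2 * d) % c ∧ (Odd i ∨ Even ((2 * d) / i)))) :
    ¬ r ∣ Nat.card {W : Submodule F (ι → F) // Module.finrank F ↥W = m ∧
      IsNondegenerateOn (QuadraticMap.polar Q) W ∧ ¬ IsPlusTypeOn Q W} := by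
  subst hq
  have hr : r.Prime := Fact.out
  have hrF : (r : F) ≠ 0 :=
    Cfsg.Agent.Helper43.CycFactors.natCast_ne_zero_of_ne (p := p) hr hrp
  have hpos : 0 < (2 * d) % c := by
    rcases hk with h | ⟨h, -⟩ <;> omega
  obtain ⟨T, hT, hTr, hker⟩ :=
    Cfsg.Agent.Helper86.EL5988.el_badmax_m Q hQ d hcard hminus p r hr2 hrp i c hi hc hcd hpos
  have hcpos : 0 < c := by omega
  have hfix : finrank F (LinearMap.ker (T - 1)) < c := by
    rw [hker]
    exact Nat.mod_lt _ hcpos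
  exact Cfsg.Agent.Helper86.EL5988.el_ndiv_of_bad_m Q hQ hminus d hcard r hr2 hrF i c hi hc m hme
    (by omega) hmc T hT hTr hfix (by rw [hker, hcard]; exact hk)

end Cfsg.Agent.Helper86.S90
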