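import Cfsg.Agent.Helper86.AltNormK
import Cfsg.Agent.Helper86.AltCritB

set_option autoImplicit false
set_option linter.unusedSectionVars false

namespace Cfsg.Agent.Helper86

open Equiv Equiv.Perm

theorem pow_eq_of_add_hom {α M : Type*} [AddCommMonoid M] (F : M → Perm α) (h0 : F 0 = 1)
    (hmul : ∀ a b, F a * F b = F (a + b)) (a : M) (n : ℕ) : F a ^ n = F (n • a) := by
  induction n with
  | zero => rw [pow_zero, zero_smul, h0]
  | succ n ih => rw [pow_succ, ih, hmul, succ_nsmul]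

section Model

variable {p : ℕ} [Fact p.Prime]

/-- translations of the plane -/
def tV (w : ZMod p × ZMod p) : Perm (ZMod p × ZMod p) := Equiv.addRight w

theorem tV_apply (w u : ZMod p × ZMod p) : tV w u = u + w := rfl

theorem tV_mul (a b : ZMod p × ZMod p) : tV a * tV b = tV (a + b) := by
  refine Equiv.ext (fun u => ?_)
  show u + b + a = u + (a + b)
  rw [add_assoc, add_comm b a]

theorem tV_zero : tV (0 : ZMod p × ZMod p) = 1 := by
  refine Equiv.ext (fun u => ?_)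
  show u + 0 = u
  rw [add_zero]

theorem tV_pow_p (w : ZMod p × ZMod p) : tV w ^ p = 1 := by
  rw [pow_eq_of_add_hom tV tV_zero tV_mul]
  have h : p • w = 0 := by
    refine Prod.ext ?_ ?_
    · show p • w.1 = 0
      rw [nsmul_eq_mul, ZMod.natCast_self, zero_mul]
    · show p • w.2 = 0
      rw [nsmul_eq_mul, ZMod.natCast_self, zero_mul]
  rw [h, tV_zero]

theorem tV_comm (a b : ZMod p × ZMod p) : tV a * tV b = tV b * tV a := by
  rw [tV_mul, tV_mul, add_comm]

/-- conjugating a translation by an additive permutation -/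
theorem conj_tV (f : Perm (ZMod p × ZMod p)) (hf : ∀ u w, f (u + w) = f u + f w)
    (w : ZMod p × ZMod p) : f * tV w * f⁻¹ = tV (f w) := by
  refine Equiv.ext (fun u => ?_)
  show f (f⁻¹ u + w) = u + f w
  rw [hf, papply_inv_self]

/-- upper unitriangular maps -/
def xV (a : ZMod p) : Perm (ZMod p × ZMod p) where
  toFun w := (w.1 + a * w.2, w.2)
  invFun w := (w.1 - a * w.2, w.2)
  left_inv w := by
    obtain ⟨y, x⟩ := w
    show (y + a * x - a * x, x) = (y, x)
    rw [add_sub_cancel_right]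
  right_inv w := by
    obtain ⟨y, x⟩ := w
    show (y - a * x + a * x, x) = (y, x)
    rw [sub_add_cancel]

/-- lower unitriangular maps -/
def yV (a : ZMod p) : Perm (ZMod p × ZMod p) where
  toFun w := (w.1, w.2 + a * w.1)
  invFun w := (w.1, w.2 - a * w.1)
  left_inv w := by
    obtain ⟨y, x⟩ := w
    show (y, x + a * y - a * y) = (y, x)
    rw [add_sub_cancel_right]
  right_inv w := by
    obtain ⟨y, x⟩ := w
    show (y, x - a * y + a * y) = (y, x)
    rw [sub_add_cancel]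

/-- diagonal maps of determinant one -/
def dV (v : (ZMod p)ˣ) : Perm (ZMod p × ZMod p) := Equiv.prodCongr (mulP v⁻¹) (mulP v)

theorem xV_apply (a y x : ZMod p) : xV a (y, x) = (y + a * x, x) := rfl

theorem yV_apply (a y x : ZMod p) : yV a (y, x) = (y, x + a * y) := rfl

theorem dV_apply (v : (ZMod p)ˣ) (y x : ZMod p) :
    dV v (y, x) = (((v⁻¹ : (ZMod p)ˣ) : ZMod p) * y + 0, (v : ZMod p) * x + 0) := rfl

theorem xV_add (a : ZMod p) (u w : ZMod p × ZMod p) : xV a (u + w) = xV a u + xV a w := by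
  obtain ⟨y, x⟩ := u
  obtain ⟨y', x'⟩ := w
  refine Prod.ext ?_ rfl
  show y + y' + a * (x + x') = y + a * x + (y' + a * x')
  ring

theorem yV_add (a : ZMod p) (u w : ZMod p × ZMod p) : yV a (u + w) = yV a u + yV a w := by
  obtain ⟨y, x⟩ := u
  obtain ⟨y', x'⟩ := w
  refine Prod.ext rfl ?_
  show x + x' + a * (y + y') = x + a * y + (x' + a * y')
  ring

theorem dV_add (v : (ZMod p)ˣ) (u w : ZMod p × ZMod p) : dV v (u + w) = dV v u + dV v w := by
  obtain ⟨y, x⟩ := u
  obtain ⟨y', x'⟩ := w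
  refine Prod.ext ?_ ?_
  · show ((v⁻¹ : (ZMod p)ˣ) : ZMod p) * (y + y') + 0 =
      ((v⁻¹ : (ZMod p)ˣ) : ZMod p) * y + 0 + (((v⁻¹ : (ZMod p)ˣ) : ZMod p) * y' + 0)
    ring
  · show (v : ZMod p) * (x + x') + 0 = (v : ZMod p) * x + 0 + ((v : ZMod p) * x' + 0)
    ring

theorem xV_mul (a b : ZMod p) : xV a * xV b = xV (a + b) := by
  refine Equiv.ext (fun u => ?_)
  obtain ⟨y, x⟩ := u
  refine Prod.ext ?_ rfl
  show y + b * x + a * x = y + (a + b) * x
  ring

theorem xV_zero : xV (0 : ZMod p) = 1 := by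
  refine Equiv.ext (fun u => ?_)
  obtain ⟨y, x⟩ := u
  refine Prod.ext ?_ rfl
  show y + 0 * x = y
  ring

theorem yV_mul (a b : ZMod p) : yV a * yV b = yV (a + b) := by
  refine Equiv.ext (fun u => ?_)
  obtain ⟨y, x⟩ := u
  refine Prod.ext rfl ?_
  show x + b * y + a * y = x + (a + b) * y
  ring

theorem yV_zero : yV (0 : ZMod p) = 1 := by
  refine Equiv.ext (fun u => ?_)
  obtain ⟨y, x⟩ := u
  refine Prod.ext rfl ?_
  show x + 0 * y = x
  ring

theorem xV_pow_p (a : ZMod p) : xV a ^ p = 1 := by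
  rw [pow_eq_of_add_hom xV xV_zero xV_mul, nsmul_eq_mul, ZMod.natCast_self, zero_mul, xV_zero]

theorem yV_pow_p (a : ZMod p) : yV a ^ p = 1 := by
  rw [pow_eq_of_add_hom yV yV_zero yV_mul, nsmul_eq_mul, ZMod.natCast_self, zero_mul, yV_zero]

/-- the diagonal maps are products of unitriangular maps -/
theorem dV_eq (v : (ZMod p)ˣ) :
    dV v * (xV 1 * yV (-1) * xV 1) =
      xV ((v⁻¹ : (ZMod p)ˣ) : ZMod p) * yV (-(v : ZMod p)) * xV ((v⁻¹ : (ZMod p)ˣ) : ZMod p) := by
  have hv : (v : ZMod p) * ((v⁻¹ : (ZMod p)ˣ) : ZMod p) = 1 := Units.mul_inv v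
  refine Equiv.ext (fun u => ?_)
  obtain ⟨y, x⟩ := u
  simp only [Perm.mul_apply, xV_apply, yV_apply, dV_apply]
  refine Prod.ext ?_ ?_
  · dsimp only
    linear_combination (y + ((v⁻¹ : (ZMod p)ˣ) : ZMod p) * x) * hv
  · dsimp only
    linear_combination x * hv

end Model

section Emb

variable {ι' : Type*} [Fintype ι'] [DecidableEq ι'] (R : Type*) [Fintype R] [DecidableEq R]
  {p : ℕ} [Fact p.Prime]

/-- extending a self-map of the plane to the whole set -/
def lamFun (f : ZMod p × ZMod p → ZMod p × ZMod p) :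
    ((ZMod p ⊕ ι') × ZMod p) ⊕ R → ((ZMod p ⊕ ι') × ZMod p) ⊕ R
  | Sum.inl (Sum.inl y, x) => Sum.inl (Sum.inl (f (y, x)).1, (f (y, x)).2)
  | Sum.inl (Sum.inr j, x) => Sum.inl (Sum.inr j, x)
  | Sum.inr r => Sum.inr r

theorem lamFun_comp (f g : ZMod p × ZMod p → ZMod p × ZMod p)
    (q : ((ZMod p ⊕ ι') × ZMod p) ⊕ R) : lamFun R f (lamFun R g q) = lamFun R (f ∘ g) q := by
  rcases q with ⟨y | j, x⟩ | r <;> rfl

theorem lamFun_id (q : ((ZMod p ⊕ ι') × ZMod p) ⊕ R) :
    lamFun R (id : ZMod p × ZMod p → ZMod p × ZMod p) q = q := by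
  rcases q with ⟨y | j, x⟩ | r <;> rfl

/-- extending a permutation of the plane to the whole set -/
def lamHom : Perm (ZMod p × ZMod p) →* Perm (((ZMod p ⊕ ι') × ZMod p) ⊕ R) where
  toFun f :=
    { toFun := lamFun R f
      invFun := lamFun R f.symm
      left_inv := fun q => by
        rw [lamFun_comp]
        have h : (⇑f.symm ∘ ⇑f) = id := funext f.symm_apply_apply
        rw [h, lamFun_id]
      right_inv := fun q => by
        rw [lamFun_comp]
        have h : (⇑f ∘ ⇑f.symm) = id := funext f.apply_symm_apply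
        rw [h, lamFun_id] }
  map_one' := Equiv.ext (fun q => lamFun_id R q)
  map_mul' f g := Equiv.ext (fun q => (lamFun_comp R f g q).symm)

theorem lam_in (f : Perm (ZMod p × ZMod p)) (y x : ZMod p) :
    (lamHom R f : Perm (((ZMod p ⊕ ι') × ZMod p) ⊕ R)) (Sum.inl (Sum.inl y, x)) =
      Sum.inl (Sum.inl (f (y, x)).1, (f (y, x)).2) := rfl

theorem lam_out (f : Perm (ZMod p × ZMod p)) (j : ι') (x : ZMod p) :
    (lamHom R f : Perm (((ZMod p ⊕ ι') × ZMod p) ⊕ R)) (Sum.inl (Sum.inr j, x)) =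
      Sum.inl (Sum.inr j, x) := rfl

theorem lam_inr (f : Perm (ZMod p × ZMod p)) (r : R) :
    (lamHom R f : Perm (((ZMod p ⊕ ι') × ZMod p) ⊕ R)) (Sum.inr r) = Sum.inr r := rfl

/-- block-monomial permutations of the plane extend to monomial permutations -/
theorem lam_prodCongr (σ : Perm (ZMod p)) (u : (ZMod p)ˣ) (c : ZMod p) :
    (lamHom R (Equiv.prodCongr σ (affP u c)) : Perm (((ZMod p ⊕ ι') × ZMod p) ⊕ R)) =
      mono R (Equiv.sumCongr σ (Equiv.refl ι')) (Sum.elim (fun _ => u) (fun _ => 1))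
        (Sum.elim (fun _ => c) (fun _ => 0)) := by
  refine Equiv.ext (fun q => ?_)
  rcases q with ⟨y | j, x⟩ | r
  · rfl
  · show (Sum.inl (Sum.inr j, x) : ((ZMod p ⊕ ι') × ZMod p) ⊕ R) =
      Sum.inl (Sum.inr j, ((1 : (ZMod p)ˣ) : ZMod p) * x + 0)
    rw [Units.val_one, one_mul, add_zero]
  · rfl

theorem lam_dV (v : (ZMod p)ˣ) :
    (lamHom R (dV v) : Perm (((ZMod p ⊕ ι') × ZMod p) ⊕ R)) =
      mono R (Equiv.sumCongr (mulP v⁻¹) (Equiv.refl ι')) (Sum.elim (fun _ => v) (fun _ => 1))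
        (Sum.elim (fun _ => 0) (fun _ => 0)) :=
  lam_prodCongr R (mulP v⁻¹) v 0

theorem tV_eq (a c : ZMod p) : tV (a, c) = Equiv.prodCongr (Equiv.addRight a) (affP 1 c) := by
  refine Equiv.ext (fun w => ?_)
  obtain ⟨y, x⟩ := w
  refine Prod.ext rfl ?_
  show x + c = ((1 : (ZMod p)ˣ) : ZMod p) * x + c
  rw [Units.val_one, one_mul]

theorem lam_tV (a c : ZMod p) :
    (lamHom R (tV (a, c)) : Perm (((ZMod p ⊕ ι') × ZMod p) ⊕ R)) =
      mono R (Equiv.sumCongr (Equiv.addRight a) (Equiv.refl ι')) (Sum.elim (fun _ => 1) (fun _ => 1))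
        (Sum.elim (fun _ => c) (fun _ => 0)) := by
  rw [tV_eq]
  exact lam_prodCongr R (Equiv.addRight a) 1 c

theorem prod_elim_unit (v : (ZMod p)ˣ) :
    ∏ j : ZMod p ⊕ ι', (Sum.elim (fun _ => v) (fun _ => 1) j : (ZMod p)ˣ) = v := by
  rw [Fintype.prod_sum_type]
  simp only [Sum.elim_inl, Sum.elim_inr, Finset.prod_const, Finset.card_univ, ZMod.card, one_pow,
    mul_one]
  apply Units.ext
  rw [Units.val_pow_eq_pow_val, ZMod.pow_card]

/-- extended permutations commute with translations supported off the plane -/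
theorem lam_comm_rest (f : Perm (ZMod p × ZMod p)) (β' : ι' → ZMod p) :
    (lamHom R f : Perm (((ZMod p ⊕ ι') × ZMod p) ⊕ R)) * tr R (Sum.elim (fun _ => 0) β') =
      tr R (Sum.elim (fun _ => 0) β') * lamHom R f := by
  refine Equiv.ext (fun q => ?_)
  rcases q with ⟨y | j, x⟩ | r
  · rw [Perm.mul_apply, Perm.mul_apply, tr_inl, lam_in, lam_in, tr_inl, Sum.elim_inl, add_zero,
      Sum.elim_inl, add_zero]
  · rw [Perm.mul_apply, Perm.mul_apply, tr_inl, lam_out, lam_out, tr_inl]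
  · rfl

end Emb

end Cfsg.Agent.Helper86
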