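import Mathlib

set_option autoImplicit false

namespace Cfsg.Agent.Helper86

open Equiv Equiv.Perm

section Model

variable (p M : ℕ) [NeZero M] [NeZero p]

/-- shift of the second coordinate -/
def mdlS : Perm (ZMod M × ZMod p) where
  toFun x := (x.1, x.2 + 1)
  invFun x := (x.1, x.2 - 1)
  left_inv x := by simp
  right_inv x := by simp

/-- shift of the first coordinate on the block `j = 0` -/
def mdlB : Perm (ZMod M × ZMod p) where
  toFun x := if x.2 = 0 then (x.1 + 1, 0) else x
  invFun x := if x.2 = 0 then (x.1 - 1, 0) else x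
  left_inv x := by
    by_cases h : x.2 = 0
    · simp only [h, if_true]
      ext <;> simp [h]
    · simp [h]
  right_inv x := by
    by_cases h : x.2 = 0
    · simp only [h, if_true]
      ext <;> simp [h]
    · simp [h]

/-- translations of the first coordinate depending on the second -/
def mdlPhi : Multiplicative (ZMod p → ZMod M) →* Perm (ZMod M × ZMod p) where
  toFun f :=
    { toFun := fun x => (x.1 + Multiplicative.toAdd f x.2, x.2)
      invFun := fun x => (x.1 - Multiplicative.toAdd f x.2, x.2)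
      left_inv := fun x => by simp
      right_inv := fun x => by simp }
  map_one' := by
    ext x <;> simp
  map_mul' f g := by
    ext x
    · simp only [Perm.coe_mul, Function.comp_apply, Equiv.coe_fn_mk, toAdd_mul, Pi.add_apply]
      ring
    · simp

omit [NeZero M] [NeZero p] in
theorem mdlS_apply (x : ZMod M × ZMod p) : mdlS p M x = (x.1, x.2 + 1) := rfl

omit [NeZero M] [NeZero p] in
theorem mdlB_apply (x : ZMod M × ZMod p) : mdlB p M x = if x.2 = 0 then (x.1 + 1, 0) else x := rfl

omit [NeZero M] [NeZero p] in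
theorem mdlPhi_apply (f : Multiplicative (ZMod p → ZMod M)) (x : ZMod M × ZMod p) :
    mdlPhi p M f x = (x.1 + Multiplicative.toAdd f x.2, x.2) := rfl

theorem mdlS_pow (k : ℕ) (x : ZMod M × ZMod p) : (mdlS p M ^ k) x = (x.1, x.2 + k) := by
  induction k generalizing x with
  | zero => simp
  | succ k ih =>
    rw [pow_succ, Perm.mul_apply, mdlS_apply, ih]
    ext
    · rfl
    · simp only [Nat.cast_add, Nat.cast_one]; ring

theorem mdlS_pow_p : mdlS p M ^ p = 1 := by
  ext x
  · rw [mdlS_pow]; rfl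
  · rw [mdlS_pow]; simp

theorem mdlB_pow (k : ℕ) : (mdlB p M ^ k) (0, 0) = ((k : ZMod M), 0) := by
  induction k with
  | zero => simp
  | succ k ih =>
    rw [pow_succ', Perm.mul_apply, ih, mdlB_apply]
    simp

theorem mdlC_apply (x : ZMod M × ZMod p) :
    (mdlB p M * mdlS p M) x = if x.2 + 1 = 0 then (x.1 + 1, 0) else (x.1, x.2 + 1) := by
  rw [Perm.mul_apply, mdlS_apply, mdlB_apply]

theorem mdlC_pow (k : ℕ) :
    ((mdlB p M * mdlS p M) ^ k) (0, 0) = (((k / p : ℕ) : ZMod M), (k : ZMod p)) := by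
  induction k with
  | zero => simp
  | succ k ih =>
    rw [pow_succ', Perm.mul_apply, ih, mdlC_apply]
    have h1 : ((k : ZMod p) + 1 = 0) ↔ p ∣ k + 1 := by
      rw [← ZMod.natCast_eq_zero_iff]
      simp
    by_cases h : p ∣ k + 1
    · rw [if_pos (h1.2 h), Nat.succ_div, if_pos h]
      ext
      · simp
      · show (0 : ZMod p) = ((k + 1 : ℕ) : ZMod p)
        rw [(ZMod.natCast_eq_zero_iff _ _).2 h]
    · rw [if_neg (fun h' => h (h1.1 h')), Nat.succ_div, if_neg h]
      ext
      · simp
      · simp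

theorem mdlC_ne [Fact (1 < p)] (x : ZMod M × ZMod p) : (mdlB p M * mdlS p M) x ≠ x := by
  rw [mdlC_apply]
  have h10 : (1 : ZMod p) ≠ 0 := one_ne_zero
  by_cases h : x.2 + 1 = 0
  · rw [if_pos h]
    intro h'
    have h2 : (0 : ZMod p) = x.2 := congrArg Prod.snd h'
    rw [← h2, zero_add] at h
    exact h10 h
  · rw [if_neg h]
    intro h'
    have h2 : x.2 + 1 = x.2 := congrArg Prod.snd h'
    exact h10 (by simpa using h2)

theorem mdlC_isCycle [Fact (1 < p)] : (mdlB p M * mdlS p M).IsCycle := by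
  have hp : 0 < p := Nat.pos_of_ne_zero (NeZero.ne p)
  refine ⟨(0, 0), mdlC_ne p M _, fun y _ => ⟨((y.1.val * p + y.2.val : ℕ) : ℤ), ?_⟩⟩
  rw [zpow_natCast, mdlC_pow]
  ext
  · show (((y.1.val * p + y.2.val) / p : ℕ) : ZMod M) = y.1
    rw [mul_comm, Nat.mul_add_div hp, Nat.div_eq_of_lt (ZMod.val_lt _), add_zero, ZMod.natCast_zmod_val]
  · show ((y.1.val * p + y.2.val : ℕ) : ZMod p) = y.2
    rw [Nat.cast_add, Nat.cast_mul, ZMod.natCast_self, mul_zero, zero_add, ZMod.natCast_zmod_val]

theorem mdlC_support [Fact (1 < p)] : (mdlB p M * mdlS p M).support = Finset.univ := by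
  ext x
  simp only [Perm.mem_support, Finset.mem_univ, iff_true]
  exact mdlC_ne p M x

theorem mdlB_isCycle [Fact (1 < M)] : (mdlB p M).IsCycle := by
  have h10 : (1 : ZMod M) ≠ 0 := one_ne_zero
  refine ⟨(0, 0), ?_, fun y hy => ⟨((y.1.val : ℕ) : ℤ), ?_⟩⟩
  · rw [mdlB_apply]
    simp only [if_true]
    intro h'
    have h2 : (0 : ZMod M) + 1 = 0 := congrArg Prod.fst h'
    rw [zero_add] at h2
    exact h10 h2
  · have hy2 : y.2 = 0 := by
      by_contra h
      apply hy
      rw [mdlB_apply, if_neg h]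
    rw [zpow_natCast, mdlB_pow]
    ext
    · show ((y.1.val : ℕ) : ZMod M) = y.1
      rw [ZMod.natCast_zmod_val]
    · exact hy2.symm

theorem mdlB_support_card [Fact (1 < M)] : (mdlB p M).support.card = M := by
  have h10 : (1 : ZMod M) ≠ 0 := one_ne_zero
  have hs : (mdlB p M).support
      = Finset.univ.image (fun t : ZMod M => ((t, 0) : ZMod M × ZMod p)) := by
    ext x
    simp only [Perm.mem_support, Finset.mem_image, Finset.mem_univ, true_and]
    constructor
    · intro hx
      have hx2 : x.2 = 0 := by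
        by_contra h
        apply hx
        rw [mdlB_apply, if_neg h]
      exact ⟨x.1, by ext; rfl; exact hx2.symm⟩
    · rintro ⟨t, rfl⟩
      show (if (0 : ZMod p) = 0 then ((t + 1, 0) : ZMod M × ZMod p) else (t, 0)) ≠ (t, 0)
      rw [if_pos rfl]
      intro h'
      have h2 : t + 1 = t := congrArg Prod.fst h'
      exact h10 (by simpa using h2)
  rw [hs, Finset.card_image_of_injective _ (fun a b h => (Prod.mk.inj h).1), Finset.card_univ, ZMod.card]

theorem mdlB_eq_phi : mdlB p M = mdlPhi p M (Multiplicative.ofAdd (Pi.single 0 1)) := by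
  ext x
  · rw [mdlB_apply, mdlPhi_apply]
    by_cases h : x.2 = 0
    · simp [h]
    · simp [h]
  · rw [mdlB_apply, mdlPhi_apply]
    by_cases h : x.2 = 0
    · simp [h]
    · simp [h]

omit [NeZero M] [NeZero p] in
theorem mdl_conj (f : Multiplicative (ZMod p → ZMod M)) :
    mdlS p M * mdlPhi p M f * (mdlS p M)⁻¹ =
      mdlPhi p M (Multiplicative.ofAdd (fun j => Multiplicative.toAdd f (j - 1))) := by
  ext x
  · simp only [Perm.mul_apply, mdlS_apply, mdlPhi_apply]
    show (((mdlS p M)⁻¹ x).1 + Multiplicative.toAdd f ((mdlS p M)⁻¹ x).2 : ZMod M) = _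
    have : (mdlS p M)⁻¹ x = (x.1, x.2 - 1) := rfl
    rw [this]
    rfl
  · simp only [Perm.mul_apply, mdlS_apply, mdlPhi_apply]
    have : (mdlS p M)⁻¹ x = (x.1, x.2 - 1) := rfl
    rw [this]
    simp

omit [NeZero M] [NeZero p] in
theorem mdl_conj' (f : Multiplicative (ZMod p → ZMod M)) :
    (mdlS p M)⁻¹ * mdlPhi p M f * mdlS p M =
      mdlPhi p M (Multiplicative.ofAdd (fun j => Multiplicative.toAdd f (j + 1))) := by
  ext x
  · simp only [Perm.mul_apply, mdlS_apply, mdlPhi_apply]
    rfl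
  · simp only [Perm.mul_apply, mdlS_apply, mdlPhi_apply]
    show ((mdlS p M)⁻¹ (x.1 + Multiplicative.toAdd f (x.2 + 1), x.2 + 1)).2 = x.2
    have : (mdlS p M)⁻¹ (x.1 + Multiplicative.toAdd f (x.2 + 1), x.2 + 1)
        = (x.1 + Multiplicative.toAdd f (x.2 + 1), x.2 + 1 - 1) := rfl
    rw [this]
    simp

theorem mdl_isPGroup [Fact p.Prime] {k : ℕ} (hM : M = p ^ k) :
    IsPGroup p ↥(Subgroup.closure ({mdlS p M, mdlB p M} : Set (Perm (ZMod M × ZMod p)))) := by
  have hB : IsPGroup p ↥(mdlPhi p M).range := by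
    rintro ⟨y, f, rfl⟩
    refine ⟨k, Subtype.ext ?_⟩
    show (mdlPhi p M f) ^ p ^ k = 1
    rw [← map_pow]
    have : f ^ p ^ k = 1 := by
      apply Multiplicative.toAdd.injective
      rw [toAdd_pow, toAdd_one]
      funext j
      rw [Pi.smul_apply, Pi.zero_apply, nsmul_eq_mul, ← hM, ZMod.natCast_self, zero_mul]
    rw [this, map_one]
  have hσ : IsPGroup p ↥(Subgroup.zpowers (mdlS p M)) := by
    rintro ⟨y, hy⟩
    obtain ⟨n, rfl⟩ := Subgroup.mem_zpowers_iff.mp hy
    refine ⟨1, Subtype.ext ?_⟩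
    show (mdlS p M ^ n) ^ p ^ 1 = 1
    rw [pow_one, ← zpow_natCast, ← zpow_mul, mul_comm, zpow_mul, zpow_natCast, mdlS_pow_p, one_zpow]
  have hnorm : Subgroup.zpowers (mdlS p M) ≤ Subgroup.normalizer ((mdlPhi p M).range : Set (Perm (ZMod M × ZMod p))) := by
    rw [Subgroup.zpowers_le, Subgroup.mem_normalizer_iff]
    intro y
    constructor
    · rintro ⟨f, rfl⟩
      rw [mdl_conj]
      exact ⟨_, rfl⟩
    · intro h
      obtain ⟨f, hf⟩ := h
      have : y = (mdlS p M)⁻¹ * mdlPhi p M f * mdlS p M := by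
        rw [hf]; group
      rw [this, mdl_conj']
      exact ⟨_, rfl⟩
  have hsup := IsPGroup.to_sup_of_normal_left' hB hσ hnorm
  refine hsup.to_le ?_
  rw [Subgroup.closure_le]
  rintro x (rfl | rfl)
  · exact Subgroup.mem_sup_right (Subgroup.mem_zpowers _)
  · apply Subgroup.mem_sup_left
    rw [mdlB_eq_phi]
    exact ⟨_, rfl⟩

end Model

section Decomp

variable {Ω : Type*} [Fintype Ω] [DecidableEq Ω]

/-- a cycle of length `p * M` is the product of a cycle of length `M` and an element of order `p`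
which together generate a `p`-group when `M` is a power of `p` -/
theorem cycle_decomp {p M : ℕ} [Fact p.Prime] (hM : 2 ≤ M) (c : Perm Ω) (hc : c.IsCycle)
    (hcard : c.support.card = p * M) :
    ∃ σ b : Perm Ω, c = b * σ ∧ σ ^ p = 1 ∧ b.IsCycle ∧ b.support.card = M ∧
      (∀ x, c x = x → σ x = x) ∧ (∀ x, c x = x → b x = x) ∧
      ((∃ k : ℕ, M = p ^ k) → IsPGroup p ↥(Subgroup.closure ({σ, b} : Set (Perm Ω)))) := by
  have hp : p.Prime := Fact.out
  have : NeZero M := ⟨by omega⟩
  have : NeZero p := ⟨hp.ne_zero⟩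
  have : Fact (1 < p) := ⟨hp.one_lt⟩
  have : Fact (1 < M) := ⟨by omega⟩
  have hcardΩ : Fintype.card (ZMod M × ZMod p) ≤ Fintype.card Ω := by
    rw [Fintype.card_prod, ZMod.card, ZMod.card, mul_comm, ← hcard]
    exact Finset.card_le_univ _
  obtain ⟨ε⟩ := Function.Embedding.nonempty_of_card_le hcardΩ
  let f : (ZMod M × ZMod p) ≃ {x // x ∈ Set.range ε} := Equiv.ofInjective ε ε.injective
  have hf : ∀ y, ((f y : {x // x ∈ Set.range ε}) : Ω) = ε y := fun y => rfl
  have hc₁ : ((mdlB p M * mdlS p M).extendDomain f).IsCycle := (mdlC_isCycle p M).extendDomain f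
  have hc₁card : ((mdlB p M * mdlS p M).extendDomain f).support.card = c.support.card := by
    rw [card_support_extend_domain, mdlC_support, Finset.card_univ, Fintype.card_prod, ZMod.card,
      ZMod.card, hcard, mul_comm]
  obtain ⟨w, hw⟩ := isConj_iff.1 (hc₁.isConj hc hc₁card)
  have hfix : ∀ (g : Perm (ZMod M × ZMod p)) (x : Ω), c x = x → (w * g.extendDomain f * w⁻¹) x = x := by
    intro g x hx
    have h1 : ((mdlB p M * mdlS p M).extendDomain f) (w⁻¹ x) = w⁻¹ x := by
      rw [← hw] at hx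
      simp only [Perm.mul_apply] at hx
      have := congrArg (w⁻¹ : Perm Ω) hx
      simpa using this
    have h2 : w⁻¹ x ∉ Set.range ε := by
      rintro ⟨y, hy⟩
      rw [← hy, ← hf y, extendDomain_apply_image] at h1
      exact mdlC_ne p M y (f.injective (Subtype.ext h1))
    simp only [Perm.mul_apply]
    rw [extendDomain_apply_not_subtype _ _ h2]
    simp
  refine ⟨w * (mdlS p M).extendDomain f * w⁻¹, w * (mdlB p M).extendDomain f * w⁻¹, ?_, ?_, ?_, ?_,
    hfix _, hfix _, ?_⟩
  · rw [← hw, ← extendDomain_mul]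
    group
  · rw [conj_pow]
    have : (mdlS p M).extendDomain f ^ p = 1 := by
      have h := map_pow (extendDomainHom f) (mdlS p M) p
      rw [mdlS_pow_p, map_one] at h
      exact h.symm
    rw [this]
    group
  · exact ((mdlB_isCycle p M).extendDomain f).conj
  · rw [card_support_conj, card_support_extend_domain, mdlB_support_card]
  · rintro ⟨k, hk⟩
    have h0 := mdl_isPGroup p M hk
    have h1 := h0.map ((MulAut.conj w).toMonoidHom.comp (extendDomainHom f))
    refine h1.to_le ?_
    rw [Subgroup.closure_le]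
    rintro x (rfl | rfl)
    · exact ⟨mdlS p M, Subgroup.subset_closure (by simp), rfl⟩
    · exact ⟨mdlB p M, Subgroup.subset_closure (by simp), rfl⟩

end Decomp

end Cfsg.Agent.Helper86
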