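import Cfsg.Agent.Helper86.AltNorm

set_option autoImplicit false
set_option linter.unusedSectionVars false

namespace Cfsg.Agent.Helper86

open Equiv Equiv.Perm

theorem exists_ne_ne {α : Type*} [Fintype α] [DecidableEq α] (h : 3 ≤ Fintype.card α) (a b : α) :
    ∃ c, c ≠ a ∧ c ≠ b := by
  by_contra hcon
  push Not at hcon
  have hsub : (Finset.univ : Finset α) ⊆ {a, b} := by
    intro c _
    by_cases hc : c = a
    · rw [hc]
      exact Finset.mem_insert_self _ _
    · rw [hcon c hc]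
      exact Finset.mem_insert_of_mem (Finset.mem_singleton_self _)
  have h1 := Finset.card_le_card hsub
  rw [Finset.card_univ] at h1
  have h2 : ({a, b} : Finset α).card ≤ 2 := Finset.card_le_two
  omega

/-- the alternating group is generated by elements of order dividing `p` -/
theorem alternating_le_closure_pelt {ι : Type*} [Fintype ι] [DecidableEq ι] {p : ℕ} [Fact p.Prime]
    (hp2 : p ≠ 2) (hm : p ≤ Fintype.card ι) :
    alternatingGroup ι ≤ Subgroup.closure {π : Perm ι | π ^ p = 1} := by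
  have hp : p.Prime := Fact.out
  by_cases h3 : p = 3
  · rw [← closure_three_cycles_eq_alternating]
    apply Subgroup.closure_mono
    intro σ hσ
    show σ ^ p = 1
    rw [h3, ← hσ.orderOf]
    exact pow_orderOf_eq_one σ
  · have h5 : 5 ≤ p := by
      have h2 := hp.two_le
      rcases Nat.lt_or_ge p 5 with h | h
      · have h4 : p ≠ 4 := by
          rintro rfl
          exact absurd hp (by decide)
        omega
      · exact h
    have hnorm : (Subgroup.closure {π : Perm ι | π ^ p = 1}).Normal := by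
      refine ⟨fun n hn g => ?_⟩
      refine conj_mem_closure (fun x hx => Subgroup.subset_closure ?_) n hn
      show (g * x * g⁻¹) ^ p = 1
      have hx' : x ^ p = 1 := hx
      rw [conj_pow, hx', mul_one, mul_inv_cancel]
    have hdvd : p ∣ Fintype.card (Perm ι) := by
      rw [Fintype.card_perm]
      exact Nat.dvd_factorial hp.pos hm
    obtain ⟨x, hx⟩ := exists_prime_orderOf_dvd_card p hdvd
    have hnt : Nontrivial ↥(Subgroup.closure {π : Perm ι | π ^ p = 1}) := by
      rw [Subgroup.nontrivial_iff_exists_ne_one]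
      refine ⟨x, Subgroup.subset_closure ?_, ?_⟩
      · show x ^ p = 1
        rw [← hx]
        exact pow_orderOf_eq_one x
      · rintro rfl
        rw [orderOf_one] at hx
        exact hp.one_lt.ne hx
    have h5' : 5 ≤ Nat.card ι := by
      rw [Nat.card_eq_fintype_card]
      omega
    exact @alternatingGroup_le_of_normal _ _ _ h5' _ hnorm hnt

section K

variable {ι : Type*} [Fintype ι] [DecidableEq ι] (R : Type*) [Fintype R] [DecidableEq R]
  {p : ℕ} [Fact p.Prime]

/-- block permutations -/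
def bpHom : Perm ι →* Perm ((ι × ZMod p) ⊕ R) where
  toFun π := mono R π 1 0
  map_one' := mono_one R
  map_mul' π π' := by
    rw [mono_mul]
    refine mono_ext R rfl (fun j => (mul_one 1).symm) (fun j => ?_)
    show (0 : ZMod p) = ((1 : (ZMod p)ˣ) : ZMod p) * 0 + 0
    rw [mul_zero, add_zero]

/-- diagonal permutations -/
def dgHom : (ι → (ZMod p)ˣ) →* Perm ((ι × ZMod p) ⊕ R) where
  toFun t := mono R 1 t 0
  map_one' := mono_one R
  map_mul' t t' := by
    rw [mono_mul]
    refine mono_ext R (mul_one 1).symm (fun j => rfl) (fun j => ?_)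
    show (0 : ZMod p) = (t j : ZMod p) * 0 + 0
    rw [mul_zero, add_zero]

theorem bpHom_apply (π : Perm ι) : (bpHom R π : Perm ((ι × ZMod p) ⊕ R)) = mono R π 1 0 := rfl

theorem dgHom_apply (t : ι → (ZMod p)ˣ) : (dgHom R t : Perm ((ι × ZMod p) ⊕ R)) = mono R 1 t 0 := rfl

theorem mem_trRange {y : Perm ((ι × ZMod p) ⊕ R)} :
    y ∈ (trHom R : Multiplicative (ι → ZMod p) →* Perm ((ι × ZMod p) ⊕ R)).range ↔
      ∃ β : ι → ZMod p, y = tr R β := by
  constructor
  · rintro ⟨b, rfl⟩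
    exact ⟨Multiplicative.toAdd b, rfl⟩
  · rintro ⟨β, rfl⟩
    exact ⟨Multiplicative.ofAdd β, rfl⟩

theorem mono_conj_mem (π : Perm ι) (t : ι → (ZMod p)ˣ) (b : ι → ZMod p) :
    ∀ y ∈ (trHom R : Multiplicative (ι → ZMod p) →* Perm ((ι × ZMod p) ⊕ R)).range,
      mono R π t b * y * (mono R π t b)⁻¹ ∈
        (trHom R : Multiplicative (ι → ZMod p) →* Perm ((ι × ZMod p) ⊕ R)).range := by
  intro y hy
  obtain ⟨β, rfl⟩ := (mem_trRange R).1 hy
  rw [mono_conj_tr]
  exact (mem_trRange R).2 ⟨_, rfl⟩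

theorem mono_conj_mem' (π : Perm ι) (t : ι → (ZMod p)ˣ) (b : ι → ZMod p) :
    ∀ y ∈ (trHom R : Multiplicative (ι → ZMod p) →* Perm ((ι × ZMod p) ⊕ R)).range,
      (mono R π t b)⁻¹ * y * mono R π t b ∈
        (trHom R : Multiplicative (ι → ZMod p) →* Perm ((ι × ZMod p) ⊕ R)).range := by
  intro y hy
  obtain ⟨β, rfl⟩ := (mem_trRange R).1 hy
  rw [mono_conj_tr']
  exact (mem_trRange R).2 ⟨_, rfl⟩

/-- `p`-elements of the alternating group normalizing the translations -/
def Kgen : Set (Perm ((ι × ZMod p) ⊕ R)) :=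
  {x | x ∈ alternatingGroup ((ι × ZMod p) ⊕ R) ∧ (∃ k : ℕ, x ^ p ^ k = 1) ∧
    ∀ y ∈ (trHom R : Multiplicative (ι → ZMod p) →* Perm ((ι × ZMod p) ⊕ R)).range,
      x * y * x⁻¹ ∈ (trHom R : Multiplicative (ι → ZMod p) →* Perm ((ι × ZMod p) ⊕ R)).range}

theorem tr_mem_Kgen (hp2 : p ≠ 2) (β : ι → ZMod p) : tr R β ∈ Kgen R := by
  have h1 : tr R β ^ p ^ 1 = 1 := by
    rw [pow_one]
    exact tr_pow_p R β
  exact ⟨mem_alternatingGroup.2 (sign_eq_one_of_pow_odd hp2 h1), ⟨1, h1⟩, mono_conj_mem R 1 1 β⟩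

theorem bp_mem_Kgen (hp2 : p ≠ 2) {π : Perm ι} (hπ : π ^ p = 1) :
    (bpHom R π : Perm ((ι × ZMod p) ⊕ R)) ∈ Kgen R := by
  have h1 : (bpHom R π : Perm ((ι × ZMod p) ⊕ R)) ^ p ^ 1 = 1 := by
    rw [pow_one, ← map_pow, hπ, map_one]
  exact ⟨mem_alternatingGroup.2 (sign_eq_one_of_pow_odd hp2 h1), ⟨1, h1⟩, mono_conj_mem R π 1 0⟩

theorem bp_mem_closure (hp2 : p ≠ 2) (hm : p ≤ Fintype.card ι) {π : Perm ι}
    (hπ : π ∈ alternatingGroup ι) :
    (bpHom R π : Perm ((ι × ZMod p) ⊕ R)) ∈ Subgroup.closure (Kgen R) := by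
  have hle : Subgroup.closure {π : Perm ι | π ^ p = 1} ≤
      (Subgroup.closure (Kgen R : Set (Perm ((ι × ZMod p) ⊕ R)))).comap (bpHom R) := by
    rw [Subgroup.closure_le]
    intro σ hσ
    exact Subgroup.subset_closure (bp_mem_Kgen R hp2 hσ)
  exact hle (alternating_le_closure_pelt hp2 hm hπ)

theorem dg_conj_closure (s : ι → (ZMod p)ˣ) :
    ∀ x ∈ Subgroup.closure (Kgen R : Set (Perm ((ι × ZMod p) ⊕ R))),
      dgHom R s * x * (dgHom R s)⁻¹ ∈ Subgroup.closure (Kgen R) := by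
  apply conj_mem_closure
  rintro x ⟨hxA, ⟨k, hk⟩, hxE⟩
  apply Subgroup.subset_closure
  refine ⟨(inferInstance : (alternatingGroup ((ι × ZMod p) ⊕ R)).Normal).conj_mem x hxA _,
    ⟨k, by rw [conj_pow, hk, mul_one, mul_inv_cancel]⟩, ?_⟩
  intro y hy
  have h1 := mono_conj_mem' R 1 s 0 y hy
  have h2 := hxE _ h1
  have h3 := mono_conj_mem R 1 s 0 _ h2
  have e : dgHom R s * x * (dgHom R s)⁻¹ * y * (dgHom R s * x * (dgHom R s)⁻¹)⁻¹ =
      mono R 1 s 0 * (x * ((mono R 1 s 0)⁻¹ * y * mono R 1 s 0) * x⁻¹) * (mono R 1 s 0)⁻¹ := by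
    rw [dgHom_apply]
    simp only [mul_inv_rev, inv_inv, mul_assoc]
  rw [e]
  exact h3

theorem dg_mul_bp (s : ι → (ZMod p)ˣ) (π : Perm ι) :
    (dgHom R s * bpHom R π : Perm ((ι × ZMod p) ⊕ R)) =
      dgHom R (fun k => s k / s (π⁻¹ k)) * bpHom R π * dgHom R s := by
  show mono R 1 s 0 * mono R π 1 0 =
    mono R 1 (fun k => s k / s (π⁻¹ k)) 0 * mono R π 1 0 * mono R 1 s 0
  rw [mono_mul, mono_mul, mono_mul]
  refine mono_ext R ?_ (fun j => ?_) (fun j => ?_)
  · rw [one_mul, mul_one]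
  · show s (π j) * 1 = (s (π j) / s (π⁻¹ (π j)) * 1) * s j
    rw [pinv_apply_self, mul_one, mul_one, div_mul_cancel]
  · simp only [Pi.zero_apply, mul_zero, add_zero]

theorem dg_single_div_mem (hp2 : p ≠ 2) (hm : p ≤ Fintype.card ι) (j j' : ι) (v : (ZMod p)ˣ) :
    (dgHom R (Pi.mulSingle j v / Pi.mulSingle j' v) : Perm ((ι × ZMod p) ⊕ R)) ∈
      Subgroup.closure (Kgen R) := by
  by_cases hjj : j = j'
  · subst hjj
    rw [div_self', map_one]
    exact Subgroup.one_mem _
  · have hp : p.Prime := Fact.out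
    have h3 : 3 ≤ Fintype.card ι := by
      have := hp.two_le
      omega
    obtain ⟨j₂, hj₂, hj₂'⟩ := exists_ne_ne h3 j j'
    have hπA : swap j j' * swap j' j₂ ∈ alternatingGroup ι := by
      rw [mem_alternatingGroup, map_mul, sign_swap hjj, sign_swap (Ne.symm hj₂')]
      rfl
    have hπj : (swap j j' * swap j' j₂) j = j' := by
      rw [Perm.mul_apply, swap_apply_of_ne_of_ne hjj (Ne.symm hj₂), swap_apply_left]
    have hbp := bp_mem_closure R hp2 hm hπA
    have hconj := dg_conj_closure R (Pi.mulSingle j v) _ hbp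
    have hfun : (fun k => (Pi.mulSingle j v : ι → (ZMod p)ˣ) k /
        (Pi.mulSingle j v : ι → (ZMod p)ˣ) ((swap j j' * swap j' j₂)⁻¹ k)) =
          Pi.mulSingle j v / Pi.mulSingle j' v := by
      funext k
      rw [Pi.div_apply]
      congr 1
      simp only [Pi.mulSingle_apply, Perm.inv_eq_iff_eq, hπj]
    have e := dg_mul_bp R (Pi.mulSingle j v : ι → (ZMod p)ˣ) (swap j j' * swap j' j₂)
    rw [hfun] at e
    have e2 : (dgHom R (Pi.mulSingle j v / Pi.mulSingle j' v) : Perm ((ι × ZMod p) ⊕ R)) =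
        dgHom R (Pi.mulSingle j v) * bpHom R (swap j j' * swap j' j₂) *
          (dgHom R (Pi.mulSingle j v))⁻¹ * (bpHom R (swap j j' * swap j' j₂))⁻¹ := by
      rw [e, mul_inv_cancel_right, mul_inv_cancel_right]
    rw [e2]
    exact Subgroup.mul_mem _ hconj (Subgroup.inv_mem _ hbp)

theorem dg_mem_closure (hp2 : p ≠ 2) (hm : p ≤ Fintype.card ι) (t : ι → (ZMod p)ˣ)
    (ht : ∏ j, t j = 1) :
    (dgHom R t : Perm ((ι × ZMod p) ⊕ R)) ∈ Subgroup.closure (Kgen R) := by
  have hp : p.Prime := Fact.out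
  have hpos : 0 < Fintype.card ι := by
    have := hp.pos
    omega
  obtain ⟨j₀⟩ : Nonempty ι := Fintype.card_pos_iff.1 hpos
  have e : t = ∏ j, (Pi.mulSingle j (t j) / Pi.mulSingle j₀ (t j)) := by
    rw [Finset.prod_div_distrib, Finset.univ_prod_mulSingle]
    have h1 : ∏ j, (Pi.mulSingle j₀ (t j) : ι → (ZMod p)ˣ) = Pi.mulSingle j₀ (∏ j, t j) :=
      (map_prod (MonoidHom.mulSingle (fun _ : ι => (ZMod p)ˣ) j₀) t Finset.univ).symm
    rw [h1, ht, Pi.mulSingle_one, div_one]
  have hH : ∀ j, Pi.mulSingle j (t j) / Pi.mulSingle j₀ (t j) ∈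
      (Subgroup.closure (Kgen R : Set (Perm ((ι × ZMod p) ⊕ R)))).comap (dgHom R) :=
    fun j => dg_single_div_mem R hp2 hm j j₀ (t j)
  have h2 := Subgroup.prod_mem _ (fun j (_ : j ∈ Finset.univ) => hH j)
  rw [← e] at h2
  exact h2

/-- monomial permutations in the alternating group with trivial determinant character lie in the
group generated by the `p`-elements normalizing the translations -/
theorem mono_mem_closure (hp2 : p ≠ 2) (hm : p ≤ Fintype.card ι) (π : Perm ι) (t : ι → (ZMod p)ˣ)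
    (b : ι → ZMod p) (hA : mono R π t b ∈ alternatingGroup ((ι × ZMod p) ⊕ R))
    (ht : ∏ j, t j = 1) : mono R π t b ∈ Subgroup.closure (Kgen R) := by
  have hsign : sign π = 1 := by
    have h1 := mem_alternatingGroup.1 hA
    rw [sign_mono_odd R hp2, ht, map_one, map_one, mul_one] at h1
    exact h1
  have e : mono R π t b = tr R (fun k => b (π⁻¹ k)) * bpHom R π * dgHom R t := by
    show _ = mono R 1 1 (fun k => b (π⁻¹ k)) * mono R π 1 0 * mono R 1 t 0
    rw [mono_mul, mono_mul]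
    refine mono_ext R ?_ (fun j => ?_) (fun j => ?_)
    · rw [one_mul, mul_one]
    · show t j = 1 * 1 * t j
      rw [one_mul, one_mul]
    · simp only [Pi.zero_apply, mul_zero, zero_add, Perm.one_apply, pinv_apply_self]
  rw [e]
  exact Subgroup.mul_mem _ (Subgroup.mul_mem _ (Subgroup.subset_closure (tr_mem_Kgen R hp2 _))
    (bp_mem_closure R hp2 hm (mem_alternatingGroup.2 hsign))) (dg_mem_closure R hp2 hm t ht)

end K

end Cfsg.Agent.Helper86
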