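import Cfsg.Agent.Helper86.AltClosure
import Cfsg.Agent.Helper86.AltModel

set_option autoImplicit false

namespace Cfsg.Agent.Helper86

open Equiv Equiv.Perm

section Odd

variable {Ω : Type*} [Fintype Ω] [DecidableEq Ω]

/-- splitting off a cycle factor -/
theorem split_cycleFactor {g c : Perm Ω} (hc : c ∈ g.cycleFactorsFinset) :
    Disjoint (g * c⁻¹) c ∧ g = (g * c⁻¹) * c ∧ c.IsCycle ∧
      (g * c⁻¹).support.card + c.support.card = g.support.card := by
  have hd := disjoint_mul_inv_of_mem_cycleFactorsFinset hc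
  have hg : g = (g * c⁻¹) * c := by group
  refine ⟨hd, hg, (mem_cycleFactorsFinset_iff.1 hc).1, ?_⟩
  rw [← hd.card_support_mul, ← hg]

theorem pelt_cycleFactor {g c : Perm Ω} (hc : c ∈ g.cycleFactorsFinset) {N : ℕ} (hg : g ^ N = 1) :
    c ^ N = 1 ∧ (g * c⁻¹) ^ N = 1 := by
  obtain ⟨hd, hgc, -, -⟩ := split_cycleFactor hc
  rw [hgc, hd.commute.mul_pow] at hg
  have h := (hd.pow_disjoint_pow N N).mul_eq_one_iff.1 hg
  exact ⟨h.2, h.1⟩

variable {p : ℕ} [Fact p.Prime] {S T : Subgroup (Perm Ω)}

/-- all `p`-cycles are conjugate in the alternating group -/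
theorem pcycle_all (hn : p + 2 ≤ Fintype.card Ω) {c : Perm Ω}
    (hcX : c ∈ conjSet (alternatingGroup Ω) T) (hc : c.IsCycle) (hcp : c.support.card = p)
    {c' : Perm Ω} (hc' : c'.IsCycle) (hcp' : c'.support.card = p) :
    c' ∈ conjSet (alternatingGroup Ω) T := by
  apply conjSet_of_cycleType hcX
  · rw [hc.cycleType, hc'.cycleType, hcp, hcp']
  · intro hle
    have h := (centralizer_le_alternating_iff.1 hle).2.1
    rw [sum_cycleType, hcp] at h
    omega

/-- a nontrivial strongly closed subgroup contains a conjugate of a `p`-cycle -/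
theorem exists_pcycle (hp2 : p ≠ 2) (hSyl : RelSyl p (alternatingGroup Ω) S) (hTS : T ≤ S)
    (hT : ∀ x ∈ T, ∀ g ∈ alternatingGroup Ω, g * x * g⁻¹ ∈ S → g * x * g⁻¹ ∈ T) (hne : T ≠ ⊥) :
    ∃ c ∈ conjSet (alternatingGroup Ω) T, c.IsCycle ∧ c.support.card = p := by
  have hp : p.Prime := Fact.out
  have hTp : IsPGroup p ↥T := hSyl.2.1.to_le hTS
  have hTfin : Finite ↥T := inferInstance
  have hdvd : p ∣ Nat.card ↥T := by
    rcases hTp.card_eq_or_dvd with h | h
    · exfalso
      apply hne
      exact Subgroup.card_eq_one.mp h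
    · exact h
  obtain ⟨⟨z, hzT⟩, hzo⟩ := exists_prime_orderOf_dvd_card' p hdvd
  have hzo' : orderOf z = p := by
    rw [← hzo]
    exact (Subgroup.orderOf_mk z hzT).symm
  have hzX : z ∈ conjSet (alternatingGroup Ω) T := mem_conjSet_of_mem hzT
  have hz1 : z ≠ 1 := by
    intro h
    rw [h, orderOf_one] at hzo'
    exact hp.one_lt.ne hzo'
  obtain ⟨n, hn⟩ := cycleType_prime_order (σ := z) (by rw [hzo']; exact hp)
  rw [hzo'] at hn
  obtain ⟨c, hc⟩ : z.cycleFactorsFinset.Nonempty := by
    rw [Finset.nonempty_iff_ne_empty]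
    intro h
    exact hz1 (cycleFactorsFinset_eq_empty_iff.mp h)
  obtain ⟨hd, hzc, hcyc, hcard⟩ := split_cycleFactor hc
  have hcp : c.support.card = p := by
    have hmem : c.support.card ∈ z.cycleType := by
      rw [cycleType_def]
      exact Multiset.mem_map.mpr ⟨c, hc, rfl⟩
    rw [hn] at hmem
    exact Multiset.eq_of_mem_replicate hmem
  have hcop : c ^ p = 1 := by
    rw [← hcp, ← hcyc.orderOf]
    exact pow_orderOf_eq_one c
  rcases Nat.eq_zero_or_pos n with h0 | hpos
  · -- `z` is a `p`-cycle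
    have hzcyc : z.IsCycle := by
      rw [← card_cycleType_eq_one, hn, h0]
      simp
    refine ⟨z, hzX, hzcyc, ?_⟩
    rw [← sum_cycleType, hn, h0]
    simp
  · -- modify one cycle
    have hcz : Commute c z := self_mem_cycle_factors_commute hc
    have hct : (z * c⁻¹ * c⁻¹).cycleType = z.cycleType := by
      have h1 : (z * c⁻¹ * c⁻¹).cycleType = (z * c⁻¹).cycleType + c⁻¹.cycleType :=
        hd.inv_right.cycleType_mul
      have h2 : z.cycleType = (z * c⁻¹).cycleType + c.cycleType := by
        conv_lhs => rw [hzc]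
        exact hd.cycleType_mul
      rw [h1, h2, cycleType_inv]
    have hcent : ¬ Subgroup.centralizer {z} ≤ alternatingGroup Ω := by
      intro hle
      have h := (centralizer_le_alternating_iff.1 hle).2.2 p
      rw [hn, Multiset.count_replicate_self] at h
      omega
    have hz2X : z * c⁻¹ * c⁻¹ ∈ conjSet (alternatingGroup Ω) T :=
      conjSet_of_cycleType hzX hct.symm hcent
    have h1 : z * c = c * z := hcz.eq.symm
    have h2 : z * c * c = c * c * z := by rw [h1, mul_assoc, h1, ← mul_assoc]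
    have e3 : z * (z * c⁻¹ * c⁻¹)⁻¹ = c ^ 2 := by
      calc z * (z * c⁻¹ * c⁻¹)⁻¹ = z * c * c * z⁻¹ := by simp only [mul_inv_rev, inv_inv, mul_assoc]
        _ = c * c * z * z⁻¹ := by rw [h2]
        _ = c ^ 2 := by rw [mul_assoc, mul_inv_cancel, mul_one, pow_two]
    have e4 : (z * c⁻¹ * c⁻¹)⁻¹ * z = c ^ 2 := by
      simp only [mul_inv_rev, inv_inv, mul_assoc, inv_mul_cancel, mul_one, pow_two]
    have hcomm : z * (z * c⁻¹ * c⁻¹)⁻¹ = (z * c⁻¹ * c⁻¹)⁻¹ * z := e3.trans e4.symm
    have h3 := conjSet_mul_comm hSyl hTS hT hzX (conjSet_inv hz2X) hcomm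
    rw [e3] at h3
    have h4 := conjSet_pow h3 ((p + 1) / 2)
    have hodd : 2 * ((p + 1) / 2) = p + 1 := by
      rcases hp.eq_two_or_odd with h | h
      · exact absurd h hp2
      · omega
    rw [← pow_mul, hodd, pow_succ, hcop, one_mul] at h4
    exact ⟨c, h4, hcyc, hcp⟩

/-- elements of order dividing `p` -/
theorem conjSet_order_p (hSyl : RelSyl p (alternatingGroup Ω) S) (hTS : T ≤ S)
    (hT : ∀ x ∈ T, ∀ g ∈ alternatingGroup Ω, g * x * g⁻¹ ∈ S → g * x * g⁻¹ ∈ T)
    (hcyc : ∀ c : Perm Ω, c.IsCycle → c.support.card = p → c ∈ conjSet (alternatingGroup Ω) T) :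
    ∀ (s : ℕ) (g : Perm Ω), g ^ p = 1 → g.support.card ≤ s → g ∈ conjSet (alternatingGroup Ω) T := by
  have hp : p.Prime := Fact.out
  intro s
  induction s with
  | zero =>
    intro g _ hs
    have : g = 1 := card_support_eq_zero.mp (Nat.le_zero.mp hs)
    rw [this]
    exact mem_conjSet_of_mem T.one_mem
  | succ s ih =>
    intro g hg hs
    by_cases hg1 : g = 1
    · rw [hg1]
      exact mem_conjSet_of_mem T.one_mem
    · obtain ⟨c, hc⟩ : g.cycleFactorsFinset.Nonempty := by
        rw [Finset.nonempty_iff_ne_empty]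
        intro h
        exact hg1 (cycleFactorsFinset_eq_empty_iff.mp h)
      obtain ⟨hd, hgc, hccyc, hcard⟩ := split_cycleFactor hc
      obtain ⟨hcp, hg'p⟩ := pelt_cycleFactor hc hg
      have hco : orderOf c = p := by
        have h1 : orderOf c ∣ p := orderOf_dvd_of_pow_eq_one hcp
        rcases (Nat.dvd_prime hp).1 h1 with h | h
        · rw [hccyc.orderOf] at h
          have := hccyc.two_le_card_support
          omega
        · exact h
      have hcX := hcyc c hccyc (by rw [← hccyc.orderOf]; exact hco)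
      have h2 := hccyc.two_le_card_support
      have hg'X := ih (g * c⁻¹) hg'p (by omega)
      rw [hgc]
      exact conjSet_mul_comm hSyl hTS hT hg'X hcX hd.commute.eq

/-- every `p`-element lies in a conjugate of `T` -/
theorem conjSet_pelt_all (hSyl : RelSyl p (alternatingGroup Ω) S) (hTS : T ≤ S)
    (hT : ∀ x ∈ T, ∀ g ∈ alternatingGroup Ω, g * x * g⁻¹ ∈ S → g * x * g⁻¹ ∈ T)
    (hcyc : ∀ c : Perm Ω, c.IsCycle → c.support.card = p → c ∈ conjSet (alternatingGroup Ω) T) :
    ∀ (s : ℕ) (g : Perm Ω), (∃ k : ℕ, g ^ p ^ k = 1) → g.support.card ≤ s →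
      g ∈ conjSet (alternatingGroup Ω) T := by
  have hp : p.Prime := Fact.out
  intro s
  induction s with
  | zero =>
    intro g _ hs
    have : g = 1 := card_support_eq_zero.mp (Nat.le_zero.mp hs)
    rw [this]
    exact mem_conjSet_of_mem T.one_mem
  | succ s ih =>
    intro g hg hs
    obtain ⟨k, hk⟩ := hg
    by_cases hg1 : g = 1
    · rw [hg1]
      exact mem_conjSet_of_mem T.one_mem
    · obtain ⟨c, hc⟩ : g.cycleFactorsFinset.Nonempty := by
        rw [Finset.nonempty_iff_ne_empty]
        intro h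
        exact hg1 (cycleFactorsFinset_eq_empty_iff.mp h)
      obtain ⟨hd, hgc, hccyc, hcard⟩ := split_cycleFactor hc
      obtain ⟨hcp, hg'p⟩ := pelt_cycleFactor hc hk
      have h2 := hccyc.two_le_card_support
      by_cases hgeq : g * c⁻¹ = 1
      · -- `g` is a cycle
        have hgc' : g = c := by
          rw [hgc, hgeq, one_mul]
        have hgcyc : g.IsCycle := hgc' ▸ hccyc
        obtain ⟨j, hj, hjN⟩ := (Nat.dvd_prime_pow hp).1 (orderOf_dvd_of_pow_eq_one hk)
        rw [hgcyc.orderOf] at hjN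
        have h2g := hgcyc.two_le_card_support
        have hj0 : j ≠ 0 := by
          intro h
          rw [h, pow_zero] at hjN
          omega
        by_cases hj1 : j = 1
        · exact hcyc g hgcyc (by rw [hjN, hj1, pow_one])
        · obtain ⟨i, rfl⟩ : ∃ i, j = i + 2 := ⟨j - 2, by omega⟩
          have hM2 : 2 ≤ p ^ (i + 1) := by
            calc 2 ≤ p := hp.two_le
              _ = p ^ 1 := (pow_one p).symm
              _ ≤ p ^ (i + 1) := Nat.pow_le_pow_right hp.pos (by omega)
          have hcard' : g.support.card = p * p ^ (i + 1) := by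
            rw [hjN, pow_succ' p (i + 1)]
          obtain ⟨σ, b, hgb, hσp, hbcyc, hbcard, -, -, hpg⟩ := cycle_decomp hM2 g hgcyc hcard'
          have hbX : b ∈ conjSet (alternatingGroup Ω) T := by
            apply ih b ⟨i + 1, ?_⟩
            · rw [hbcard]
              have : p ^ (i + 1) < p * p ^ (i + 1) := by
                have := hp.two_le
                nlinarith
              omega
            · rw [← hbcard, ← hbcyc.orderOf]
              exact pow_orderOf_eq_one b
          have hσX : σ ∈ conjSet (alternatingGroup Ω) T :=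
            conjSet_order_p hSyl hTS hT hcyc _ σ hσp le_rfl
          rw [hgb]
          apply conjSet_mul hSyl hTS hT hbX hσX
          rw [Set.pair_comm]
          exact hpg ⟨i + 1, rfl⟩
      · have hg'1 : 1 ≤ (g * c⁻¹).support.card := by
          rcases Nat.eq_zero_or_pos (g * c⁻¹).support.card with h | h
          · exact absurd (card_support_eq_zero.mp h) hgeq
          · exact h
        have hcX := ih c ⟨k, hcp⟩ (by omega)
        have hg'X := ih (g * c⁻¹) ⟨k, hg'p⟩ (by omega)
        rw [hgc]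
        exact conjSet_mul_comm hSyl hTS hT hg'X hcX hd.commute.eq

/-- strongly closed subgroups of a Sylow `p`-subgroup of the alternating group, `p` odd -/
theorem strongly_closed_alt_odd (hp2 : p ≠ 2) (hn : p + 2 ≤ Fintype.card Ω)
    (hSyl : RelSyl p (alternatingGroup Ω) S) (hTS : T ≤ S)
    (hT : ∀ x ∈ T, ∀ g ∈ alternatingGroup Ω, g * x * g⁻¹ ∈ S → g * x * g⁻¹ ∈ T) (hne : T ≠ ⊥) :
    T = S := by
  obtain ⟨c, hcX, hc, hcp⟩ := exists_pcycle hp2 hSyl hTS hT hne
  have hcyc : ∀ c' : Perm Ω, c'.IsCycle → c'.support.card = p → c' ∈ conjSet (alternatingGroup Ω) T :=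
    fun c' hc' hcp' => pcycle_all hn hcX hc hcp hc' hcp'
  apply le_antisymm hTS
  intro x hx
  obtain ⟨k, hk⟩ := hSyl.2.1 ⟨x, hx⟩
  have hk' : x ^ p ^ k = 1 := congrArg Subtype.val hk
  exact conjSet_inter hT (conjSet_pelt_all hSyl hTS hT hcyc _ x ⟨k, hk'⟩ le_rfl) hx

end Odd

end Cfsg.Agent.Helper86
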