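import Cfsg.Agent.Helper86.AltDelta
import Cfsg.Agent.Helper86.AltStrongOdd

set_option autoImplicit false
set_option linter.unusedSectionVars false

namespace Cfsg.Agent.Helper86

open Equiv Equiv.Perm

section Cent

variable {ι' : Type*} [Fintype ι'] [DecidableEq ι'] (R : Type*) [Fintype R] [DecidableEq R]
  {p : ℕ} [Fact p.Prime]

/-- an element centralizing the plane translations and the translations off the plane is a
product of such -/
theorem cent_Q_le [Subsingleton R] (c : Perm (((ZMod p ⊕ ι') × ZMod p) ⊕ R))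
    (h2 : ∀ w : ZMod p × ZMod p, c * lamHom R (tV w) = lamHom R (tV w) * c)
    (hr : ∀ β' : ι' → ZMod p, c * tr R (Sum.elim (fun _ => 0) β') =
      tr R (Sum.elim (fun _ => 0) β') * c) :
    ∃ (w₀ : ZMod p × ZMod p) (β' : ι' → ZMod p),
      c = lamHom R (tV w₀) * tr R (Sum.elim (fun _ => 0) β') := by
  have h2' : ∀ (w : ZMod p × ZMod p) (q : ((ZMod p ⊕ ι') × ZMod p) ⊕ R),
      c (lamHom R (tV w) q) = lamHom R (tV w) (c q) := fun w q =>
    congrArg (fun f : Perm (((ZMod p ⊕ ι') × ZMod p) ⊕ R) => f q) (h2 w)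
  have hr' : ∀ (β' : ι' → ZMod p) (q : ((ZMod p ⊕ ι') × ZMod p) ⊕ R),
      c (tr R (Sum.elim (fun _ => 0) β') q) = tr R (Sum.elim (fun _ => 0) β') (c q) := fun β' q =>
    congrArg (fun f : Perm (((ZMod p ⊕ ι') × ZMod p) ⊕ R) => f q) (hr β')
  have hone : (1 : ZMod p) ≠ 0 := one_ne_zero
  -- the image of the origin of the plane
  have h0 : ∃ y₀ x₀ : ZMod p, c (Sum.inl (Sum.inl 0, 0)) = Sum.inl (Sum.inl y₀, x₀) := by
    have hmove : lamHom R (tV ((1 : ZMod p), (0 : ZMod p))) (c (Sum.inl (Sum.inl 0, 0))) ≠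
        c (Sum.inl (Sum.inl 0, 0)) := by
      rw [← h2']
      intro h
      have h' := c.injective h
      have h'' : ((0 : ZMod p) + 1) = 0 := Sum.inl.inj (congrArg Prod.fst (Sum.inl.inj h'))
      rw [zero_add] at h''
      exact hone h''
    rcases hq : c (Sum.inl (Sum.inl 0, 0)) with ⟨y₀ | j, x₀⟩ | r
    · exact ⟨y₀, x₀, rfl⟩
    · rw [hq] at hmove
      exact absurd rfl hmove
    · rw [hq] at hmove
      exact absurd rfl hmove
  obtain ⟨y₀, x₀, h0⟩ := h0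
  have hin : ∀ y x : ZMod p, c (Sum.inl (Sum.inl y, x)) = Sum.inl (Sum.inl (y₀ + y), x₀ + x) := by
    intro y x
    have e : (Sum.inl (Sum.inl y, x) : ((ZMod p ⊕ ι') × ZMod p) ⊕ R) =
        lamHom R (tV (y, x)) (Sum.inl (Sum.inl 0, 0)) := by
      show _ = Sum.inl (Sum.inl (0 + y), 0 + x)
      rw [zero_add, zero_add]
    rw [e, h2', h0]
    rfl
  -- the blocks off the plane
  have hout0 : ∀ j : ι', ∃ bj : ZMod p, c (Sum.inl (Sum.inr j, 0)) = Sum.inl (Sum.inr j, bj) := by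
    intro j
    have hmove : tr R (Sum.elim (fun _ => 0) (Pi.single j (1 : ZMod p) : ι' → ZMod p))
        (c (Sum.inl (Sum.inr j, 0))) ≠ c (Sum.inl (Sum.inr j, 0)) := by
      rw [← hr']
      intro h
      have h' := c.injective h
      rw [tr_inl] at h'
      have h'' := congrArg Prod.snd (Sum.inl.inj h')
      rw [Sum.elim_inr, Pi.single_eq_same] at h''
      have h3 : (0 : ZMod p) + 1 = 0 := h''
      rw [zero_add] at h3
      exact hone h3
    obtain ⟨k, x, hq, hne⟩ := (tr_apply_ne_iff R _ _).1 hmove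
    rcases k with y | j'
    · exact absurd rfl hne
    · have hj : j' = j := by
        by_contra hjj
        apply hne
        show (Pi.single j (1 : ZMod p) : ι' → ZMod p) j' = 0
        rw [Pi.single_apply, if_neg hjj]
      subst hj
      exact ⟨x, hq⟩
  choose β hβ using hout0
  have hout : ∀ (j : ι') (x : ZMod p),
      c (Sum.inl (Sum.inr j, x)) = Sum.inl (Sum.inr j, β j + x) := by
    intro j x
    have e : (Sum.inl (Sum.inr j, x) : ((ZMod p ⊕ ι') × ZMod p) ⊕ R) =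
        tr R (Sum.elim (fun _ => 0) (Pi.single j x : ι' → ZMod p)) (Sum.inl (Sum.inr j, 0)) := by
      rw [tr_inl, Sum.elim_inr, Pi.single_eq_same, zero_add]
    rw [e, hr', hβ, tr_inl, Sum.elim_inr, Pi.single_eq_same]
  have hinr : ∀ r : R, c (Sum.inr r) = Sum.inr r := by
    intro r
    rcases hq : c (Sum.inr r) with ⟨y | j, x⟩ | r'
    · exfalso
      have h := hin (y - y₀) (x - x₀)
      rw [add_sub_cancel, add_sub_cancel, ← hq] at h
      exact Sum.inl_ne_inr (c.injective h)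
    · exfalso
      have h := hout j (x - β j)
      rw [add_sub_cancel, ← hq] at h
      exact Sum.inl_ne_inr (c.injective h)
    · rw [Subsingleton.elim r' r]
  refine ⟨(y₀, x₀), β, Equiv.ext (fun q => ?_)⟩
  rcases q with ⟨y | j, x⟩ | r
  · rw [hin, Perm.mul_apply, tr_inl, Sum.elim_inl, add_zero]
    show _ = Sum.inl (Sum.inl (y + y₀), x + x₀)
    rw [add_comm y₀, add_comm x₀]
  · rw [hout, Perm.mul_apply, tr_inl, Sum.elim_inr]
    show _ = Sum.inl (Sum.inr j, x + β j)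
    rw [add_comm]
  · rw [hinr]
    rfl

end Cent

section Odd

variable (ι' : Type*) [Fintype ι'] [DecidableEq ι'] (R : Type*) [Fintype R] [DecidableEq R]
  (p : ℕ) [Fact p.Prime]

/-- the translations -/
def E1 : Subgroup (Perm (((ZMod p ⊕ ι') × ZMod p) ⊕ R)) :=
  (trHom R : Multiplicative ((ZMod p ⊕ ι') → ZMod p) →* Perm (((ZMod p ⊕ ι') × ZMod p) ⊕ R)).range

/-- the translations of the plane -/
def E2 : Subgroup (Perm (((ZMod p ⊕ ι') × ZMod p) ⊕ R)) :=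
  Subgroup.closure (Set.range fun w : ZMod p × ZMod p => lamHom R (tV w))

/-- the translations off the plane -/
def Erest : Subgroup (Perm (((ZMod p ⊕ ι') × ZMod p) ⊕ R)) :=
  Subgroup.closure (Set.range fun β' : ι' → ZMod p =>
    tr R (Sum.elim (fun _ : ZMod p => (0 : ZMod p)) β'))

/-- the `p`-subgroup used to place the Sylow subgroup -/
def R0 : Subgroup (Perm (((ZMod p ⊕ ι') × ZMod p) ⊕ R)) := E1 ι' R p ⊔ E2 ι' R p

/-- the second centric subgroup -/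
def Q0 : Subgroup (Perm (((ZMod p ⊕ ι') × ZMod p) ⊕ R)) := E2 ι' R p ⊔ Erest ι' R p

variable {ι' R p}

theorem mem_E1 {y : Perm (((ZMod p ⊕ ι') × ZMod p) ⊕ R)} :
    y ∈ E1 ι' R p ↔ ∃ β : (ZMod p ⊕ ι') → ZMod p, y = tr R β := mem_trRange R

theorem E1_le_alt (hp2 : p ≠ 2) :
    E1 ι' R p ≤ alternatingGroup (((ZMod p ⊕ ι') × ZMod p) ⊕ R) := by
  intro y hy
  obtain ⟨β, rfl⟩ := mem_E1.1 hy
  exact (tr_mem_Kgen R hp2 β).1

theorem lam_pelt (hp2 : p ≠ 2) {f : Perm (ZMod p × ZMod p)} (hf : f ^ p = 1) :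
    (lamHom R f : Perm (((ZMod p ⊕ ι') × ZMod p) ⊕ R)) ∈
        alternatingGroup (((ZMod p ⊕ ι') × ZMod p) ⊕ R) ∧
      (lamHom R f : Perm (((ZMod p ⊕ ι') × ZMod p) ⊕ R)) ^ p ^ 1 = 1 := by
  have h1 : (lamHom R f : Perm (((ZMod p ⊕ ι') × ZMod p) ⊕ R)) ^ p ^ 1 = 1 := by
    rw [pow_one, ← map_pow, hf, map_one]
  exact ⟨mem_alternatingGroup.2 (sign_eq_one_of_pow_odd hp2 h1), h1⟩

theorem E2_le_alt (hp2 : p ≠ 2) :
    E2 ι' R p ≤ alternatingGroup (((ZMod p ⊕ ι') × ZMod p) ⊕ R) := by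
  unfold E2
  rw [Subgroup.closure_le]
  rintro _ ⟨w, rfl⟩
  exact (lam_pelt hp2 (tV_pow_p w)).1

theorem isPGroup_E1 : IsPGroup p ↥(E1 ι' R p) := by
  rintro ⟨y, hy⟩
  obtain ⟨β, rfl⟩ := mem_E1.1 hy
  have h1 : tr R β ^ p ^ 1 = 1 := by
    rw [pow_one]
    exact tr_pow_p R β
  exact ⟨1, Subtype.ext h1⟩

theorem isPGroup_E2 : IsPGroup p ↥(E2 ι' R p) := by
  apply isPGroup_closure_comm
  · rintro _ ⟨w, rfl⟩ _ ⟨w', rfl⟩
    show lamHom R (tV w) * lamHom R (tV w') = lamHom R (tV w') * lamHom R (tV w)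
    rw [← map_mul, ← map_mul, tV_comm]
  · rintro _ ⟨w, rfl⟩
    exact ⟨1, by rw [pow_one, ← map_pow, tV_pow_p, map_one]⟩

theorem lam_tV_conj_E1 (w : ZMod p × ZMod p) :
    ∀ y ∈ E1 ι' R p, lamHom R (tV w) * y * (lamHom R (tV w))⁻¹ ∈ E1 ι' R p := by
  obtain ⟨a, c⟩ := w
  rw [lam_tV]
  exact mono_conj_mem R _ _ _

theorem E2_le_normalizer : E2 ι' R p ≤ Subgroup.normalizer (E1 ι' R p : Set _) := by
  unfold E2
  rw [Subgroup.closure_le]
  rintro _ ⟨w, rfl⟩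
  exact Cfsg.Agent.Helper85.mem_normalizer_of_conj_mem (lam_tV_conj_E1 w)

theorem isPGroup_R0 : IsPGroup p ↥(R0 ι' R p) :=
  IsPGroup.to_sup_of_normal_left' isPGroup_E1 isPGroup_E2 E2_le_normalizer

theorem R0_le_alt (hp2 : p ≠ 2) :
    R0 ι' R p ≤ alternatingGroup (((ZMod p ⊕ ι') × ZMod p) ⊕ R) :=
  sup_le (E1_le_alt hp2) (E2_le_alt hp2)

theorem Erest_le_E1 : Erest ι' R p ≤ E1 ι' R p := by
  unfold Erest
  rw [Subgroup.closure_le]
  rintro _ ⟨β', rfl⟩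
  exact mem_E1.2 ⟨_, rfl⟩

theorem Q0_le_R0 : Q0 ι' R p ≤ R0 ι' R p :=
  sup_le le_sup_right (Erest_le_E1.trans le_sup_left)

theorem lam_conj_E2 (f : Perm (ZMod p × ZMod p)) (hf : ∀ u w, f (u + w) = f u + f w) :
    ∀ y ∈ E2 ι' R p, lamHom R f * y * (lamHom R f)⁻¹ ∈ E2 ι' R p := by
  unfold E2
  apply conj_mem_closure
  rintro _ ⟨w, rfl⟩
  apply Subgroup.subset_closure
  refine ⟨f w, ?_⟩
  show lamHom R (tV (f w)) = lamHom R f * lamHom R (tV w) * (lamHom R f)⁻¹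
  rw [← map_inv, ← map_mul, ← map_mul, conj_tV f hf]

theorem lam_conj_Erest (f : Perm (ZMod p × ZMod p)) :
    ∀ y ∈ Erest ι' R p, lamHom R f * y * (lamHom R f)⁻¹ = y := by
  have hle : Erest ι' R p ≤ Subgroup.centralizer
      {(lamHom R f : Perm (((ZMod p ⊕ ι') × ZMod p) ⊕ R))} := by
    unfold Erest
    rw [Subgroup.closure_le]
    rintro _ ⟨β', rfl⟩
    rw [SetLike.mem_coe, Subgroup.mem_centralizer_iff]
    rintro _ rfl
    exact lam_comm_rest R f β'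
  intro y hy
  have h := Subgroup.mem_centralizer_iff.1 (hle hy) _ rfl
  rw [h, mul_assoc, mul_inv_cancel, mul_one]

theorem lam_conj_Q0 (f : Perm (ZMod p × ZMod p)) (hf : ∀ u w, f (u + w) = f u + f w) :
    ∀ y ∈ Q0 ι' R p, lamHom R f * y * (lamHom R f)⁻¹ ∈ Q0 ι' R p := by
  unfold Q0
  apply conj_mem_sup
  · intro y hy
    exact Subgroup.mem_sup_left (lam_conj_E2 f hf y hy)
  · intro y hy
    rw [lam_conj_Erest f y hy]
    exact Subgroup.mem_sup_right hy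

theorem lam_mem_gen (hp2 : p ≠ 2) {f : Perm (ZMod p × ZMod p)} (hfp : f ^ p = 1)
    (hf : ∀ u w, f (u + w) = f u + f w) :
    (lamHom R f : Perm (((ZMod p ⊕ ι') × ZMod p) ⊕ R)) ∈
      {x | x ∈ alternatingGroup (((ZMod p ⊕ ι') × ZMod p) ⊕ R) ∧ (∃ k : ℕ, x ^ p ^ k = 1) ∧
        ∀ y ∈ Q0 ι' R p, x * y * x⁻¹ ∈ Q0 ι' R p} :=
  ⟨(lam_pelt hp2 hfp).1, ⟨1, (lam_pelt hp2 hfp).2⟩, lam_conj_Q0 f hf⟩

theorem lam_dV_mem_closure (hp2 : p ≠ 2) (v : (ZMod p)ˣ) :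
    (lamHom R (dV v) : Perm (((ZMod p ⊕ ι') × ZMod p) ⊕ R)) ∈
      Subgroup.closure {x | x ∈ alternatingGroup (((ZMod p ⊕ ι') × ZMod p) ⊕ R) ∧
        (∃ k : ℕ, x ^ p ^ k = 1) ∧ ∀ y ∈ Q0 ι' R p, x * y * x⁻¹ ∈ Q0 ι' R p} := by
  have e : dV v = xV ((v⁻¹ : (ZMod p)ˣ) : ZMod p) * yV (-(v : ZMod p)) *
      xV ((v⁻¹ : (ZMod p)ˣ) : ZMod p) * (xV 1 * yV (-1) * xV 1)⁻¹ := by
    rw [← dV_eq, mul_inv_cancel_right]
  rw [e, map_mul, map_mul, map_mul, map_inv, map_mul, map_mul]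
  have hx : ∀ a : ZMod p, (lamHom R (xV a) : Perm (((ZMod p ⊕ ι') × ZMod p) ⊕ R)) ∈
      Subgroup.closure {x | x ∈ alternatingGroup (((ZMod p ⊕ ι') × ZMod p) ⊕ R) ∧
        (∃ k : ℕ, x ^ p ^ k = 1) ∧ ∀ y ∈ Q0 ι' R p, x * y * x⁻¹ ∈ Q0 ι' R p} :=
    fun a => Subgroup.subset_closure (lam_mem_gen hp2 (xV_pow_p a) (xV_add a))
  have hy : ∀ a : ZMod p, (lamHom R (yV a) : Perm (((ZMod p ⊕ ι') × ZMod p) ⊕ R)) ∈
      Subgroup.closure {x | x ∈ alternatingGroup (((ZMod p ⊕ ι') × ZMod p) ⊕ R) ∧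
        (∃ k : ℕ, x ^ p ^ k = 1) ∧ ∀ y ∈ Q0 ι' R p, x * y * x⁻¹ ∈ Q0 ι' R p} :=
    fun a => Subgroup.subset_closure (lam_mem_gen hp2 (yV_pow_p a) (yV_add a))
  exact Subgroup.mul_mem _ (Subgroup.mul_mem _ (Subgroup.mul_mem _ (hx _) (hy _)) (hx _))
    (Subgroup.inv_mem _ (Subgroup.mul_mem _ (Subgroup.mul_mem _ (hx _) (hy _)) (hx _)))

theorem cent_Q0 [Subsingleton R] (c : Perm (((ZMod p ⊕ ι') × ZMod p) ⊕ R))
    (hc : ∀ x ∈ Q0 ι' R p, c * x = x * c) : c ∈ Q0 ι' R p := by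
  obtain ⟨w₀, β', rfl⟩ := cent_Q_le R c
    (fun w => hc _ (Subgroup.mem_sup_left (Subgroup.subset_closure ⟨w, rfl⟩)))
    (fun β' => hc _ (Subgroup.mem_sup_right (Subgroup.subset_closure ⟨β', rfl⟩)))
  exact Subgroup.mul_mem_sup (Subgroup.subset_closure ⟨w₀, rfl⟩) (Subgroup.subset_closure ⟨β', rfl⟩)

/-- the hypotheses of the simplicity criterion hold in the alternating group, `p` odd -/
theorem altHyp_odd [Subsingleton R] (hp2 : p ≠ 2)
    {S : Subgroup (Perm (((ZMod p ⊕ ι') × ZMod p) ⊕ R))}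
    (hSyl : RelSyl p (alternatingGroup (((ZMod p ⊕ ι') × ZMod p) ⊕ R)) S) (hR : R0 ι' R p ≤ S) :
    AltHyp p (alternatingGroup (((ZMod p ⊕ ι') × ZMod p) ⊕ R)) S := by
  have hp : p.Prime := Fact.out
  have hp3 : 3 ≤ p := by
    have := hp.two_le
    omega
  have hE1S : E1 ι' R p ≤ S := le_sup_left.trans hR
  have hES : ∀ β : (ZMod p ⊕ ι') → ZMod p, tr R β ∈ S := fun β => hE1S (mem_E1.2 ⟨β, rfl⟩)
  have hcentE : ∀ c ∈ alternatingGroup (((ZMod p ⊕ ι') × ZMod p) ⊕ R),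
      (∀ x ∈ E1 ι' R p, c * x = x * c) → c ∈ E1 ι' R p := by
    intro c _ hc
    obtain ⟨β, rfl⟩ := eq_tr_of_commute R c (fun β => hc _ (mem_E1.2 ⟨β, rfl⟩))
    exact mem_E1.2 ⟨β, rfl⟩
  have hcard : p + 2 ≤ Fintype.card (((ZMod p ⊕ ι') × ZMod p) ⊕ R) := by
    rw [Fintype.card_sum, Fintype.card_prod, Fintype.card_sum, ZMod.card]
    have h1 : p * p ≤ (p + Fintype.card ι') * p := Nat.mul_le_mul_right p (Nat.le_add_right _ _)
    have h2 : 3 * p ≤ p * p := Nat.mul_le_mul_right p hp3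
    omega
  have hm : p ≤ Fintype.card (ZMod p ⊕ ι') := by
    rw [Fintype.card_sum, ZMod.card]
    omega
  refine ⟨?_, ?_, E1 ι' R p, hE1S, hcentE, ?_⟩
  · intro hbot
    have h1 := hES (Pi.single (Sum.inl 0) 1)
    rw [hbot, Subgroup.mem_bot] at h1
    exact tr_single_ne_one R _ one_ne_zero h1
  · intro T hTS hT
    by_cases hne : T = ⊥
    · exact Or.inl hne
    · exact Or.inr (strongly_closed_alt_odd hp2 hcard hSyl hTS hT hne)
  · intro g hgA hgS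
    obtain ⟨π, t, b, rfl⟩ := exists_mono_of_conj R g (conj_tr_of_normalizes R hSyl.2.1 hES hgS)
    have hδ := lam_dV (ι' := ι') R (∏ j, t j)
    have hδcl := lam_dV_mem_closure (ι' := ι') (R := R) hp2 (∏ j, t j)
    have hδA : (lamHom R (dV (∏ j, t j)) : Perm (((ZMod p ⊕ ι') × ZMod p) ⊕ R)) ∈
        alternatingGroup (((ZMod p ⊕ ι') × ZMod p) ⊕ R) := by
      have hle : Subgroup.closure {x | x ∈ alternatingGroup (((ZMod p ⊕ ι') × ZMod p) ⊕ R) ∧
          (∃ k : ℕ, x ^ p ^ k = 1) ∧ ∀ y ∈ Q0 ι' R p, x * y * x⁻¹ ∈ Q0 ι' R p} ≤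
            alternatingGroup (((ZMod p ⊕ ι') × ZMod p) ⊕ R) := by
        rw [Subgroup.closure_le]
        intro x hx
        exact hx.1
      exact hle hδcl
    have hδE : ∀ y ∈ E1 ι' R p, lamHom R (dV (∏ j, t j)) * y * (lamHom R (dV (∏ j, t j)))⁻¹ ∈
        E1 ι' R p := by
      rw [hδ]
      exact mono_conj_mem R _ _ _
    have hkA : (lamHom R (dV (∏ j, t j)))⁻¹ * mono R π t b ∈
        alternatingGroup (((ZMod p ⊕ ι') × ZMod p) ⊕ R) :=
      Subgroup.mul_mem _ (Subgroup.inv_mem _ hδA) hgA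
    obtain ⟨π', t', b', hk', ht'⟩ : ∃ (π' : Perm (ZMod p ⊕ ι')) (t' : (ZMod p ⊕ ι') → (ZMod p)ˣ)
        (b' : (ZMod p ⊕ ι') → ZMod p),
        (lamHom R (dV (∏ j, t j)))⁻¹ * mono R π t b = mono R π' t' b' ∧ ∏ j, t' j = 1 := by
      rw [hδ, mono_inv, mono_mul]
      refine ⟨_, _, _, rfl, ?_⟩
      have hprod : ∏ j, (((Sum.elim (fun _ => ∏ j, t j) (fun _ => 1) : ZMod p ⊕ ι' → (ZMod p)ˣ)
          (((Equiv.sumCongr (mulP (∏ j, t j)⁻¹) (Equiv.refl ι') : Perm (ZMod p ⊕ ι'))⁻¹ * π) j))⁻¹ *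
            t j) = 1 := by
        rw [Finset.prod_mul_distrib, Finset.prod_inv_distrib,
          Equiv.prod_comp ((Equiv.sumCongr (mulP (∏ j, t j)⁻¹) (Equiv.refl ι') :
            Perm (ZMod p ⊕ ι'))⁻¹ * π)
            (Sum.elim (fun _ => ∏ j, t j) (fun _ => 1) : ZMod p ⊕ ι' → (ZMod p)ˣ),
          prod_elim_unit, inv_mul_cancel]
      exact hprod
    rw [hk'] at hkA
    have hk : mono R π' t' b' ∈ Subgroup.closure (Kgen R) :=
      mono_mem_closure R hp2 hm π' t' b' hkA ht'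
    have e : mono R π t b = lamHom R (dV (∏ j, t j)) * mono R π' t' b' := by
      rw [← hk', mul_inv_cancel_left]
    rw [e]
    apply Subgroup.mul_mem
    · apply Subgroup.subset_closure
      refine ⟨hδA, hδE, Q0 ι' R p, R0 ι' R p, Q0_le_R0, le_sup_left, hR,
        fun c _ hc => cent_Q0 c hc, lam_conj_Q0 _ (dV_add _), ?_, hδcl⟩
      unfold R0
      apply conj_mem_sup
      · intro y hy
        exact Subgroup.mem_sup_left (hδE y hy)
      · intro y hy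
        exact Subgroup.mem_sup_right (lam_conj_E2 _ (dV_add _) y hy)
    · apply Subgroup.subset_closure
      exact ⟨hkA, mono_conj_mem R _ _ _, E1 ι' R p, E1 ι' R p, le_rfl, le_rfl, hE1S, hcentE,
        mono_conj_mem R _ _ _, mono_conj_mem R _ _ _, hk⟩

end Odd

end Cfsg.Agent.Helper86
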