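import Cfsg.Agent.Helper86.AltStrongOdd

set_option autoImplicit false

namespace Cfsg.Agent.Helper86

open Equiv Equiv.Perm

section Two

variable {Ω : Type*} [Fintype Ω] [DecidableEq Ω]

/-- cycles of `2`-power length are odd permutations -/
theorem sign_cycle_two_pow {c : Perm Ω} (hc : c.IsCycle) {k : ℕ} (hk : c ^ 2 ^ k = 1) : sign c = -1 := by
  obtain ⟨j, -, hj⟩ := (Nat.dvd_prime_pow Nat.prime_two).1 (orderOf_dvd_of_pow_eq_one hk)
  rw [hc.orderOf] at hj
  have h2 := hc.two_le_card_support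
  have hj0 : j ≠ 0 := by
    intro h
    rw [h, pow_zero] at hj
    omega
  have hev : Even c.support.card := by
    rw [hj]
    exact (Nat.even_pow' hj0).mpr even_two
  rw [hc.sign, hev.neg_one_pow]

theorem swap_swap_cycleType {a b c d : Ω} (hab : a ≠ b) (hcd : c ≠ d)
    (hd : Disjoint (swap a b) (swap c d)) : (swap a b * swap c d).cycleType = {2, 2} := by
  rw [hd.cycleType_mul, (isCycle_swap hab).cycleType, (isCycle_swap hcd).cycleType,
    card_support_swap hab, card_support_swap hcd]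
  rfl

variable {S T : Subgroup (Perm Ω)}

/-- a nontrivial strongly closed subgroup contains a conjugate of a double transposition -/
theorem exists_double_transposition (hSyl : RelSyl 2 (alternatingGroup Ω) S) (hTS : T ≤ S)
    (hT : ∀ x ∈ T, ∀ g ∈ alternatingGroup Ω, g * x * g⁻¹ ∈ S → g * x * g⁻¹ ∈ T) (hne : T ≠ ⊥) :
    ∃ w ∈ conjSet (alternatingGroup Ω) T, w.cycleType = {2, 2} := by
  have hTp : IsPGroup 2 ↥T := hSyl.2.1.to_le hTS
  have hTfin : Finite ↥T := inferInstance
  have hdvd : 2 ∣ Nat.card ↥T := by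
    rcases hTp.card_eq_or_dvd with h | h
    · exfalso
      apply hne
      exact Subgroup.card_eq_one.mp h
    · exact h
  have : Fact (Nat.Prime 2) := ⟨Nat.prime_two⟩
  obtain ⟨⟨z, hzT⟩, hzo⟩ := exists_prime_orderOf_dvd_card' 2 hdvd
  have hzo' : orderOf z = 2 := by
    rw [← hzo]
    exact (Subgroup.orderOf_mk z hzT).symm
  have hzX : z ∈ conjSet (alternatingGroup Ω) T := mem_conjSet_of_mem hzT
  have hzA : sign z = 1 := mem_alternatingGroup.mp (hSyl.1 (hTS hzT))
  have hz2 : z * z = 1 := by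
    rw [← pow_two, ← hzo']
    exact pow_orderOf_eq_one z
  have hzz : ∀ x, z (z x) = x := fun x => by
    rw [← Perm.mul_apply, hz2, Perm.one_apply]
  have hzinv : z⁻¹ = z := inv_eq_of_mul_eq_one_left hz2
  have hz1 : z ≠ 1 := by
    intro h
    rw [h, orderOf_one] at hzo'
    omega
  obtain ⟨a₁, ha₁⟩ : ∃ a₁, z a₁ ≠ a₁ := by
    by_contra h
    push Not at h
    exact hz1 (Equiv.ext h)
  have hne1 : a₁ ≠ z a₁ := fun h => ha₁ h.symm
  -- the second pair
  have hs1 : sign (z * swap a₁ (z a₁)) = -1 := by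
    rw [map_mul, hzA, sign_swap hne1, one_mul]
  obtain ⟨a₂, ha₂⟩ : ∃ a₂, (z * swap a₁ (z a₁)) a₂ ≠ a₂ := by
    by_contra h
    push Not at h
    have : z * swap a₁ (z a₁) = 1 := Equiv.ext h
    rw [this, map_one] at hs1
    exact absurd hs1 (by decide)
  have h21 : a₂ ≠ a₁ := by
    intro h
    apply ha₂
    rw [h, Perm.mul_apply, swap_apply_left, hzz]
  have h2b1 : a₂ ≠ z a₁ := by
    intro h
    apply ha₂
    rw [h, Perm.mul_apply, swap_apply_right]
  have hza₂ : z a₂ ≠ a₂ := by
    intro h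
    apply ha₂
    rw [Perm.mul_apply, swap_apply_of_ne_of_ne h21 h2b1, h]
  have hb2a1 : z a₂ ≠ a₁ := by
    intro h
    apply h2b1
    rw [← h, hzz]
  have hb2b1 : z a₂ ≠ z a₁ := fun h => h21 (z.injective h)
  -- the conjugating element
  have hcomm1 : z * swap a₁ (z a₁) = swap a₁ (z a₁) * z := by
    have h := swap_apply_apply z a₁ (z a₁)
    rw [hzz, swap_comm, hzinv] at h
    calc z * swap a₁ (z a₁) = z * (z * swap a₁ (z a₁) * z) := by rw [← h]
      _ = (z * z) * swap a₁ (z a₁) * z := by simp only [mul_assoc]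
      _ = swap a₁ (z a₁) * z := by rw [hz2, one_mul]
  have hgA : swap (z a₁) (z a₂) * swap a₁ (z a₁) ∈ alternatingGroup Ω := by
    rw [mem_alternatingGroup, map_mul, sign_swap hb2b1.symm, sign_swap hne1]
    simp
  have hz₂X := conjSet_conj hzX hgA
  have hz₂ : swap (z a₁) (z a₂) * swap a₁ (z a₁) * z * (swap (z a₁) (z a₂) * swap a₁ (z a₁))⁻¹
      = swap (z a₁) (z a₂) * z * swap (z a₁) (z a₂) := by
    rw [mul_inv_rev, swap_inv, swap_inv]
    calc swap (z a₁) (z a₂) * swap a₁ (z a₁) * z * (swap a₁ (z a₁) * swap (z a₁) (z a₂))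
        = swap (z a₁) (z a₂) * (swap a₁ (z a₁) * z) * swap a₁ (z a₁) * swap (z a₁) (z a₂) := by
          simp only [mul_assoc]
      _ = swap (z a₁) (z a₂) * (z * swap a₁ (z a₁)) * swap a₁ (z a₁) * swap (z a₁) (z a₂) := by
          rw [hcomm1]
      _ = swap (z a₁) (z a₂) * z * (swap a₁ (z a₁) * swap a₁ (z a₁)) * swap (z a₁) (z a₂) := by
          simp only [mul_assoc]
      _ = swap (z a₁) (z a₂) * z * swap (z a₁) (z a₂) := by rw [swap_mul_self, mul_one]
  rw [hz₂] at hz₂X
  have hconj : z * swap (z a₁) (z a₂) * z = swap a₁ a₂ := by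
    have h := swap_apply_apply z (z a₁) (z a₂)
    rw [hzz, hzz, hzinv] at h
    exact h.symm
  have hdisj : Disjoint (swap a₁ a₂) (swap (z a₁) (z a₂)) := by
    intro x
    by_cases hx1 : x = a₁
    · right
      rw [hx1]
      exact swap_apply_of_ne_of_ne hne1 hb2a1.symm
    · by_cases hx2 : x = a₂
      · right
        rw [hx2]
        exact swap_apply_of_ne_of_ne h2b1 hza₂.symm
      · left
        exact swap_apply_of_ne_of_ne hx1 hx2
  have e1 : z * (swap (z a₁) (z a₂) * z * swap (z a₁) (z a₂)) = swap a₁ a₂ * swap (z a₁) (z a₂) := by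
    rw [← hconj]
    simp only [mul_assoc]
  have e2 : (swap (z a₁) (z a₂) * z * swap (z a₁) (z a₂)) * z = swap a₁ a₂ * swap (z a₁) (z a₂) := by
    rw [hdisj.commute.eq, ← hconj]
    simp only [mul_assoc]
  have hw := conjSet_mul_comm hSyl hTS hT hzX hz₂X (e1.trans e2.symm)
  rw [e1] at hw
  exact ⟨_, hw, swap_swap_cycleType h21.symm hb2b1.symm hdisj⟩

/-- two disjoint cycles, the first of length `2 * M` -/
theorem two_cycles_step (hSyl : RelSyl 2 (alternatingGroup Ω) S) (hTS : T ≤ S)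
    (hT : ∀ x ∈ T, ∀ g ∈ alternatingGroup Ω, g * x * g⁻¹ ∈ S → g * x * g⁻¹ ∈ T) {s : ℕ}
    (ih : ∀ g : Perm Ω, g ∈ alternatingGroup Ω → (∃ k : ℕ, g ^ 2 ^ k = 1) → g.support.card ≤ s →
      g ∈ conjSet (alternatingGroup Ω) T)
    {c c' : Perm Ω} (hc : c.IsCycle) (hc' : c'.IsCycle) (hd : Disjoint c c') {k : ℕ}
    (hck : c ^ 2 ^ k = 1) (hc'k : c' ^ 2 ^ k = 1) (h4 : 4 ≤ c.support.card)
    (hs : c.support.card + c'.support.card ≤ s + 1) : c * c' ∈ conjSet (alternatingGroup Ω) T := by
  have : Fact (Nat.Prime 2) := ⟨Nat.prime_two⟩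
  obtain ⟨j, -, hj⟩ := (Nat.dvd_prime_pow Nat.prime_two).1 (orderOf_dvd_of_pow_eq_one hck)
  rw [hc.orderOf] at hj
  obtain ⟨i, rfl⟩ : ∃ i, j = i + 2 := by
    refine ⟨j - 2, ?_⟩
    have : 2 ≤ j := by
      by_contra h
      have hj' : j = 0 ∨ j = 1 := by omega
      rcases hj' with h | h
      · rw [h, pow_zero] at hj; omega
      · rw [h, pow_one] at hj; omega
    omega
  have hM2 : 2 ≤ 2 ^ (i + 1) := by
    calc 2 = 2 ^ 1 := (pow_one 2).symm
      _ ≤ 2 ^ (i + 1) := Nat.pow_le_pow_right (by norm_num) (by omega)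
  have hcard' : c.support.card = 2 * 2 ^ (i + 1) := by
    rw [hj, pow_succ' 2 (i + 1)]
  obtain ⟨σ, b, hcb, hσp, hbcyc, hbcard, hfσ, hfb, hpg⟩ := cycle_decomp hM2 c hc hcard'
  have h2' := hc'.two_le_card_support
  have hdσ : Disjoint σ c' := fun x => (hd x).imp (hfσ x) id
  have hdb : Disjoint b c' := fun x => (hd x).imp (hfb x) id
  have hbpow : b ^ 2 ^ (i + 1) = 1 := by
    rw [← hbcard, ← hbcyc.orderOf]
    exact pow_orderOf_eq_one b
  have hsb : sign b = -1 := sign_cycle_two_pow hbcyc hbpow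
  have hsc : sign c = -1 := sign_cycle_two_pow hc hck
  have hsc' : sign c' = -1 := sign_cycle_two_pow hc' hc'k
  have hsσ : sign σ = 1 := by
    have h := congrArg sign hcb
    rw [map_mul, hsc, hsb] at h
    rcases Int.units_eq_one_or (sign σ) with h1 | h1
    · exact h1
    · rw [h1] at h
      exact absurd h (by decide)
  have hσsupp : σ.support.card ≤ c.support.card := by
    apply Finset.card_le_card
    intro x hx
    rw [Perm.mem_support] at hx ⊢
    exact fun h => hx (hfσ x h)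
  have hσX : σ ∈ conjSet (alternatingGroup Ω) T :=
    ih σ (mem_alternatingGroup.mpr hsσ) ⟨1, by rw [pow_one]; exact hσp⟩ (by omega)
  have hbc'X : b * c' ∈ conjSet (alternatingGroup Ω) T := by
    apply ih
    · rw [mem_alternatingGroup, map_mul, hsb, hsc']
      simp
    · refine ⟨i + 1 + k, ?_⟩
      rw [hdb.commute.mul_pow, pow_add, pow_mul, hbpow, one_pow, mul_comm (2 ^ (i + 1)), pow_mul, hc'k,
        one_pow, one_mul]
    · rw [hdb.card_support_mul, hbcard]
      omega
  have e : c * c' = (b * c') * σ := by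
    rw [hcb, mul_assoc, hdσ.commute.eq, ← mul_assoc]
  rw [e]
  apply conjSet_mul hSyl hTS hT hbc'X hσX
  have hH := hpg ⟨i + 1, rfl⟩
  have hK : IsPGroup 2 ↥(Subgroup.zpowers c') := by
    rintro ⟨y, hy⟩
    obtain ⟨n, rfl⟩ := Subgroup.mem_zpowers_iff.mp hy
    refine ⟨k, Subtype.ext ?_⟩
    show (c' ^ n) ^ 2 ^ k = 1
    rw [← zpow_natCast, ← zpow_mul, mul_comm, zpow_mul, zpow_natCast, hc'k, one_zpow]
  have hnorm : Subgroup.zpowers c' ≤
      Subgroup.normalizer ((Subgroup.closure ({σ, b} : Set (Perm Ω)) : Subgroup (Perm Ω)) : Set (Perm Ω)) := by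
    rw [Subgroup.zpowers_le]
    apply Subgroup.centralizer_le_normalizer
    rw [Subgroup.mem_centralizer_iff]
    have hle : Subgroup.closure ({σ, b} : Set (Perm Ω)) ≤ Subgroup.centralizer {c'} := by
      rw [Subgroup.closure_le]
      rintro x (rfl | rfl)
      · exact Subgroup.mem_centralizer_singleton_iff.mpr hdσ.commute.eq
      · exact Subgroup.mem_centralizer_singleton_iff.mpr hdb.commute.eq
    intro h hh
    exact Subgroup.mem_centralizer_singleton_iff.mp (hle hh)
  have hsup := IsPGroup.to_sup_of_normal_left' hH hK hnorm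
  refine hsup.to_le ?_
  rw [Subgroup.closure_le]
  rintro x (rfl | rfl)
  · exact Subgroup.mul_mem _ (Subgroup.mem_sup_left (Subgroup.subset_closure (by simp)))
      (Subgroup.mem_sup_right (Subgroup.mem_zpowers _))
  · exact Subgroup.mem_sup_left (Subgroup.subset_closure (by simp))

/-- every even `2`-element lies in a conjugate of `T` -/
theorem conjSet_two_all (hSyl : RelSyl 2 (alternatingGroup Ω) S) (hTS : T ≤ S)
    (hT : ∀ x ∈ T, ∀ g ∈ alternatingGroup Ω, g * x * g⁻¹ ∈ S → g * x * g⁻¹ ∈ T)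
    (hdt : ∀ w : Perm Ω, w.cycleType = {2, 2} → w ∈ conjSet (alternatingGroup Ω) T) :
    ∀ (s : ℕ) (g : Perm Ω), g ∈ alternatingGroup Ω → (∃ k : ℕ, g ^ 2 ^ k = 1) → g.support.card ≤ s →
      g ∈ conjSet (alternatingGroup Ω) T := by
  intro s
  induction s with
  | zero =>
    intro g _ _ hs
    have : g = 1 := card_support_eq_zero.mp (Nat.le_zero.mp hs)
    rw [this]
    exact mem_conjSet_of_mem T.one_mem
  | succ s ih =>
    intro g hgA hg hs
    obtain ⟨k, hk⟩ := hg
    have hsg : sign g = 1 := mem_alternatingGroup.mp hgA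
    by_cases hg1 : g = 1
    · rw [hg1]
      exact mem_conjSet_of_mem T.one_mem
    · obtain ⟨c₁, hc₁⟩ : g.cycleFactorsFinset.Nonempty := by
        rw [Finset.nonempty_iff_ne_empty]
        intro h
        exact hg1 (cycleFactorsFinset_eq_empty_iff.mp h)
      obtain ⟨hd₁, hgc₁, hc₁cyc, hcard₁⟩ := split_cycleFactor hc₁
      obtain ⟨hc₁p, hg₁p⟩ := pelt_cycleFactor hc₁ hk
      have hsc₁ : sign c₁ = -1 := sign_cycle_two_pow hc₁cyc hc₁p
      have hsg₁ : sign (g * c₁⁻¹) = -1 := by
        rw [map_mul, map_inv, hsg, hsc₁]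
        simp
      have hg₁1 : g * c₁⁻¹ ≠ 1 := by
        intro h
        rw [h, map_one] at hsg₁
        exact absurd hsg₁ (by decide)
      obtain ⟨c₂, hc₂⟩ : (g * c₁⁻¹).cycleFactorsFinset.Nonempty := by
        rw [Finset.nonempty_iff_ne_empty]
        intro h
        exact hg₁1 (cycleFactorsFinset_eq_empty_iff.mp h)
      obtain ⟨hd₂, hgc₂, hc₂cyc, hcard₂⟩ := split_cycleFactor hc₂
      obtain ⟨hc₂p, hg₂p⟩ := pelt_cycleFactor hc₂ hg₁p
      have hsc₂ : sign c₂ = -1 := sign_cycle_two_pow hc₂cyc hc₂p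
      have hsg₂ : sign (g * c₁⁻¹ * c₂⁻¹) = 1 := by
        rw [map_mul, map_inv, hsg₁, hsc₂]
        simp
      have h2c₁ := hc₁cyc.two_le_card_support
      have h2c₂ := hc₂cyc.two_le_card_support
      -- disjointness
      have hsupp₁ := (disjoint_iff_disjoint_support).1 hd₁
      have hsupp₂ : (g * c₁⁻¹).support = (g * c₁⁻¹ * c₂⁻¹).support ∪ c₂.support := by
        conv_lhs => rw [hgc₂]
        exact hd₂.support_mul
      have hdc : Disjoint c₂ c₁ := by
        rw [disjoint_iff_disjoint_support]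
        exact Finset.disjoint_of_subset_left (by rw [hsupp₂]; exact Finset.subset_union_right) hsupp₁
      have hdg₂ : Disjoint (g * c₁⁻¹ * c₂⁻¹) c₁ := by
        rw [disjoint_iff_disjoint_support]
        exact Finset.disjoint_of_subset_left (by rw [hsupp₂]; exact Finset.subset_union_left) hsupp₁
      have hgd : g = (g * c₁⁻¹ * c₂⁻¹) * (c₂ * c₁) := by
        conv_lhs => rw [hgc₁, hgc₂]
        rw [mul_assoc]
      have hdcard : (c₂ * c₁).support.card = c₂.support.card + c₁.support.card := hdc.card_support_mul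
      by_cases hg₂1 : g * c₁⁻¹ * c₂⁻¹ = 1
      · -- two cycles
        have hg2 : g = c₂ * c₁ := by
          rw [hgd, hg₂1, one_mul]
        have hg₂0 : (g * c₁⁻¹ * c₂⁻¹).support.card = 0 := card_support_eq_zero.mpr hg₂1
        by_cases h4 : 4 ≤ c₂.support.card
        · rw [hg2]
          exact two_cycles_step hSyl hTS hT ih hc₂cyc hc₁cyc hdc hc₂p hc₁p h4 (by omega)
        · by_cases h4' : 4 ≤ c₁.support.card
          · rw [hg2, hdc.commute.eq]
            exact two_cycles_step hSyl hTS hT ih hc₁cyc hc₂cyc hdc.symm hc₁p hc₂p h4' (by omega)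
          · -- both are transpositions
            apply hdt
            obtain ⟨j₁, -, hj₁⟩ := (Nat.dvd_prime_pow Nat.prime_two).1 (orderOf_dvd_of_pow_eq_one hc₁p)
            obtain ⟨j₂, -, hj₂⟩ := (Nat.dvd_prime_pow Nat.prime_two).1 (orderOf_dvd_of_pow_eq_one hc₂p)
            rw [hc₁cyc.orderOf] at hj₁
            rw [hc₂cyc.orderOf] at hj₂
            have hc₁2 : c₁.support.card = 2 := by
              have : j₁ < 2 := by
                by_contra h
                have : 2 ^ 2 ≤ 2 ^ j₁ := Nat.pow_le_pow_right (by norm_num) (by omega)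
                omega
              interval_cases j₁ <;> omega
            have hc₂2 : c₂.support.card = 2 := by
              have : j₂ < 2 := by
                by_contra h
                have : 2 ^ 2 ≤ 2 ^ j₂ := Nat.pow_le_pow_right (by norm_num) (by omega)
                omega
              interval_cases j₂ <;> omega
            rw [hg2, hdc.cycleType_mul, hc₂cyc.cycleType, hc₁cyc.cycleType, hc₁2, hc₂2]
            rfl
      · have hg₂pos : 1 ≤ (g * c₁⁻¹ * c₂⁻¹).support.card := by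
          rcases Nat.eq_zero_or_pos (g * c₁⁻¹ * c₂⁻¹).support.card with h | h
          · exact absurd (card_support_eq_zero.mp h) hg₂1
          · exact h
        have hg₂X := ih _ (mem_alternatingGroup.mpr hsg₂) ⟨k, hg₂p⟩ (by omega)
        have hdX : c₂ * c₁ ∈ conjSet (alternatingGroup Ω) T := by
          apply ih
          · rw [mem_alternatingGroup, map_mul, hsc₁, hsc₂]
            simp
          · exact ⟨k, by rw [hdc.commute.mul_pow, hc₂p, hc₁p, one_mul]⟩
          · omega
        rw [hgd]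
        exact conjSet_mul_comm hSyl hTS hT hg₂X hdX (hd₂.mul_right hdg₂).commute.eq

/-- strongly closed subgroups of a Sylow `2`-subgroup of the alternating group -/
theorem strongly_closed_alt_two
    (hSyl : RelSyl 2 (alternatingGroup Ω) S) (hTS : T ≤ S)
    (hT : ∀ x ∈ T, ∀ g ∈ alternatingGroup Ω, g * x * g⁻¹ ∈ S → g * x * g⁻¹ ∈ T) (hne : T ≠ ⊥) :
    T = S := by
  obtain ⟨w, hwX, hw⟩ := exists_double_transposition hSyl hTS hT hne
  have hdt : ∀ w' : Perm Ω, w'.cycleType = {2, 2} → w' ∈ conjSet (alternatingGroup Ω) T := by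
    intro w' hw'
    apply conjSet_of_cycleType hwX (hw.trans hw'.symm)
    intro hle
    have h := (centralizer_le_alternating_iff.1 hle).1 2 (by rw [hw]; simp)
    exact absurd h (by decide)
  apply le_antisymm hTS
  intro x hx
  obtain ⟨k, hk⟩ := hSyl.2.1 ⟨x, hx⟩
  have hk' : x ^ 2 ^ k = 1 := congrArg Subtype.val hk
  exact conjSet_inter hT (conjSet_two_all hSyl hTS hT hdt _ x (hSyl.1 hx) ⟨k, hk'⟩ le_rfl) hx

end Two

end Cfsg.Agent.Helper86
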