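import Cfsg.Agent.Helper86.AltNormK
import Cfsg.Agent.Helper86.AltCritB
import Cfsg.Agent.Helper86.AltStrongTwo

set_option autoImplicit false
set_option linter.unusedSectionVars false

namespace Cfsg.Agent.Helper86

open Equiv Equiv.Perm

theorem zmod2_cases : ∀ x x' : ZMod 2, x' ≠ x → x' = x + 1 := by decide

theorem zmod2_add_one_ne : ∀ x : ZMod 2, x + 1 ≠ x := by decide

theorem zmod2_add_one_add_one : ∀ x : ZMod 2, x + 1 + 1 = x := by decide

theorem zmod2_add_add : ∀ x y : ZMod 2, x + (x + y) = y := by decide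

theorem zmod2_zero_or_one : ∀ x : ZMod 2, x = 0 ∨ x = 1 := by decide

theorem conj_conj_inv {G : Type*} [Group G] (g y : G) : g * (g⁻¹ * y * g) * g⁻¹ = y := by group

theorem three_not_two_group {Ω : Type*} [Fintype Ω] [DecidableEq Ω] {H : Subgroup (Perm Ω)}
    (hH : IsPGroup 2 ↥H) {z : Perm Ω} (hz : z ∈ H) (h3 : z.IsThreeCycle) : False := by
  obtain ⟨n, hn⟩ := hH ⟨z, hz⟩
  have hn' : z ^ 2 ^ n = 1 := congrArg Subtype.val hn
  have hd : orderOf z ∣ 2 ^ n := orderOf_dvd_of_pow_eq_one hn'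
  rw [h3.orderOf] at hd
  have h := Nat.Prime.dvd_of_dvd_pow Nat.prime_three hd
  omega

section Two

variable {ι : Type*} [Fintype ι] [DecidableEq ι] (R : Type*) [Fintype R] [DecidableEq R]

theorem tr_single_eq_swap (j : ι) (x : ZMod 2) :
    tr R (Pi.single j (1 : ZMod 2)) = swap (Sum.inl (j, x)) (Sum.inl (j, x + 1)) := by
  refine Equiv.ext (fun q => ?_)
  rcases q with ⟨k, y⟩ | r
  · rw [tr_inl]
    by_cases hk : k = j
    · subst hk
      rw [Pi.single_eq_same]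
      by_cases hy : y = x
      · subst hy
        rw [swap_apply_left]
      · have h := zmod2_cases x y hy
        subst h
        rw [swap_apply_right, zmod2_add_one_add_one]
    · rw [Pi.single_apply, if_neg hk, add_zero, swap_apply_of_ne_of_ne]
      · intro h
        exact hk (congrArg Prod.fst (Sum.inl.inj h))
      · intro h
        exact hk (congrArg Prod.fst (Sum.inl.inj h))
  · rw [tr_inr, swap_apply_of_ne_of_ne Sum.inr_ne_inl Sum.inr_ne_inl]

/-- the vector with entries one at `j` and at `k` -/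
def pr (j k : ι) : ι → ZMod 2 := Pi.single j 1 + Pi.single k 1

theorem pr_apply_self {j k : ι} (hjk : j ≠ k) : pr j k j = 1 := by
  show (Pi.single j (1 : ZMod 2) : ι → ZMod 2) j + (Pi.single k (1 : ZMod 2) : ι → ZMod 2) j = 1
  rw [Pi.single_eq_same, Pi.single_apply, if_neg hjk, add_zero]

theorem pr_ne_zero_imp {j k i : ι} (h : pr j k i ≠ 0) : i = j ∨ i = k := by
  by_contra hcon
  push Not at hcon
  apply h
  show (Pi.single j (1 : ZMod 2) : ι → ZMod 2) i + (Pi.single k (1 : ZMod 2) : ι → ZMod 2) i = 0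
  rw [Pi.single_apply, if_neg hcon.1, Pi.single_apply, if_neg hcon.2, add_zero]

variable (ι) in
/-- the even translations -/
def P2 : Subgroup (Perm ((ι × ZMod 2) ⊕ R)) :=
  (trHom R : Multiplicative (ι → ZMod 2) →* Perm ((ι × ZMod 2) ⊕ R)).range ⊓
    alternatingGroup ((ι × ZMod 2) ⊕ R)

theorem tr_pr_mem_P2 (j k : ι) : tr R (pr j k) ∈ P2 ι R := by
  refine ⟨(mem_trRange R).2 ⟨_, rfl⟩, ?_⟩
  show tr R (pr j k) ∈ alternatingGroup ((ι × ZMod 2) ⊕ R)
  have e : tr R (pr j k) = tr R (Pi.single j 1) * tr R (Pi.single k 1) := by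
    rw [tr_mul]
    rfl
  have hne : ∀ i : ι, (Sum.inl (i, (0 : ZMod 2)) : (ι × ZMod 2) ⊕ R) ≠ Sum.inl (i, 0 + 1) := by
    intro i h
    exact zmod2_add_one_ne 0 (congrArg Prod.snd (Sum.inl.inj h)).symm
  rw [mem_alternatingGroup, e, map_mul, tr_single_eq_swap R j 0, tr_single_eq_swap R k 0,
    sign_swap (hne j), sign_swap (hne k)]
  rfl

theorem isPGroup_P2 : IsPGroup 2 ↥(P2 ι R) := by
  rintro ⟨y, hy⟩
  obtain ⟨β, rfl⟩ := (mem_trRange R).1 hy.1
  have h1 : tr R β ^ 2 ^ 1 = 1 := by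
    rw [pow_one]
    exact tr_pow_p R β
  exact ⟨1, Subtype.ext h1⟩

theorem swap_inl_eq_tr (h3 : 3 ≤ Fintype.card ι) {H : Subgroup (Perm ((ι × ZMod 2) ⊕ R))}
    (hH : IsPGroup 2 ↥H) (hP : ∀ j k : ι, tr R (pr j k) ∈ H) (j : ι) (x : ZMod 2)
    (b : (ι × ZMod 2) ⊕ R) (hab : Sum.inl (j, x) ≠ b) (hτ : swap (Sum.inl (j, x)) b ∈ H) :
    swap (Sum.inl (j, x)) b = tr R (Pi.single j 1) := by
  by_cases hb : b = Sum.inl (j, x + 1)
  · rw [hb]
    exact (tr_single_eq_swap R j x).symm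
  · exfalso
    obtain ⟨k, hkj, hkb⟩ : ∃ k : ι, k ≠ j ∧ ∀ y : ZMod 2, b ≠ Sum.inl (k, y) := by
      rcases b with ⟨jb, xb⟩ | r
      · obtain ⟨k, hk1, hk2⟩ := exists_ne_ne h3 j jb
        exact ⟨k, hk1, fun y h => hk2 (congrArg Prod.fst (Sum.inl.inj h)).symm⟩
      · obtain ⟨k, hk1, -⟩ := exists_ne_ne h3 j j
        exact ⟨k, hk1, fun y h => Sum.inr_ne_inl h⟩
    have hya : tr R (pr j k) (Sum.inl (j, x)) = Sum.inl (j, x + 1) := by
      rw [tr_inl, pr_apply_self (Ne.symm hkj)]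
    have hyb : tr R (pr j k) b = b := by
      by_contra hmv
      obtain ⟨i, xi, hq, hne⟩ := (tr_apply_ne_iff R _ _).1 hmv
      rcases pr_ne_zero_imp hne with hi | hi
      · subst hi
        have hxi : xi ≠ x := by
          rintro rfl
          exact hab hq.symm
        rw [zmod2_cases x xi hxi] at hq
        exact hb hq
      · subst hi
        exact hkb xi hq
    have hconj : tr R (pr j k) * swap (Sum.inl (j, x)) b * (tr R (pr j k))⁻¹ =
        swap (Sum.inl (j, x + 1)) b := by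
      rw [← swap_apply_apply, hya, hyb]
    have hz : swap (Sum.inl (j, x)) b * swap (Sum.inl (j, x + 1)) b ∈ H := by
      rw [← hconj]
      exact H.mul_mem hτ (H.mul_mem (H.mul_mem (hP j k) hτ) (H.inv_mem (hP j k)))
    have h3c : (swap (Sum.inl (j, x)) b * swap (Sum.inl (j, x + 1)) b).IsThreeCycle := by
      rw [swap_comm (Sum.inl (j, x)) b, swap_comm (Sum.inl (j, x + 1)) b]
      refine isThreeCycle_swap_mul_swap_same (Ne.symm hab) hb ?_
      intro h
      exact zmod2_add_one_ne x (congrArg Prod.snd (Sum.inl.inj h)).symm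
    exact three_not_two_group hH hz h3c

/-- a transposition in a `2`-group containing the even translations is a block transposition -/
theorem swap_eq_tr_of_mem [Subsingleton R] (h3 : 3 ≤ Fintype.card ι)
    {H : Subgroup (Perm ((ι × ZMod 2) ⊕ R))} (hH : IsPGroup 2 ↥H)
    (hP : ∀ j k : ι, tr R (pr j k) ∈ H) {a b : (ι × ZMod 2) ⊕ R} (hab : a ≠ b)
    (hτ : swap a b ∈ H) : ∃ j : ι, swap a b = tr R (Pi.single j 1) := by
  rcases a with ⟨j, x⟩ | r
  · exact ⟨j, swap_inl_eq_tr R h3 hH hP j x b hab hτ⟩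
  · rcases b with ⟨j, x⟩ | r'
    · rw [swap_comm] at hτ ⊢
      exact ⟨j, swap_inl_eq_tr R h3 hH hP j x _ (Ne.symm hab) hτ⟩
    · exact absurd (congrArg Sum.inr (Subsingleton.elim r r')) hab

theorem exists_two_group_ge [Subsingleton R] (h3 : 3 ≤ Fintype.card ι)
    {S : Subgroup (Perm ((ι × ZMod 2) ⊕ R))} (hS : IsPGroup 2 ↥S) (hP : P2 ι R ≤ S) :
    ∃ H : Subgroup (Perm ((ι × ZMod 2) ⊕ R)), IsPGroup 2 ↥H ∧ S ≤ H ∧
      ∀ β : ι → ZMod 2, tr R β ∈ H := by
  obtain ⟨S', hS'⟩ := hS.exists_le_sylow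
  have hE : IsPGroup 2
      ↥(trHom R : Multiplicative (ι → ZMod 2) →* Perm ((ι × ZMod 2) ⊕ R)).range := by
    rintro ⟨y, hy⟩
    obtain ⟨β, rfl⟩ := (mem_trRange R).1 hy
    have h1 : tr R β ^ 2 ^ 1 = 1 := by
      rw [pow_one]
      exact tr_pow_p R β
    exact ⟨1, Subtype.ext h1⟩
  obtain ⟨g, hg⟩ := Cfsg.Agent.Helper85.sylow_conj S' hE
  have hpairs : ∀ j k : ι, tr R (pr j k) ∈ (S' : Subgroup (Perm ((ι × ZMod 2) ⊕ R))) :=
    fun j k => hS' (hP (tr_pr_mem_P2 R j k))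
  obtain ⟨j₀⟩ : Nonempty ι := Fintype.card_pos_iff.1 (by omega)
  have hτ : swap (g (Sum.inl (j₀, 0))) (g (Sum.inl (j₀, 0 + 1))) ∈
      (S' : Subgroup (Perm ((ι × ZMod 2) ⊕ R))) := by
    rw [swap_apply_apply, ← tr_single_eq_swap R j₀ 0]
    exact hg _ ((mem_trRange R).2 ⟨_, rfl⟩)
  have hne : g (Sum.inl (j₀, (0 : ZMod 2))) ≠ g (Sum.inl (j₀, 0 + 1)) := by
    intro h
    have h' := congrArg Prod.snd (Sum.inl.inj (g.injective h))
    exact zmod2_add_one_ne 0 h'.symm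
  obtain ⟨j, hj⟩ := swap_eq_tr_of_mem R h3 S'.isPGroup' hpairs hne hτ
  rw [hj] at hτ
  refine ⟨S', S'.isPGroup', hS', ?_⟩
  have hall : ∀ k : ι, tr R (Pi.single k (1 : ZMod 2)) ∈
      (S' : Subgroup (Perm ((ι × ZMod 2) ⊕ R))) := by
    intro k
    have e : (Pi.single k (1 : ZMod 2) : ι → ZMod 2) = Pi.single j 1 + pr j k := by
      funext i
      show _ = (Pi.single j (1 : ZMod 2) : ι → ZMod 2) i +
        ((Pi.single j (1 : ZMod 2) : ι → ZMod 2) i + (Pi.single k (1 : ZMod 2) : ι → ZMod 2) i)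
      rw [zmod2_add_add]
    rw [e, ← tr_mul]
    exact Subgroup.mul_mem _ hτ (hpairs j k)
  intro β
  have hle : Subgroup.closure (Set.range fun j : ι => tr R (Pi.single j (1 : ZMod 2))) ≤
      (S' : Subgroup (Perm ((ι × ZMod 2) ⊕ R))) := by
    rw [Subgroup.closure_le]
    rintro _ ⟨k, rfl⟩
    exact hall k
  exact hle (tr_mem_closure R β)

/-- an element normalizing a `2`-group containing the even translations normalizes the
translations -/
theorem conj_tr_two [Subsingleton R] (h3 : 3 ≤ Fintype.card ι)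
    {S : Subgroup (Perm ((ι × ZMod 2) ⊕ R))} (hS : IsPGroup 2 ↥S) (hP : P2 ι R ≤ S)
    {g : Perm ((ι × ZMod 2) ⊕ R)} (hg : ∀ y ∈ S, g * y * g⁻¹ ∈ S) (β : ι → ZMod 2) :
    ∃ β' : ι → ZMod 2, g * tr R β * g⁻¹ = tr R β' := by
  obtain ⟨H, hH, hSH, hEH⟩ := exists_two_group_ge R h3 hS hP
  have hgn : g ∈ Subgroup.normalizer (S : Set (Perm ((ι × ZMod 2) ⊕ R))) :=
    Cfsg.Agent.Helper85.mem_normalizer_of_conj_mem hg
  have hH' : IsPGroup 2 ↥(H.map (MulAut.conj g).toMonoidHom) := hH.map _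
  have hpairs : ∀ j k : ι, tr R (pr j k) ∈ H.map (MulAut.conj g).toMonoidHom := by
    intro j k
    have h1 : tr R (pr j k) ∈ S := hP (tr_pr_mem_P2 R j k)
    have h2 : g⁻¹ * tr R (pr j k) * g ∈ S := by
      rw [Subgroup.mem_normalizer_iff.1 hgn, conj_conj_inv]
      exact h1
    exact ⟨g⁻¹ * tr R (pr j k) * g, hSH h2, conj_conj_inv g _⟩
  have hle : Subgroup.closure (Set.range fun j : ι => tr R (Pi.single j (1 : ZMod 2))) ≤
      ((trHom R : Multiplicative (ι → ZMod 2) →* Perm ((ι × ZMod 2) ⊕ R)).range).comap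
        (MulAut.conj g).toMonoidHom := by
    rw [Subgroup.closure_le]
    rintro _ ⟨j, rfl⟩
    show g * tr R (Pi.single j 1) * g⁻¹ ∈ (trHom R).range
    have hmem : g * tr R (Pi.single j (1 : ZMod 2)) * g⁻¹ ∈ H.map (MulAut.conj g).toMonoidHom :=
      ⟨_, hEH _, rfl⟩
    have e : g * tr R (Pi.single j (1 : ZMod 2)) * g⁻¹ =
        swap (g (Sum.inl (j, 0))) (g (Sum.inl (j, 0 + 1))) := by
      rw [swap_apply_apply, ← tr_single_eq_swap R j 0]
    rw [e] at hmem ⊢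
    have hne : g (Sum.inl (j, (0 : ZMod 2))) ≠ g (Sum.inl (j, 0 + 1)) := by
      intro h
      have h' := congrArg Prod.snd (Sum.inl.inj (g.injective h))
      exact zmod2_add_one_ne 0 h'.symm
    obtain ⟨j', hj'⟩ := swap_eq_tr_of_mem R h3 hH' hpairs hne hmem
    rw [hj']
    exact (mem_trRange R).2 ⟨_, rfl⟩
  obtain ⟨b, hb⟩ := hle (tr_mem_closure R β)
  exact ⟨Multiplicative.toAdd b, hb.symm⟩

/-- the even translations are self-centralizing in the alternating group -/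
theorem cent_P2 [Subsingleton R] (h3 : 3 ≤ Fintype.card ι) (c : Perm ((ι × ZMod 2) ⊕ R))
    (hcA : c ∈ alternatingGroup ((ι × ZMod 2) ⊕ R)) (hc : ∀ x ∈ P2 ι R, c * x = x * c) :
    c ∈ P2 ι R := by
  have hc' : ∀ (j k : ι) (q : (ι × ZMod 2) ⊕ R), c (tr R (pr j k) q) = tr R (pr j k) (c q) :=
    fun j k q => congrArg (fun f : Perm ((ι × ZMod 2) ⊕ R) => f q) (hc _ (tr_pr_mem_P2 R j k))
  have hA : ∀ (j : ι) (x : ZMod 2), ∃ x' : ZMod 2, c (Sum.inl (j, x)) = Sum.inl (j, x') := by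
    intro j x
    obtain ⟨k, hkj, -⟩ := exists_ne_ne h3 j j
    obtain ⟨k', hk'j, hk'k⟩ := exists_ne_ne h3 j k
    have hmv : ∀ k₀ : ι, k₀ ≠ j → tr R (pr j k₀) (c (Sum.inl (j, x))) ≠ c (Sum.inl (j, x)) := by
      intro k₀ hk₀ h
      rw [← hc'] at h
      have h' := c.injective h
      rw [tr_inl, pr_apply_self (Ne.symm hk₀)] at h'
      exact zmod2_add_one_ne x (congrArg Prod.snd (Sum.inl.inj h'))
    obtain ⟨j₁, x₁, hq₁, hne₁⟩ := (tr_apply_ne_iff R _ _).1 (hmv k hkj)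
    obtain ⟨j₂, x₂, hq₂, hne₂⟩ := (tr_apply_ne_iff R _ _).1 (hmv k' hk'j)
    have hj12 : j₁ = j₂ := by
      rw [hq₁] at hq₂
      exact congrArg Prod.fst (Sum.inl.inj hq₂)
    rcases pr_ne_zero_imp hne₁ with h1 | h1
    · rw [h1] at hq₁
      exact ⟨x₁, hq₁⟩
    · exfalso
      rcases pr_ne_zero_imp hne₂ with h2 | h2
      · exact hkj (by rw [← h1, hj12, h2])
      · exact hk'k (by rw [← h2, ← hj12, h1])
  choose f hf using hA
  have hB : ∀ (j : ι) (x : ZMod 2), c (Sum.inl (j, x)) = Sum.inl (j, x + f j 0) := by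
    intro j x
    rcases zmod2_zero_or_one x with rfl | rfl
    · rw [hf, zero_add]
    · obtain ⟨k, hkj, -⟩ := exists_ne_ne h3 j j
      have e : (Sum.inl (j, (1 : ZMod 2)) : (ι × ZMod 2) ⊕ R) =
          tr R (pr j k) (Sum.inl (j, 0)) := by
        rw [tr_inl, pr_apply_self (Ne.symm hkj), zero_add]
      rw [e, hc', hf, tr_inl, pr_apply_self (Ne.symm hkj), add_comm]
  have hC : ∀ r : R, c (Sum.inr r) = Sum.inr r := by
    intro r
    rcases hq : c (Sum.inr r) with ⟨j, x⟩ | r'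
    · exfalso
      have h := hB j (x - f j 0)
      rw [sub_add_cancel, ← hq] at h
      exact Sum.inl_ne_inr (c.injective h)
    · rw [Subsingleton.elim r' r]
  have hctr : c = tr R (fun j => f j 0) := by
    refine Equiv.ext (fun q => ?_)
    rcases q with ⟨j, x⟩ | r
    · rw [hB, tr_inl]
    · rw [hC, tr_inr]
  exact ⟨(mem_trRange R).2 ⟨_, hctr⟩, hcA⟩

theorem bp_conj_P2 (π : Perm ι) :
    ∀ y ∈ P2 ι R, (bpHom R π : Perm ((ι × ZMod 2) ⊕ R)) * y * (bpHom R π)⁻¹ ∈ P2 ι R := by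
  intro y hy
  exact ⟨mono_conj_mem R π 1 0 y hy.1,
    (inferInstance : (alternatingGroup ((ι × ZMod 2) ⊕ R)).Normal).conj_mem y hy.2 _⟩

theorem bp_mem_closure_two (π : Perm ι) :
    (bpHom R π : Perm ((ι × ZMod 2) ⊕ R)) ∈
      Subgroup.closure {x | x ∈ alternatingGroup ((ι × ZMod 2) ⊕ R) ∧ (∃ k : ℕ, x ^ 2 ^ k = 1) ∧
        ∀ y ∈ P2 ι R, x * y * x⁻¹ ∈ P2 ι R} := by
  have hle : Subgroup.closure {σ : Perm ι | σ.IsSwap} ≤
      (Subgroup.closure {x | x ∈ alternatingGroup ((ι × ZMod 2) ⊕ R) ∧ (∃ k : ℕ, x ^ 2 ^ k = 1) ∧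
        ∀ y ∈ P2 ι R, x * y * x⁻¹ ∈ P2 ι R}).comap (bpHom R) := by
    rw [Subgroup.closure_le]
    rintro σ ⟨a, b, hab, rfl⟩
    apply Subgroup.subset_closure
    refine ⟨?_, ⟨1, ?_⟩, bp_conj_P2 R _⟩
    · rw [mem_alternatingGroup]
      show sign (mono R (swap a b) 1 0) = 1
      rw [sign_mono_block_sq, Int.units_sq]
    · rw [pow_one, ← map_pow, sq, swap_mul_self, map_one]
  have hπ : π ∈ Subgroup.closure {σ : Perm ι | σ.IsSwap} := by
    rw [closure_isSwap]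
    exact Subgroup.mem_top _
  exact hle hπ

/-- the hypotheses of the simplicity criterion hold in the alternating group, `p = 2` -/
theorem altHyp_two [Subsingleton R] (h3 : 3 ≤ Fintype.card ι)
    {S : Subgroup (Perm ((ι × ZMod 2) ⊕ R))}
    (hSyl : RelSyl 2 (alternatingGroup ((ι × ZMod 2) ⊕ R)) S) (hP : P2 ι R ≤ S) :
    AltHyp 2 (alternatingGroup ((ι × ZMod 2) ⊕ R)) S := by
  refine ⟨?_, ?_, P2 ι R, hP, fun c hcA hc => cent_P2 R h3 c hcA hc, ?_⟩
  · intro hbot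
    obtain ⟨j₀⟩ : Nonempty ι := Fintype.card_pos_iff.1 (by omega)
    obtain ⟨k, hkj, -⟩ := exists_ne_ne h3 j₀ j₀
    have h1 := hP (tr_pr_mem_P2 R j₀ k)
    rw [hbot, Subgroup.mem_bot] at h1
    have h2 := congrArg (fun f : Perm ((ι × ZMod 2) ⊕ R) => f (Sum.inl (j₀, 0))) h1
    simp only [tr_inl, Perm.one_apply, pr_apply_self (Ne.symm hkj)] at h2
    exact zmod2_add_one_ne 0 (congrArg Prod.snd (Sum.inl.inj h2))
  · intro T hTS hT
    by_cases hne : T = ⊥
    · exact Or.inl hne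
    · exact Or.inr (strongly_closed_alt_two hSyl hTS hT hne)
  · intro g hgA hgS
    obtain ⟨π, t, b, rfl⟩ := exists_mono_of_conj R g (conj_tr_two R h3 hSyl.2.1 hP hgS)
    have ht : t = 1 := funext (fun j => Subsingleton.elim _ _)
    subst ht
    have e : mono R π 1 b = tr R (fun k => b (π⁻¹ k)) * bpHom R π := by
      show _ = mono R 1 1 (fun k => b (π⁻¹ k)) * mono R π 1 0
      rw [mono_mul]
      refine mono_ext R (one_mul π).symm (fun j => (mul_one 1).symm) (fun j => ?_)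
      simp only [Pi.zero_apply, mul_zero, zero_add, pinv_apply_self]
    have hbpcl := bp_mem_closure_two R π
    have hbpA : (bpHom R π : Perm ((ι × ZMod 2) ⊕ R)) ∈ alternatingGroup ((ι × ZMod 2) ⊕ R) := by
      have hle : Subgroup.closure {x | x ∈ alternatingGroup ((ι × ZMod 2) ⊕ R) ∧
          (∃ k : ℕ, x ^ 2 ^ k = 1) ∧ ∀ y ∈ P2 ι R, x * y * x⁻¹ ∈ P2 ι R} ≤
            alternatingGroup ((ι × ZMod 2) ⊕ R) := by
        rw [Subgroup.closure_le]
        intro x hx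
        exact hx.1
      exact hle hbpcl
    have htrA : tr R (fun k => b (π⁻¹ k)) ∈ alternatingGroup ((ι × ZMod 2) ⊕ R) := by
      have e2 : tr R (fun k => b (π⁻¹ k)) = mono R π 1 b * (bpHom R π)⁻¹ := by
        rw [e, mul_inv_cancel_right]
      rw [e2]
      exact Subgroup.mul_mem _ hgA (Subgroup.inv_mem _ hbpA)
    have htrP : tr R (fun k => b (π⁻¹ k)) ∈ P2 ι R := ⟨(mem_trRange R).2 ⟨_, rfl⟩, htrA⟩
    have hgP : ∀ y ∈ P2 ι R, mono R π 1 b * y * (mono R π 1 b)⁻¹ ∈ P2 ι R := by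
      intro y hy
      exact ⟨mono_conj_mem R π 1 b y hy.1,
        (inferInstance : (alternatingGroup ((ι × ZMod 2) ⊕ R)).Normal).conj_mem y hy.2 _⟩
    apply Subgroup.subset_closure
    refine ⟨hgA, hgP, P2 ι R, P2 ι R, le_rfl, le_rfl, hP,
      fun c hcA hc => cent_P2 R h3 c hcA hc, hgP, hgP, ?_⟩
    rw [e]
    refine Subgroup.mul_mem _ (Subgroup.subset_closure ⟨htrA, ⟨1, ?_⟩, ?_⟩) hbpcl
    · rw [pow_one]
      exact tr_pow_p R _
    · intro y hy
      exact Subgroup.mul_mem _ (Subgroup.mul_mem _ htrP hy) (Subgroup.inv_mem _ htrP)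

end Two

end Cfsg.Agent.Helper86
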