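import Cfsg.Statements.S1383
import Cfsg.Agent.Helper4.LMCENT

/-! CALL BG83 (helper25, row S1383), piece CASEB2 (double, helper86): `|P| = p³`. -/

set_option autoImplicit false

namespace Cfsg.Agent.Helper86

open Cfsg Subgroup

universe u

variable {G : Type u} [Group G] [Finite G]

/-- In a finite cyclic group, an element killed by `p` lies in every subgroup of order `p`. -/
theorem bg83cb2_cyc_mem {Z : Type*} [Group Z] [Finite Z] [IsCyclic Z] (p : ℕ) (hp : 0 < p)
    (B : Subgroup Z) (hB : Nat.card B = p) (e : Z) (he : e ^ p = 1) : e ∈ B := by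
  classical
  have hA : ({a : Z | a ^ p = 1} : Set Z).ncard ≤ p := by
    letI : Fintype Z := Fintype.ofFinite _
    have h := IsCyclic.card_pow_eq_one_le (α := Z) (n := p) hp
    rw [Set.ncard_eq_toFinset_card']
    convert h using 2
    ext a
    simp
  have hsub : (B : Set Z) ⊆ {a : Z | a ^ p = 1} := by
    intro b hb
    show b ^ p = 1
    have h1 : (⟨b, hb⟩ : B) ^ Nat.card B = 1 := pow_card_eq_one'
    rw [hB] at h1
    have h2 := congrArg Subtype.val h1
    simpa using h2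
  have hBc : (B : Set Z).ncard = p := by
    rw [← hB]
    rfl
  have heq := Set.eq_of_subset_of_ncard_le hsub (by rw [hBc]; exact hA) (Set.toFinite _)
  have h3 : e ∈ ({a : Z | a ^ p = 1} : Set Z) := he
  rw [← heq] at h3
  exact h3

/-- CASEB2. -/
theorem bg83_case_B_order (p : ℕ) [Fact p.Prime] (hp2 : p ≠ 2) (P K : Subgroup G)
    (hP : IsPGroup p P) (hKP : K ≤ normalizer (P : Set G)) (hcop : (Nat.card K).Coprime p)
    (hd : Nat.card ↥⁅P, P⁆ = p) (hZ : IsCyclic ↥(P ⊓ centralizer (P : Set G)))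
    (hcard : Nat.card ↥P = p ^ 2 * Nat.card ↥(P ⊓ centralizer (P : Set G)))
    (hfix : ∀ z ∈ P, (∀ k ∈ K, k * z = z * k) → z ∈ ⁅P, P⁆)
    (hcent : ∀ k ∈ K, ∀ z ∈ ⁅P, P⁆, k * z = z * k) : Nat.card ↥P = p ^ 3 := by
  have hp : p.Prime := Fact.out
  -- `P' ≤ Z(P)`
  have hPne : Nat.card ↥P ≠ 1 := by
    have h2 : 2 ≤ p := hp.two_le
    have h4 : 4 ≤ p ^ 2 := by nlinarith
    have hZpos : 0 < Nat.card ↥(P ⊓ centralizer (P : Set G)) := Nat.card_pos
    rw [hcard]
    nlinarith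
  have h1 : ⁅P, P⁆ ≤ P ⊓ centralizer (P : Set G) := by
    have hc : Nat.card (commutator ↥P) = (Nat.card ↥P).minFac := by
      obtain ⟨n, hn⟩ := IsPGroup.iff_card.mp hP
      have hn0 : n ≠ 0 := by
        rintro rfl
        exact hPne (by simpa using hn)
      rw [hn, Nat.Prime.pow_minFac hp hn0, ← hd, ← Subgroup.map_subtype_commutator]
      exact Nat.card_congr
        ((commutator ↥P).equivMapOfInjective P.subtype P.subtype_injective).toEquiv
    have hcen := Cfsg.Agent.Helper4.LM.lm_cent hc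
    intro x hx
    rw [← Subgroup.map_subtype_commutator] at hx
    obtain ⟨y, hy, rfl⟩ := hx
    have hy' := hcen hy
    rw [Subgroup.mem_center_iff] at hy'
    refine Subgroup.mem_inf.mpr ⟨y.2, ?_⟩
    rw [Subgroup.mem_centralizer_iff]
    intro h hh
    have h3 := hy' ⟨h, hh⟩
    exact congrArg Subtype.val h3
  -- `K` normalises `Z(P)`
  have hKZ : ∀ k ∈ K, ∀ y ∈ P ⊓ centralizer (P : Set G),
      k * y * k⁻¹ ∈ P ⊓ centralizer (P : Set G) := by
    intro k hk y hy
    have hn := hKP hk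
    rw [Subgroup.mem_normalizer_iff] at hn
    have hy1 : y ∈ P := (Subgroup.mem_inf.mp hy).1
    have hyc : y ∈ centralizer (P : Set G) := (Subgroup.mem_inf.mp hy).2
    refine Subgroup.mem_inf.mpr ⟨(hn y).mp hy1, ?_⟩
    rw [Subgroup.mem_centralizer_iff]
    intro h hh
    have hh' : k⁻¹ * h * k ∈ P := by
      rw [hn (k⁻¹ * h * k)]
      have e1 : k * (k⁻¹ * h * k) * k⁻¹ = h := by group
      rw [e1]
      exact hh
    rw [Subgroup.mem_centralizer_iff] at hyc
    have h5 := hyc _ hh'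
    calc h * (k * y * k⁻¹) = k * ((k⁻¹ * h * k) * y) * k⁻¹ := by group
      _ = k * (y * (k⁻¹ * h * k)) * k⁻¹ := by rw [h5]
      _ = k * y * k⁻¹ * h := by group
  -- `Z(P)` is abelian
  have hZab : ∀ a ∈ P ⊓ centralizer (P : Set G), ∀ b ∈ P ⊓ centralizer (P : Set G),
      a * b = b * a := by
    intro a ha b hb
    have hbc : b ∈ centralizer (P : Set G) := (Subgroup.mem_inf.mp hb).2
    rw [Subgroup.mem_centralizer_iff] at hbc
    exact hbc a (Subgroup.mem_inf.mp ha).1
  -- `K` centralises `Z(P)`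
  have hKc : ∀ k ∈ K, ∀ y ∈ P ⊓ centralizer (P : Set G), k * y = y * k := by
    intro k hk y hy
    by_contra hne
    have hdZ : k * y * k⁻¹ * y⁻¹ ∈ P ⊓ centralizer (P : Set G) :=
      Subgroup.mul_mem _ (hKZ k hk y hy) (Subgroup.inv_mem _ hy)
    have hd1 : k * y * k⁻¹ * y⁻¹ ≠ 1 := by
      intro h
      apply hne
      calc k * y = (k * y * k⁻¹ * y⁻¹) * y * k := by group
        _ = y * k := by rw [h, one_mul]
    have hex : ∃ i, (k * y * k⁻¹ * y⁻¹) ^ (p ^ i) = 1 := by
      obtain ⟨i, hi⟩ := hP ⟨k * y * k⁻¹ * y⁻¹, (Subgroup.mem_inf.mp hdZ).1⟩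
      refine ⟨i, ?_⟩
      have h2 := congrArg Subtype.val hi
      simpa using h2
    classical
    have hi : (k * y * k⁻¹ * y⁻¹) ^ (p ^ Nat.find hex) = 1 := Nat.find_spec hex
    have hi0 : Nat.find hex ≠ 0 := by
      intro h0
      rw [h0, pow_zero, pow_one] at hi
      exact hd1 hi
    obtain ⟨j, hj⟩ := Nat.exists_eq_succ_of_ne_zero hi0
    have hj1 : ¬ (k * y * k⁻¹ * y⁻¹) ^ (p ^ j) = 1 :=
      Nat.find_min hex (by rw [hj]; exact Nat.lt_succ_self j)
    -- `e = d ^ (p ^ j)` has order `p`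
    have hcomm : Commute (k * y * k⁻¹) y⁻¹ :=
      hZab _ (hKZ k hk y hy) _ (Subgroup.inv_mem _ hy)
    have he_eq : (k * y * k⁻¹ * y⁻¹) ^ (p ^ j) =
        k * y ^ (p ^ j) * k⁻¹ * (y ^ (p ^ j))⁻¹ := by
      rw [hcomm.mul_pow, conj_pow, inv_pow]
    have hyN : y ^ (p ^ j) ∈ P ⊓ centralizer (P : Set G) := Subgroup.pow_mem _ hy _
    have heZ : k * y ^ (p ^ j) * k⁻¹ * (y ^ (p ^ j))⁻¹ ∈ P ⊓ centralizer (P : Set G) :=
      Subgroup.mul_mem _ (hKZ k hk _ hyN) (Subgroup.inv_mem _ hyN)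
    have hep : (k * y ^ (p ^ j) * k⁻¹ * (y ^ (p ^ j))⁻¹) ^ p = 1 := by
      rw [← he_eq, ← pow_mul, ← pow_succ]
      rw [hj] at hi
      exact hi
    have he1 : k * y ^ (p ^ j) * k⁻¹ * (y ^ (p ^ j))⁻¹ ≠ 1 := by
      rw [← he_eq]
      exact hj1
    -- `e ∈ P'`
    have heP : k * y ^ (p ^ j) * k⁻¹ * (y ^ (p ^ j))⁻¹ ∈ ⁅P, P⁆ := by
      have := hZ
      have hB : Nat.card ↥(⁅P, P⁆.subgroupOf (P ⊓ centralizer (P : Set G))) = p := by
        rw [← hd]
        exact Nat.card_congr (Subgroup.subgroupOfEquivOfLe h1).toEquiv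
      have h6 := bg83cb2_cyc_mem p hp.pos
        (⁅P, P⁆.subgroupOf (P ⊓ centralizer (P : Set G))) hB
        ⟨k * y ^ (p ^ j) * k⁻¹ * (y ^ (p ^ j))⁻¹, heZ⟩
        (by
          apply Subtype.ext
          simpa using hep)
      rw [Subgroup.mem_subgroupOf] at h6
      exact h6
    have hke := hcent k hk _ heP
    -- iterate
    generalize hE : k * y ^ (p ^ j) * k⁻¹ * (y ^ (p ^ j))⁻¹ = e at hep he1 hke
    generalize hY : y ^ (p ^ j) = y' at hE
    have hconj : k * y' * k⁻¹ = e * y' := by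
      rw [← hE]
      group
    have hkem : ∀ m : ℕ, k * e ^ m * k⁻¹ = e ^ m := by
      intro m
      have h7 : k * e * k⁻¹ = e := by
        rw [hke]
        group
      rw [← conj_pow, h7]
    have hit : ∀ m : ℕ, k ^ m * y' * (k ^ m)⁻¹ = e ^ m * y' := by
      intro m
      induction m with
      | zero => simp
      | succ m ih =>
        calc k ^ (m + 1) * y' * (k ^ (m + 1))⁻¹
            = k * (k ^ m * y' * (k ^ m)⁻¹) * k⁻¹ := by
              rw [pow_succ']
              group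
          _ = k * (e ^ m * y') * k⁻¹ := by rw [ih]
          _ = (k * e ^ m * k⁻¹) * (k * y' * k⁻¹) := by group
          _ = e ^ m * (e * y') := by rw [hkem, hconj]
          _ = e ^ (m + 1) * y' := by
              rw [pow_succ]
              group
    have hkm : k ^ Nat.card K = 1 := by
      have h8 : (⟨k, hk⟩ : K) ^ Nat.card K = 1 := pow_card_eq_one'
      have h9 := congrArg Subtype.val h8
      rw [Subgroup.coe_pow, Subgroup.coe_one] at h9
      exact h9
    have hem : e ^ Nat.card K = 1 := by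
      have h10 := hit (Nat.card K)
      rw [hkm] at h10
      simp at h10
      exact h10
    have h11 : e ^ Nat.gcd (Nat.card K) p = 1 := pow_gcd_eq_one.mpr ⟨hem, hep⟩
    rw [Nat.Coprime] at hcop
    rw [hcop, pow_one] at h11
    exact he1 h11
  -- `Z(P) = P'`
  have hZle : P ⊓ centralizer (P : Set G) ≤ ⁅P, P⁆ := by
    intro z hz
    exact hfix z (Subgroup.mem_inf.mp hz).1 (fun k hk => hKc k hk z hz)
  have hZeq : P ⊓ centralizer (P : Set G) = ⁅P, P⁆ := le_antisymm hZle h1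
  rw [hcard, hZeq, hd]
  ring

end Cfsg.Agent.Helper86
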