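import Mathlib

/-!
# Piece CA of the call BGP (B&G 14.7 for a pair `(M, M*)`; seat helper86)
-/

set_option autoImplicit false

namespace Cfsg.Agent.Helper86

open Subgroup
open scoped Pointwise

universe u

variable {G : Type u} [Group G] [Finite G]

/-- CA (pure). Order of a semidirect product inside `G`. -/
theorem bgp_card_sup {K S M : Subgroup G} (hsup : K ⊔ S = M) (hKS : K ⊓ S = ⊥)
    (hn : K ≤ normalizer (S : Set G)) : Nat.card M = Nat.card K * Nat.card S := by
  subst hsup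
  have hcoe : (↑(K ⊔ S) : Set G) = (K : Set G) * (S : Set G) :=
    coe_mul_of_left_le_normalizer_right K S hn
  let f : K × S → ↥(K ⊔ S) := fun p =>
    ⟨(p.1 : G) * (p.2 : G), mul_mem ((le_sup_left : K ≤ K ⊔ S) p.1.2)
      ((le_sup_right : S ≤ K ⊔ S) p.2.2)⟩
  have hf : Function.Bijective f := by
    constructor
    · rintro ⟨⟨k, hk⟩, ⟨s, hs⟩⟩ ⟨⟨k', hk'⟩, ⟨s', hs'⟩⟩ hEq
      have h1 : k * s = k' * s' := congrArg Subtype.val hEq
      have h2 : k'⁻¹ * k = s' * s⁻¹ := by
        calc k'⁻¹ * k = k'⁻¹ * (k * s) * s⁻¹ := by group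
          _ = k'⁻¹ * (k' * s') * s⁻¹ := by rw [h1]
          _ = s' * s⁻¹ := by group
      have h3 : k'⁻¹ * k ∈ K ⊓ S :=
        ⟨K.mul_mem (K.inv_mem hk') hk, by rw [h2]; exact S.mul_mem hs' (S.inv_mem hs)⟩
      rw [hKS, Subgroup.mem_bot] at h3
      have hk_eq : k = k' := by
        have h4 := congrArg (fun u => k' * u) h3
        simpa using h4
      subst hk_eq
      have hs_eq : s = s' := mul_left_cancel h1
      subst hs_eq
      rfl
    · rintro ⟨m, hm⟩
      have hm' : m ∈ (K : Set G) * (S : Set G) := by rw [← hcoe]; exact hm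
      obtain ⟨k, hk, s, hs, rfl⟩ := Set.mem_mul.1 hm'
      exact ⟨(⟨k, hk⟩, ⟨s, hs⟩), rfl⟩
  rw [← Nat.card_prod]
  exact (Nat.card_congr (Equiv.ofBijective f hf)).symm

end Cfsg.Agent.Helper86
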