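import Mathlib

/-!
# Piece CZ of the call BGP (B&G 14.7 for a pair `(M, M*)`; seat helper86)
-/

set_option autoImplicit false

namespace Cfsg.Agent.Helper86

open Subgroup

universe u

variable {G : Type u} [Group G] [Finite G]

/-- CZ (pure). The three centralizer statements of B&G 14.7(c). -/
theorem bgp_cents {M Mstar K Ks : Subgroup G} (hinter : M ⊓ Mstar = K ⊔ Ks)
    (hKsC : Ks ≤ centralizer (K : Set G)) (hKc : IsCyclic K) (hKsc : IsCyclic Ks)
    (hcop : (Nat.card K).Coprime (Nat.card Ks))
    (hcM : ∀ k ∈ K, k ≠ 1 → M ⊓ centralizer ({k} : Set G) = K ⊔ Ks)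
    (huM : ∀ y ∈ Ks, y ≠ 1 → centralizer ({y} : Set G) ≤ M)
    (huMs : ∀ k ∈ K, k ≠ 1 → centralizer ({k} : Set G) ≤ Mstar) :
    ∀ x ∈ K, x ≠ 1 → ∀ y ∈ Ks, y ≠ 1 →
      M ⊓ centralizer ({x} : Set G) = K ⊔ Ks ∧ Mstar ⊓ centralizer ({y} : Set G) = K ⊔ Ks ∧
        centralizer ({x * y} : Set G) = K ⊔ Ks := by
  intro x hx hx1 y hy hy1
  have hKK : ∀ a ∈ K, ∀ b ∈ K, a * b = b * a := by
    intro a ha b hb
    haveI := hKc
    exact congrArg Subtype.val (mul_comm' (⟨a, ha⟩ : K) ⟨b, hb⟩)
  have hSS : ∀ a ∈ Ks, ∀ b ∈ Ks, a * b = b * a := by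
    intro a ha b hb
    haveI := hKsc
    exact congrArg Subtype.val (mul_comm' (⟨a, ha⟩ : Ks) ⟨b, hb⟩)
  have hKS : ∀ a ∈ K, ∀ b ∈ Ks, a * b = b * a := by
    intro a ha b hb
    exact (mem_centralizer_iff.1 (hKsC hb)) a ha
  have hsupMs : K ⊔ Ks ≤ Mstar := by rw [← hinter]; exact inf_le_right
  have hcs : ∀ (z g : G), g ∈ centralizer ({z} : Set G) ↔ z * g = g * z := by
    intro z g
    rw [mem_centralizer_iff]
    constructor
    · intro h; exact h z rfl
    · intro h w hw
      rw [Set.mem_singleton_iff] at hw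
      rw [hw]; exact h
  refine ⟨hcM x hx hx1, ?_, ?_⟩
  · apply le_antisymm
    · calc Mstar ⊓ centralizer ({y} : Set G) ≤ Mstar ⊓ M := inf_le_inf_left _ (huM y hy hy1)
        _ = M ⊓ Mstar := inf_comm _ _
        _ = K ⊔ Ks := hinter
    · refine le_inf hsupMs (sup_le ?_ ?_)
      · intro k hk
        rw [hcs]
        exact (hKS k hk y hy).symm
      · intro s hs
        rw [hcs]
        exact hSS y hy s hs
  · apply le_antisymm
    · intro g hg
      rw [hcs] at hg
      have hxy : Commute x y := hKS x hx y hy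
      have hg' : Commute (x * y) g := hg
      have hox : orderOf x ∣ Nat.card K := Subgroup.orderOf_dvd_natCard K hx
      have hoy : orderOf y ∣ Nat.card Ks := Subgroup.orderOf_dvd_natCard Ks hy
      have hc : (orderOf x).Coprime (orderOf y) :=
        (hcop.coprime_dvd_left hox).coprime_dvd_right hoy
      have hgx : Commute x g := by
        have h1 : Commute ((x * y) ^ orderOf y) g := hg'.pow_left _
        rw [hxy.mul_pow, pow_orderOf_eq_one, mul_one] at h1
        obtain ⟨m, hm⟩ := exists_pow_eq_self_of_coprime hc.symm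
        have h2 : Commute ((x ^ orderOf y) ^ m) g := h1.pow_left m
        rwa [hm] at h2
      have hgy : Commute y g := by
        have h1 : Commute ((x * y) ^ orderOf x) g := hg'.pow_left _
        rw [hxy.mul_pow, pow_orderOf_eq_one, one_mul] at h1
        obtain ⟨m, hm⟩ := exists_pow_eq_self_of_coprime hc
        have h2 : Commute ((y ^ orderOf x) ^ m) g := h1.pow_left m
        rwa [hm] at h2
      have h1 : g ∈ M := huM y hy hy1 ((hcs y g).2 hgy)
      have h2 : g ∈ Mstar := huMs x hx hx1 ((hcs x g).2 hgx)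
      rw [← hinter]
      exact ⟨h1, h2⟩
    · refine sup_le ?_ ?_
      · intro k hk
        rw [hcs]
        calc x * y * k = x * (y * k) := mul_assoc _ _ _
          _ = x * (k * y) := by rw [hKS k hk y hy]
          _ = x * k * y := (mul_assoc _ _ _).symm
          _ = k * x * y := by rw [hKK x hx k hk]
          _ = k * (x * y) := mul_assoc _ _ _
      · intro s hs
        rw [hcs]
        calc x * y * s = x * (y * s) := mul_assoc _ _ _
          _ = x * (s * y) := by rw [hSS y hy s hs]
          _ = x * s * y := (mul_assoc _ _ _).symm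
          _ = s * x * y := by rw [hKS x hx s hs]
          _ = s * (x * y) := mul_assoc _ _ _

end Cfsg.Agent.Helper86
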