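import Mathlib

/-!
# Piece HI of the call BGP (B&G 14.7 for a pair `(M, M*)`; seat helper86)
-/

set_option autoImplicit false

namespace Cfsg.Agent.Helper86

open Subgroup

universe u

variable {G : Type u} [Group G] [Finite G]

/-- HI (pure). Two subsets each containing more than half of the elements of `G` meet. -/
theorem bgp_half_inter (A B : Set G) (hA : Nat.card G < 2 * A.ncard)
    (hB : Nat.card G < 2 * B.ncard) : (A ∩ B).Nonempty := by
  by_contra hne
  rw [Set.not_nonempty_iff_eq_empty] at hne
  have hd : Disjoint A B := Set.disjoint_iff_inter_eq_empty.2 hne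
  have h1 : (A ∪ B).ncard = A.ncard + B.ncard :=
    Set.ncard_union_eq hd (Set.toFinite _) (Set.toFinite _)
  have h2 : (A ∪ B).ncard ≤ Nat.card G := Set.ncard_le_card _
  omega

end Cfsg.Agent.Helper86
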