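import Mathlib

/-!
# Piece PW of the call BGP (B&G 14.7 for a pair `(M, M*)`; seat helper86)
-/

set_option autoImplicit false

namespace Cfsg.Agent.Helper86

open Subgroup

universe u

variable {G : Type u} [Group G] [Finite G]

/-- PW (pure). An element of prime order of `⟨k * y⟩` (`k`, `y` commuting of coprime orders) is a
power of `k` or of `y`. -/
theorem bgp_prime_zpowers {k y w : G} (hky : Commute k y)
    (hcop : (orderOf k).Coprime (orderOf y)) (hw : w ∈ zpowers (k * y))
    (hp : (orderOf w).Prime) : w ∈ zpowers k ∨ w ∈ zpowers y := by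
  have hw' : w ∈ Submonoid.powers (k * y) := mem_powers_iff_mem_zpowers.2 hw
  obtain ⟨n, rfl⟩ := hw'
  have hmul : (k * y) ^ n = k ^ n * y ^ n := hky.mul_pow n
  have hab : Commute (k ^ n) (y ^ n) := (hky.pow_left n).pow_right n
  have hoa : orderOf (k ^ n) ∣ orderOf k := orderOf_pow_dvd n
  have hob : orderOf (y ^ n) ∣ orderOf y := orderOf_pow_dvd n
  have hc' : (orderOf (k ^ n)).Coprime (orderOf (y ^ n)) :=
    (hcop.coprime_dvd_left hoa).coprime_dvd_right hob
  have hord : orderOf ((k * y) ^ n) = orderOf (k ^ n) * orderOf (y ^ n) := by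
    rw [hmul]
    exact hab.orderOf_mul_eq_mul_orderOf_of_coprime hc'
  have hp' : (orderOf (k ^ n) * orderOf (y ^ n)).Prime := by
    rw [← hord]; exact hp
  rcases Nat.prime_mul_iff.1 hp' with ⟨-, h1⟩ | ⟨-, h1⟩
  · left
    show (fun m : ℕ => (k * y) ^ m) n ∈ zpowers k
    show (k * y) ^ n ∈ zpowers k
    rw [hmul, orderOf_eq_one_iff.1 h1, mul_one]
    exact pow_mem (mem_zpowers k) n
  · right
    show (k * y) ^ n ∈ zpowers y
    rw [hmul, orderOf_eq_one_iff.1 h1, one_mul]
    exact pow_mem (mem_zpowers y) n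

end Cfsg.Agent.Helper86
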