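import Mathlib

/-!
# Piece UB3 of the call BGP (B&G 14.7 for a pair `(M, M*)`; seat helper86)
-/

set_option autoImplicit false

namespace Cfsg.Agent.Helper86

open Subgroup

universe u

variable {G : Type u} [Group G] [Finite G]

/-- UB3 (pure). Union bound for three pairwise disjoint sets avoiding `1`. -/
theorem bgp_union3 (A B C : Set G) (hAB : Disjoint A B) (hAC : Disjoint A C)
    (hBC : Disjoint B C) (hA : (1 : G) ∉ A) (hB : (1 : G) ∉ B) (hC : (1 : G) ∉ C) :
    A.ncard + B.ncard + C.ncard + 1 ≤ Nat.card G := by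
  have h1 : (A ∪ B).ncard = A.ncard + B.ncard :=
    Set.ncard_union_eq hAB (Set.toFinite _) (Set.toFinite _)
  have h2 : Disjoint (A ∪ B) C := Set.disjoint_union_left.2 ⟨hAC, hBC⟩
  have h3 : (A ∪ B ∪ C).ncard = (A ∪ B).ncard + C.ncard :=
    Set.ncard_union_eq h2 (Set.toFinite _) (Set.toFinite _)
  have h4 : Disjoint (A ∪ B ∪ C) ({1} : Set G) := by
    rw [Set.disjoint_singleton_right]
    rintro ((h | h) | h)
    · exact hA h
    · exact hB h
    · exact hC h
  have h5 : (A ∪ B ∪ C ∪ {1}).ncard = (A ∪ B ∪ C).ncard + 1 := by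
    rw [Set.ncard_union_eq h4 (Set.toFinite _) (Set.toFinite _), Set.ncard_singleton]
  have h6 : (A ∪ B ∪ C ∪ {1}).ncard ≤ Nat.card G := Set.ncard_le_card _
  omega

end Cfsg.Agent.Helper86
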