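import Cfsg.Agent.Helper96.CWDefs

/-! # Piece SP of S5707: elements of `US t S` vanish at pairs of indices differing in two positions -/

set_option autoImplicit false
set_option linter.unusedSectionVars false
set_option linter.unusedSimpArgs false
set_option linter.unusedVariables false

namespace Cfsg.Agent.Helper86.CWSP

open Matrix Cfsg Cfsg.Geo Cfsg.Agent.Helper96 Cfsg.Agent.Helper96.CW

variable {F : Type*} [Field F] {k t : ℕ}

/-- PIECE SP: the elements of `US t S` vanish at pairs of indices differing in two positions. -/
theorem sp (S : Set (Matrix (Fin k) (Fin k) F)) :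
    ∀ Z ∈ US t S, ∀ a b : Fin t → Fin k, (∃ i j, i ≠ j ∧ a i ≠ b i ∧ a j ≠ b j) → Z a b = 0 := by
  intro Z hZ a b ⟨i, j, hij, hai, haj⟩
  unfold US at hZ
  induction hZ using Submodule.span_induction with
  | mem Z hZ =>
    rcases hZ with hZ | ⟨l, X, hX, rfl⟩
    · rw [Set.mem_singleton_iff] at hZ
      subst hZ
      rw [Matrix.one_apply, if_neg]
      intro h
      exact hai (by rw [h])
    · rw [facM_apply, if_neg]
      intro h
      by_cases hil : i = l
      · exact haj (h j (fun hjl => hij (hil.trans hjl.symm)))
      · exact hai (h i hil)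
  | zero => rfl
  | add x y _ _ hx hy => rw [Matrix.add_apply, hx, hy, add_zero]
  | smul c x _ hx => rw [Matrix.smul_apply, hx, smul_zero]

end Cfsg.Agent.Helper86.CWSP
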