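import Mathlib
import Cfsg.Agent.Helper96.OHDefs
import Cfsg.Agent.Helper33.OType
import Cfsg.Agent.Helper43.OrthPlane
import Cfsg.Agent.S2617
import Cfsg.Agent.Helper31.OHOPERP
import Cfsg.Agent.Helper84.OEETRANSFIXCore
import Cfsg.Agent.Helper86.OEENDSUBCARD
import Cfsg.Agent.Helper35.ELSUBT

set_option autoImplicit false

/-!
# CALL S74 (helper65, row S5974), stage CAUH / NDIVH, core (helper86), ALL characteristics.
Port of `Helper86.ELCNTCore` from elliptic to hyperbolic subspaces.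

* `hl_iso`: two nondegenerate subspaces of the same even dimension which are both of plus type
  are isometric (no hypothesis on the characteristic).
* `hl_trans_fix`: the Witt transitivity on the hyperbolic subspaces of a nondegenerate `K`, fixing
  the perp of `K` pointwise.
* `hl_cnt_core`: if `r` divides the number of hyperbolic `m`-subspaces of `K` (and there is one),
  some isometry `T ≠ 1` with `T ^ r = 1` fixes the perp of `K` pointwise and `range (T - 1) ≤ K`.
-/

namespace Cfsg.Agent.Helper86.HL5974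

open Module Polynomial Cfsg Cfsg.Geo
open Cfsg.Agent.Helper13.TIu Cfsg.Agent.Helper96.OH
open Cfsg.Agent.Helper31.OH5992 Cfsg.Agent.Helper84.OE5993 Cfsg.Agent.Helper86.OE5993

variable {ι : Type} [Fintype ι] [DecidableEq ι] {F : Type*} [Field F] (Q : (ι → F) → F)

/-- two hyperbolic subspaces of the same dimension are isometric (all characteristics) -/
theorem hl_iso [Fintype F] (hQ : IsNondegenerateQuadraticForm Q)
    (W W' : Submodule F (ι → F)) (hW : ONd Q W) (hW' : ONd Q W')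
    (hdim : finrank F W = finrank F W') (hev : Even (finrank F W))
    (hnpl : OPl Q W) (hnpl' : OPl Q W') : AreIsometricFor Q W W' := by
  obtain ⟨l, hl⟩ := hev
  have hWl : finrank F W = 2 * l := by omega
  have hW'l : finrank F W' = 2 * l := by omega
  have hnd := Cfsg.Agent.Helper33.OType.polarNondeg_restr Q hQ W hW
  have hnd' := Cfsg.Agent.Helper33.OType.polarNondeg_restr Q hQ W' hW'
  have hts : Cfsg.Agent.Helper43.OrthEven.HasTS (Cfsg.Agent.Helper33.OType.restr Q hQ W) l :=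
    (Cfsg.Agent.Helper33.OType.plus_iff_hasTS Q hQ W hW hWl).mp hnpl
  have hts' : Cfsg.Agent.Helper43.OrthEven.HasTS (Cfsg.Agent.Helper33.OType.restr Q hQ W') l :=
    (Cfsg.Agent.Helper33.OType.plus_iff_hasTS Q hQ W' hW' hW'l).mp hnpl'
  obtain ⟨Φ, hΦ⟩ := Cfsg.Agent.Helper35.EL.el_iso_of_type
    (Cfsg.Agent.Helper33.OType.restr Q hQ W) (Cfsg.Agent.Helper33.OType.restr Q hQ W') hnd hnd' l
    hWl hW'l ⟨fun _ => hts', fun _ => hts⟩
  refine ⟨Φ, fun w => ?_⟩
  have h1 := hΦ w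
  rw [Cfsg.Agent.Helper33.OType.restr_apply, Cfsg.Agent.Helper33.OType.restr_apply] at h1
  exact h1

/-- Witt transitivity on the hyperbolic subspaces of `K`, fixing the perp of `K` (all
characteristics). -/
theorem hl_trans_fix [Fintype F] (hQ : IsNondegenerateQuadraticForm Q)
    (K W W' : Submodule F (ι → F)) (hK : ONd Q K) (hW : ONd Q W) (hW' : ONd Q W') (hWK : W ≤ K)
    (hW'K : W' ≤ K) (hdim : finrank F W = finrank F W') (hev : Even (finrank F W))
    (hnpl : OPl Q W) (hnpl' : OPl Q W') :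
    ∃ g : Module.End F (ι → F), OPres Q g ∧ Function.Bijective g ∧ W.map g = W' ∧
      ∀ v, (∀ u ∈ K, QuadraticMap.polar Q u v = 0) → g v = v :=
  oetransfix_core Q hQ K W W' hK hW hW' hWK hW'K (hl_iso Q hQ W W' hW hW' hdim hev hnpl hnpl')

/-- CNT core: `r ∣ #{hyperbolic m-subspaces of K}` gives an isometry of order `r` fixing the perp of
`K` pointwise. -/
theorem hl_cnt_core [Fintype F] (hQ : IsNondegenerateQuadraticForm Q) (r : ℕ) [Fact r.Prime]
    (m : ℕ) (hme : Even m) (K : Submodule F (ι → F)) (hK : ONd Q K)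
    (W₀ : Submodule F (ι → F)) (hW₀ : (finrank F W₀ = m ∧ ONd Q W₀ ∧ OPl Q W₀) ∧ W₀ ≤ K)
    (hr : r ∣ Nat.card {W : Submodule F (ι → F) //
      (finrank F W = m ∧ ONd Q W ∧ OPl Q W) ∧ W ≤ K}) :
    ∃ T : Module.End F (ι → F), OPres Q T ∧ T ≠ 1 ∧ T ^ r = 1 ∧
      (∀ v, (∀ u ∈ K, QuadraticMap.polar Q u v = 0) → T v = v) ∧
      LinearMap.range (T - 1) ≤ K := by
  classical
  have hrpr : r.Prime := Fact.out
  haveI : Finite ((ι → F) ≃ₗ[F] (ι → F)) :=
    Finite.of_injective (fun g => (g : (ι → F) → (ι → F))) DFunLike.coe_injective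
  -- the complement of K
  obtain ⟨P, -, -, hPnd, hdisj, hsup, hKP, hPdim⟩ := o_perp Q hQ (1 : Module.End F (ι → F))
    (opres_one Q) 1 Nat.one_pos (one_pow 1) ⊤ K (ond_top Q hQ) hK le_top le_top
    (by rintro _ ⟨v, hv, rfl⟩; exact hv)
  have hPnd' : UNd (pB Q hQ) P := (und_iff Q hQ P).mpr hPnd
  have hfixP : ∀ g ∈ oeFixPerp Q K, ∀ y ∈ P, g y = y := by
    intro g hg y hy
    exact hg.2 y (fun u hu => hKP u hu y hy)
  have hpolar : ∀ g ∈ oeFixPerp Q K, ∀ u v, pB Q hQ (g u) (g v) = pB Q hQ u v := by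
    intro g hg u v
    rw [pB_apply, pB_apply]
    unfold QuadraticMap.polar
    rw [← map_add, hg.1, hg.1, hg.1]
  -- elements of the subgroup preserve K
  have hKinv : ∀ g ∈ oeFixPerp Q K, ∀ w ∈ K, g w ∈ K := by
    intro g hg w hw
    have h1 : g w ∈ K ⊔ P := by rw [hsup]; exact Submodule.mem_top
    obtain ⟨k, hk, y, hy, hky⟩ := Submodule.mem_sup.mp h1
    have hy0 : y = 0 := by
      apply hPnd' y hy
      intro y' hy'
      have h3 : pB Q hQ (g w) y' = 0 := by
        rw [← hfixP g hg y' hy', hpolar g hg]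
        exact hKP w hw y' hy'
      have h4 : pB Q hQ k y' = 0 := hKP k hk y' hy'
      rw [← hky, map_add, LinearMap.add_apply, h4, zero_add] at h3
      exact h3
    rw [hy0, add_zero] at hky
    rw [← hky]
    exact hk
  -- the action
  have hpres : ∀ g ∈ oeFixPerp Q K, ∀ W : Submodule F (ι → F),
      ((finrank F W = m ∧ ONd Q W ∧ OPl Q W) ∧ W ≤ K) →
      ((finrank F (W.map (g : (ι → F) →ₗ[F] (ι → F))) = m ∧
        ONd Q (W.map (g : (ι → F) →ₗ[F] (ι → F))) ∧
        OPl Q (W.map (g : (ι → F) →ₗ[F] (ι → F)))) ∧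
        W.map (g : (ι → F) →ₗ[F] (ι → F)) ≤ K) := by
    rintro g hg W ⟨⟨hW1, hW2, hW3⟩, hW4⟩
    have hiso : AreIsometricFor Q W (W.map (g : (ι → F) →ₗ[F] (ι → F))) :=
      ⟨Submodule.equivMapOfInjective (g : (ι → F) →ₗ[F] (ι → F)) g.injective W, fun w => by
        rw [Submodule.coe_equivMapOfInjective_apply]
        exact hg.1 w⟩
    refine ⟨⟨?_, ?_, ?_⟩, ?_⟩
    · rw [← hW1]
      exact (Submodule.equivMapOfInjective (g : (ι → F) →ₗ[F] (ι → F))
        g.injective W).symm.finrank_eq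
    · rw [← und_iff Q hQ]
      have hW2' : UNd (pB Q hQ) W := (und_iff Q hQ W).mpr hW2
      rintro _ ⟨u₀, hu₀, rfl⟩ hall
      have h1 : u₀ = 0 := by
        apply hW2' u₀ hu₀
        intro w hw
        rw [← hpolar g hg]
        exact hall _ (Submodule.mem_map_of_mem hw)
      rw [h1, map_zero]
    · exact (Cfsg.Agent.Helper33.o_type_iso Q W _ hiso).mp hW3
    · rintro _ ⟨w, hw, rfl⟩
      exact hKinv g hg w (hW4 hw)
  letI inst : MulAction (oeFixPerp Q K) {W : Submodule F (ι → F) //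
      (finrank F W = m ∧ ONd Q W ∧ OPl Q W) ∧ W ≤ K} :=
    { smul := fun g W => ⟨W.1.map (g.1 : (ι → F) →ₗ[F] (ι → F)), hpres g.1 g.2 W.1 W.2⟩
      one_smul := by
        intro W
        apply Subtype.ext
        show W.1.map (((1 : (ι → F) ≃ₗ[F] (ι → F))) : (ι → F) →ₗ[F] (ι → F)) = W.1
        exact Submodule.map_id _
      mul_smul := by
        intro g h W
        apply Subtype.ext
        show W.1.map ((g.1 * h.1 : (ι → F) ≃ₗ[F] (ι → F)) :
            (ι → F) →ₗ[F] (ι → F)) =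
          (W.1.map (h.1 : (ι → F) →ₗ[F] (ι → F))).map
            (g.1 : (ι → F) →ₗ[F] (ι → F))
        exact Submodule.map_comp _ _ _ }
  haveI : MulAction.IsPretransitive (oeFixPerp Q K) {W : Submodule F (ι → F) //
      (finrank F W = m ∧ ONd Q W ∧ OPl Q W) ∧ W ≤ K} := by
    refine ⟨fun W W' => ?_⟩
    obtain ⟨g, hg0, hgb, hg1, hg2⟩ := hl_trans_fix Q hQ K W.1 W'.1 hK W.2.1.2.1 W'.2.1.2.1
      W.2.2 W'.2.2 (by rw [W.2.1.1, W'.2.1.1]) (by rw [W.2.1.1]; exact hme)
      W.2.1.2.2 W'.2.1.2.2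
    have hcoe : ((LinearEquiv.ofBijective g hgb : (ι → F) ≃ₗ[F] (ι → F)) :
        (ι → F) →ₗ[F] (ι → F)) = g := LinearMap.ext fun v => rfl
    refine ⟨⟨LinearEquiv.ofBijective g hgb, fun v => hg0 v, fun v hv => hg2 v hv⟩, ?_⟩
    apply Subtype.ext
    show W.1.map ((LinearEquiv.ofBijective g hgb : (ι → F) ≃ₗ[F] (ι → F)) :
        (ι → F) →ₗ[F] (ι → F)) = W'.1
    rw [hcoe]
    exact hg1
  have hdvd : Nat.card {W : Submodule F (ι → F) //
      (finrank F W = m ∧ ONd Q W ∧ OPl Q W) ∧ W ≤ K} ∣ Nat.card (oeFixPerp Q K) := by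
    rw [← MulAction.index_stabilizer_of_transitive (G := oeFixPerp Q K)
      (x := (⟨W₀, hW₀⟩ : {W : Submodule F (ι → F) //
      (finrank F W = m ∧ ONd Q W ∧ OPl Q W) ∧ W ≤ K}))]
    exact Subgroup.index_dvd_card _
  have hr' : r ∣ Nat.card (oeFixPerp Q K) := dvd_trans hr hdvd
  obtain ⟨g, hg⟩ := exists_prime_orderOf_dvd_card' r hr'
  have hgr : g.1 ^ r = 1 := by
    have h1 : g ^ r = 1 := by rw [← hg]; exact pow_orderOf_eq_one g
    have h3 := congrArg Subtype.val h1
    simpa using h3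
  obtain ⟨T, hTdef⟩ : ∃ T : Module.End F (ι → F),
      T = (g.1 : (ι → F) →ₗ[F] (ι → F)) := ⟨_, rfl⟩
  have hTapp : ∀ v, T v = g.1 v := fun v => by rw [hTdef]; rfl
  have hTpow : ∀ k : ℕ, ∀ v, (T ^ k) v = (g.1 ^ k) v := by
    intro k
    induction k with
    | zero => intro v; rfl
    | succ k ih =>
      intro v
      rw [pow_succ, pow_succ, Module.End.mul_apply, LinearEquiv.mul_apply, hTapp, ih]
  have hTr : T ^ r = 1 := by
    apply LinearMap.ext
    intro v
    rw [hTpow, hgr]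
    rfl
  have hT : OPres Q T := by
    intro v
    rw [hTapp]
    exact g.2.1 v
  refine ⟨T, hT, ?_, hTr, ?_, ?_⟩
  · intro h9
    have h10 : g = 1 := by
      apply Subtype.ext
      apply LinearEquiv.ext
      intro v
      rw [← hTapp, h9]
      rfl
    rw [h10, orderOf_one] at hg
    exact hrpr.ne_one hg.symm
  · intro v hv
    rw [hTapp]
    exact g.2.2 v hv
  · rintro _ ⟨v, rfl⟩
    have h1 : v ∈ K ⊔ P := by rw [hsup]; exact Submodule.mem_top
    obtain ⟨k, hk, y, hy, rfl⟩ := Submodule.mem_sup.mp h1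
    have h2 : (T - 1) (k + y) = g.1 k - k := by
      rw [LinearMap.sub_apply, Module.End.one_apply, hTapp, map_add, hfixP g.1 g.2 y hy]
      abel
    rw [h2]
    exact K.sub_mem (hKinv g.1 g.2 k hk) hk

end Cfsg.Agent.Helper86.HL5974
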