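import Mathlib
import Cfsg.Agent.Helper86.ELCAU
import Cfsg.Agent.Helper86.HLCNTCore

set_option autoImplicit false

/-!
# CALL S74 (row S5974), stage CAUH, generic form (helper86), ALL characteristics.

* `hl_cauchy`: if the prime `r` divides the number of hyperbolic `m`-spaces (`m` even) and there
  is one, the isometry group has an element `x ≠ 1` with `x ^ r = 1`.
  (Port of `Helper86.EL5988.el_cauchy`.)
-/

namespace Cfsg.Agent.Helper86.HL5974

open Module Polynomial Cfsg Cfsg.Geo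
open Cfsg.Agent.Helper13.TIu Cfsg.Agent.Helper96.OH
open scoped MatrixGroups

variable {ι : Type} [Fintype ι] [DecidableEq ι] {F : Type*} [Field F] (Q : (ι → F) → F)

/-- CAUH, generic: a nontrivial isometry of order `r`. -/
theorem hl_cauchy [Fintype F] (hQ : IsNondegenerateQuadraticForm Q) (r : ℕ) [Fact r.Prime]
    (m : ℕ) (hme : Even m)
    (hne : ∃ W : Submodule F (ι → F), finrank F W = m ∧ ONd Q W ∧ OPl Q W)
    (hr : r ∣ Nat.card {W : Submodule F (ι → F) // finrank F W = m ∧ ONd Q W ∧ OPl Q W}) :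
    ∃ x : GL ι F, x ∈ Cfsg.isometryGroup F Q ∧ x ^ r = 1 ∧ x ≠ 1 := by
  obtain ⟨W₀, hW₀⟩ := hne
  have hcard : Nat.card {W : Submodule F (ι → F) // finrank F W = m ∧ ONd Q W ∧ OPl Q W} =
      Nat.card {W : Submodule F (ι → F) //
        (finrank F W = m ∧ ONd Q W ∧ OPl Q W) ∧ W ≤ ⊤} :=
    Nat.card_congr (Equiv.subtypeEquivRight (fun W => ⟨fun h => ⟨h, le_top⟩, fun h => h.1⟩))
  rw [hcard] at hr
  obtain ⟨T, hT, hT1, hTr, -, -⟩ :=
    hl_cnt_core Q hQ r m hme ⊤ (ond_top Q hQ) W₀ ⟨hW₀, le_top⟩ hr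
  obtain ⟨x, hx, hxr, hxT⟩ :=
    Cfsg.Agent.Helper86.EL5988.el_gl_of_end Q T r (Nat.Prime.pos Fact.out) hT hTr
  refine ⟨x, hx, hxr, ?_⟩
  intro h1
  apply hT1
  rw [← hxT, h1, Units.val_one, Matrix.toLin'_one]
  rfl

end Cfsg.Agent.Helper86.HL5974
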