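import Mathlib
import Cfsg.Statements.S0420
import Cfsg.Agent.Helper48.M11UDefs
import Cfsg.Agent.Helper12.SharpK

/-!
# Piece P2 of the call for S0420 (seat helper86)

A sharply 4-transitive permutation group of degree 11 preserves a Steiner system `S(4,5,11)`:
for pairwise distinct `a b c d` the element fixing `a` and permuting `b → c → d → b` has order 3
and exactly one further fixed point `e`; the blocks are the sets `{a, b, c, d, e}`.
-/

set_option autoImplicit false
open scoped Pointwise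
open Cfsg Cfsg.Agent.Helper48.M11U

namespace Cfsg.Agent.Helper86

open Cfsg.Agent.Helper12 (D4 inj4)

section
variable {α : Type*} [Fintype α] [DecidableEq α] {H : Subgroup (Equiv.Perm α)}

/-- the block relation: some element of `H` fixes `a` and `e ≠ a` and permutes `b → c → d → b` -/
def Blk (H : Subgroup (Equiv.Perm α)) (a b c d e : α) : Prop :=
  ∃ x ∈ H, x a = a ∧ x b = c ∧ x c = d ∧ x d = b ∧ x e = e ∧ e ≠ a

theorem m11p_inv_apply (h : Equiv.Perm α) (x : α) : h⁻¹ (h x) = x :=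
  Equiv.Perm.inv_eq_iff_eq.2 rfl

theorem m11p_ex (hH : Sharp4 H) {a b c d a' b' c' d' : α} (h : D4 a b c d) (h' : D4 a' b' c' d') :
    ∃ g ∈ H, g a = a' ∧ g b = b' ∧ g c = c' ∧ g d = d' := by
  obtain ⟨g, hg, hgi⟩ := hH.1 ⟨![a, b, c, d], inj4 h⟩ ⟨![a', b', c', d'], inj4 h'⟩
  exact ⟨g, hg, hgi 0, hgi 1, hgi 2, hgi 3⟩

theorem m11p_eq_one (hH : Sharp4 H) {a b c d : α} (h : D4 a b c d) {g : Equiv.Perm α} (hg : g ∈ H)
    (ha : g a = a) (hb : g b = b) (hc : g c = c) (hd : g d = d) : g = 1 := by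
  apply hH.2 g hg ⟨![a, b, c, d], inj4 h⟩
  intro i
  fin_cases i
  · exact ha
  · exact hb
  · exact hc
  · exact hd

theorem m11p_eq (hH : Sharp4 H) {a b c d : α} (h : D4 a b c d) {g g' : Equiv.Perm α} (hg : g ∈ H)
    (hg' : g' ∈ H) (ha : g a = g' a) (hb : g b = g' b) (hc : g c = g' c) (hd : g d = g' d) :
    g = g' := by
  have h1 : g'⁻¹ * g = 1 := by
    apply m11p_eq_one hH h (H.mul_mem (H.inv_mem hg') hg)
    · rw [Equiv.Perm.mul_apply, ha, m11p_inv_apply]
    · rw [Equiv.Perm.mul_apply, hb, m11p_inv_apply]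
    · rw [Equiv.Perm.mul_apply, hc, m11p_inv_apply]
    · rw [Equiv.Perm.mul_apply, hd, m11p_inv_apply]
  exact (inv_mul_eq_one.1 h1).symm

theorem m11p_fix_mod (hα : Fintype.card α = 11) {x : Equiv.Perm α} (hx3 : x ^ 3 = 1) :
    (Finset.univ.filter (fun y : α => x y = y)).card % 3 = 2 := by
  have : Fact (Nat.Prime 3) := ⟨by norm_num⟩
  have h := Cfsg.Agent.Helper12.card_filter_fixed_modEq (α := α) x 3 hx3
  simp only [Equiv.Perm.smul_def] at h
  have h2 : (Finset.univ.filter (fun y : α => x y = y)).card % 3 = Fintype.card α % 3 := h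
  rw [h2, hα]

/-- an element of order three has exactly two fixed points -/
theorem m11p_fix_two (hα : Fintype.card α = 11) (hH : Sharp4 H) {x : Equiv.Perm α} (hx : x ∈ H)
    (hx1 : x ≠ 1) (hx3 : x ^ 3 = 1) {p e w : α} (hp : x p = p) (he : x e = e) (hpe : p ≠ e)
    (hw : x w = w) : w = p ∨ w = e := by
  by_contra hcon
  rw [not_or] at hcon
  obtain ⟨hwp, hwe⟩ := hcon
  have hmod := m11p_fix_mod hα hx3
  have hsub : ({p, e, w} : Finset α) ⊆ Finset.univ.filter (fun y : α => x y = y) := by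
    intro z hz
    rw [Finset.mem_insert, Finset.mem_insert, Finset.mem_singleton] at hz
    rw [Finset.mem_filter]
    refine ⟨Finset.mem_univ _, ?_⟩
    rcases hz with rfl | rfl | rfl
    · exact hp
    · exact he
    · exact hw
  have hc3 : ({p, e, w} : Finset α).card = 3 := by
    rw [Finset.card_eq_three]
    exact ⟨p, e, w, hpe, fun h => hwp h.symm, fun h => hwe h.symm, rfl⟩
  have hle := Finset.card_le_card hsub
  rw [hc3] at hle
  have hlt : ({p, e, w} : Finset α).card < (Finset.univ.filter (fun y : α => x y = y)).card := by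
    rw [hc3]
    omega
  obtain ⟨v, hv, hvn⟩ := Finset.exists_mem_notMem_of_card_lt_card hlt
  rw [Finset.mem_filter] at hv
  rw [Finset.mem_insert, Finset.mem_insert, Finset.mem_singleton, not_or, not_or] at hvn
  apply hx1
  exact m11p_eq_one hH (a := p) (b := e) (c := w) (d := v)
    ⟨hpe, fun h => hwp h.symm, fun h => hvn.1 h.symm, fun h => hwe h.symm, fun h => hvn.2.1 h.symm,
      fun h => hvn.2.2 h.symm⟩ hx hp he hw hv.2

theorem m11p_fix_ex (hα : Fintype.card α = 11) {x : Equiv.Perm α} (hx3 : x ^ 3 = 1) {p : α}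
    (hp : x p = p) : ∃ e, e ≠ p ∧ x e = e := by
  have hmod := m11p_fix_mod hα hx3
  have h1 : 1 < (Finset.univ.filter (fun y : α => x y = y)).card := by
    have hpos : 0 < (Finset.univ.filter (fun y : α => x y = y)).card :=
      Finset.card_pos.2 ⟨p, Finset.mem_filter.2 ⟨Finset.mem_univ _, hp⟩⟩
    omega
  obtain ⟨e, he, hep⟩ := Finset.exists_mem_ne h1 p
  exact ⟨e, hep, (Finset.mem_filter.1 he).2⟩

theorem m11p_pow3 {x : Equiv.Perm α} (h : x * x * x = 1) : x ^ 3 = 1 := by
  rw [pow_succ, pow_two]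
  exact h

/-- the element of a block relation has order three -/
theorem m11p_blk_elt (hH : Sharp4 H) {a b c d e : α} (hD : D4 a b c d) (hB : Blk H a b c d e) :
    ∃ x ∈ H, x ≠ 1 ∧ x ^ 3 = 1 ∧ x a = a ∧ x e = e ∧ x b = c ∧ x c = d ∧ x d = b ∧ e ≠ a := by
  obtain ⟨x, hx, hxa, hxb, hxc, hxd, hxe, hea⟩ := hB
  refine ⟨x, hx, ?_, ?_, hxa, hxe, hxb, hxc, hxd, hea⟩
  · intro h1
    rw [h1] at hxb
    exact hD.2.2.2.1 hxb
  · apply m11p_pow3
    apply m11p_eq_one hH hD (H.mul_mem (H.mul_mem hx hx) hx)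
    · rw [Equiv.Perm.mul_apply, Equiv.Perm.mul_apply, hxa, hxa, hxa]
    · rw [Equiv.Perm.mul_apply, Equiv.Perm.mul_apply, hxb, hxc, hxd]
    · rw [Equiv.Perm.mul_apply, Equiv.Perm.mul_apply, hxc, hxd, hxb]
    · rw [Equiv.Perm.mul_apply, Equiv.Perm.mul_apply, hxd, hxb, hxc]

theorem m11p_blk_ex (hα : Fintype.card α = 11) (hH : Sharp4 H) {a b c d : α} (hD : D4 a b c d) :
    ∃ e, Blk H a b c d e := by
  have hD' : D4 a c d b :=
    ⟨hD.2.1, hD.2.2.1, hD.1, hD.2.2.2.2.2, fun h => hD.2.2.2.1 h.symm, fun h => hD.2.2.2.2.1 h.symm⟩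
  obtain ⟨x, hx, hxa, hxb, hxc, hxd⟩ := m11p_ex hH hD hD'
  have hx3 : x ^ 3 = 1 := by
    apply m11p_pow3
    apply m11p_eq_one hH hD (H.mul_mem (H.mul_mem hx hx) hx)
    · rw [Equiv.Perm.mul_apply, Equiv.Perm.mul_apply, hxa, hxa, hxa]
    · rw [Equiv.Perm.mul_apply, Equiv.Perm.mul_apply, hxb, hxc, hxd]
    · rw [Equiv.Perm.mul_apply, Equiv.Perm.mul_apply, hxc, hxd, hxb]
    · rw [Equiv.Perm.mul_apply, Equiv.Perm.mul_apply, hxd, hxb, hxc]
  obtain ⟨e, hea, hxe⟩ := m11p_fix_ex hα hx3 hxa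
  exact ⟨e, x, hx, hxa, hxb, hxc, hxd, hxe, hea⟩

theorem m11p_blk_props {a b c d e : α} (hD : D4 a b c d) (hB : Blk H a b c d e) :
    e ≠ a ∧ e ≠ b ∧ e ≠ c ∧ e ≠ d := by
  obtain ⟨x, hx, hxa, hxb, hxc, hxd, hxe, hea⟩ := hB
  refine ⟨hea, ?_, ?_, ?_⟩
  · intro h
    rw [h, hxb] at hxe
    exact hD.2.2.2.1 hxe.symm
  · intro h
    rw [h, hxc] at hxe
    exact hD.2.2.2.2.2 hxe.symm
  · intro h
    rw [h, hxd] at hxe
    exact hD.2.2.2.2.1 hxe

theorem m11p_blk_unique (hα : Fintype.card α = 11) (hH : Sharp4 H) {a b c d e e' : α}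
    (hD : D4 a b c d) (hB : Blk H a b c d e) (hB' : Blk H a b c d e') : e = e' := by
  obtain ⟨x, hx, hx1, hx3, hxa, hxe, hxb, hxc, hxd, hea⟩ := m11p_blk_elt hH hD hB
  obtain ⟨y, hy, hya, hyb, hyc, hyd, hye, hea'⟩ := hB'
  have hxy : x = y := m11p_eq hH hD hx hy (by rw [hxa, hya]) (by rw [hxb, hyb]) (by rw [hxc, hyc])
    (by rw [hxd, hyd])
  rw [← hxy] at hye
  rcases m11p_fix_two hα hH hx hx1 hx3 hxa hxe (fun h => hea h.symm) hye with h | h
  · exact absurd h hea'
  · exact h.symm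

theorem m11p_rot {a b c d e : α} (hB : Blk H a b c d e) : Blk H a c d b e := by
  obtain ⟨x, hx, hxa, hxb, hxc, hxd, hxe, hea⟩ := hB
  exact ⟨x, hx, hxa, hxc, hxd, hxb, hxe, hea⟩

theorem m11p_xch {a b c d e : α} (hB : Blk H a b c d e) : Blk H e b c d a := by
  obtain ⟨x, hx, hxa, hxb, hxc, hxd, hxe, hea⟩ := hB
  exact ⟨x, hx, hxe, hxb, hxc, hxd, hxa, fun h => hea h.symm⟩

theorem m11p_conj {a b c d e : α} (hB : Blk H a b c d e) {h : Equiv.Perm α} (hh : h ∈ H) :
    Blk H (h a) (h b) (h c) (h d) (h e) := by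
  obtain ⟨x, hx, hxa, hxb, hxc, hxd, hxe, hea⟩ := hB
  refine ⟨h * x * h⁻¹, H.mul_mem (H.mul_mem hh hx) (H.inv_mem hh), ?_, ?_, ?_, ?_, ?_, ?_⟩
  · rw [Equiv.Perm.mul_apply, Equiv.Perm.mul_apply, m11p_inv_apply, hxa]
  · rw [Equiv.Perm.mul_apply, Equiv.Perm.mul_apply, m11p_inv_apply, hxb]
  · rw [Equiv.Perm.mul_apply, Equiv.Perm.mul_apply, m11p_inv_apply, hxc]
  · rw [Equiv.Perm.mul_apply, Equiv.Perm.mul_apply, m11p_inv_apply, hxd]
  · rw [Equiv.Perm.mul_apply, Equiv.Perm.mul_apply, m11p_inv_apply, hxe]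
  · intro h1
    exact hea (h.injective h1)

theorem m11p_cube {x : Equiv.Perm α} (h : x ^ 3 = 1) (z : α) : x (x (x z)) = z := by
  have h1 := congrArg (fun f : Equiv.Perm α => f z) h
  simpa [pow_succ, Equiv.Perm.mul_apply] using h1

theorem m11p_invm {a b c d e : α} (hB : Blk H a b c d e) : Blk H a c b d e := by
  obtain ⟨x, hx, hxa, hxb, hxc, hxd, hxe, hea⟩ := hB
  refine ⟨x * x, H.mul_mem hx hx, ?_, ?_, ?_, ?_, ?_, hea⟩
  · rw [Equiv.Perm.mul_apply, hxa, hxa]
  · rw [Equiv.Perm.mul_apply, hxc, hxd]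
  · rw [Equiv.Perm.mul_apply, hxb, hxc]
  · rw [Equiv.Perm.mul_apply, hxd, hxb]
  · rw [Equiv.Perm.mul_apply, hxe, hxe]

theorem m11p_d4_swap {a b c d : α} (hD : D4 a b c d) : D4 b a c d :=
  ⟨fun h => hD.1 h.symm, hD.2.2.2.1, hD.2.2.2.2.1, hD.2.1, hD.2.2.1, hD.2.2.2.2.2⟩

theorem m11p_d4_rot {a b c d : α} (hD : D4 a b c d) : D4 a c d b :=
  ⟨hD.2.1, hD.2.2.1, hD.1, hD.2.2.2.2.2, fun h => hD.2.2.2.1 h.symm, fun h => hD.2.2.2.2.1 h.symm⟩

/-- the further fixed point does not change when the fixed point is exchanged with one of the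
permuted points -/
theorem m11p_swap (hα : Fintype.card α = 11) (hH : Sharp4 H) {a b c d e : α} (hD : D4 a b c d)
    (hB : Blk H a b c d e) : Blk H b a c d e := by
  obtain ⟨x, hx, hx1, hx3, hxa, hxe, hxb, hxc, hxd, hea⟩ := m11p_blk_elt hH hD hB
  have hD' : D4 b a c d := m11p_d4_swap hD
  obtain ⟨e', hB'⟩ := m11p_blk_ex hα hH hD'
  obtain ⟨y, hy, hy1, hy3, hyb, hye, hya, hyc, hyd, heb'⟩ := m11p_blk_elt hH hD' hB'
  have hDt : D4 a b d c :=
    ⟨hD.1, hD.2.2.1, hD.2.1, hD.2.2.2.2.1, hD.2.2.2.1, fun h => hD.2.2.2.2.2 h.symm⟩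
  obtain ⟨τ, hτ, hτa, hτb, hτc, hτd⟩ := m11p_ex hH hD hDt
  have h1 : x * τ * x = τ := by
    apply m11p_eq hH hD (H.mul_mem (H.mul_mem hx hτ) hx) hτ
    · rw [Equiv.Perm.mul_apply, Equiv.Perm.mul_apply, hxa, hτa, hxa]
    · rw [Equiv.Perm.mul_apply, Equiv.Perm.mul_apply, hxb, hτc, hxd, hτb]
    · rw [Equiv.Perm.mul_apply, Equiv.Perm.mul_apply, hxc, hτd, hxc, hτc]
    · rw [Equiv.Perm.mul_apply, Equiv.Perm.mul_apply, hxd, hτb, hxb, hτd]
  have h2 : y * τ * y = τ := by
    apply m11p_eq hH hD (H.mul_mem (H.mul_mem hy hτ) hy) hτ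
    · rw [Equiv.Perm.mul_apply, Equiv.Perm.mul_apply, hya, hτc, hyd, hτa]
    · rw [Equiv.Perm.mul_apply, Equiv.Perm.mul_apply, hyb, hτb, hyb]
    · rw [Equiv.Perm.mul_apply, Equiv.Perm.mul_apply, hyc, hτd, hyc, hτc]
    · rw [Equiv.Perm.mul_apply, Equiv.Perm.mul_apply, hyd, hτa, hya, hτd]
  have hτe : τ e = e := by
    have h3 : x (τ e) = τ e := by
      have h4 := congrArg (fun f : Equiv.Perm α => f e) h1
      simp only [Equiv.Perm.mul_apply] at h4
      rwa [hxe] at h4
    rcases m11p_fix_two hα hH hx hx1 hx3 hxa hxe (fun h => hea h.symm) h3 with h | h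
    · exfalso
      exact hea (τ.injective (h.trans hτa.symm))
    · exact h
  have hτe' : τ e' = e' := by
    have h3 : y (τ e') = τ e' := by
      have h4 := congrArg (fun f : Equiv.Perm α => f e') h2
      simp only [Equiv.Perm.mul_apply] at h4
      rwa [hye] at h4
    rcases m11p_fix_two hα hH hy hy1 hy3 hyb hye (fun h => heb' h.symm) h3 with h | h
    · exfalso
      exact heb' (τ.injective (h.trans hτb.symm))
    · exact h
  have hee : e = e' := by
    by_contra hne
    obtain ⟨-, heb, -, -⟩ := m11p_blk_props hD hB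
    obtain ⟨-, hea', -, -⟩ := m11p_blk_props hD' hB'
    have hτ1 : τ = 1 := m11p_eq_one hH (a := a) (b := b) (c := e) (d := e')
      ⟨hD.1, fun h => hea h.symm, fun h => hea' h.symm, fun h => heb h.symm,
        fun h => heb' h.symm, hne⟩ hτ hτa hτb hτe hτe'
    rw [hτ1] at hτc
    exact hD.2.2.2.2.2 hτc
  rw [hee]
  exact hB'

theorem m11p_cycle3_aux (hH : Sharp4 H) {x y : Equiv.Perm α} (hx : x ∈ H) (hy : y ∈ H)
    (hx3 : x ^ 3 = 1) (hy3 : y ^ 3 = 1) {p q r u : α} (hD : D4 p q r u) (hxp : x p = p)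
    (hyp : y p = p) (hxT : ∀ z, z = q ∨ z = r ∨ z = u → x z = q ∨ x z = r ∨ x z = u)
    (hyT : ∀ z, z = q ∨ z = r ∨ z = u → y z = q ∨ y z = r ∨ y z = u)
    (hxq : x q ≠ q) (hyq : y q ≠ q) (hxy : x q = y q) : y = x := by
  have hxc := m11p_cube hx3
  have hyc := m11p_cube hy3
  have h1 := hxT q (Or.inl rfl)
  have hx2 : x (x q) ≠ q := by
    intro h
    have h' := hxc q
    rw [h] at h'
    exact hxq h'
  have hy2 : y (y q) ≠ q := by
    intro h
    have h' := hyc q
    rw [h] at h'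
    exact hyq h'
  have hx3' : x (x q) ≠ x q := fun h => hxq (x.injective h)
  have hy3' : y (y q) ≠ y q := fun h => hyq (y.injective h)
  have hx4 := hxT (x q) h1
  have hy4 := hyT (y q) (hyT q (Or.inl rfl))
  have key : x (x q) = y (y q) := by
    rcases h1 with h | h | h
    · exact absurd h hxq
    · have e1 : x (x q) = u := by
        rcases hx4 with h' | h' | h'
        · exact absurd h' hx2
        · exact absurd (h'.trans h.symm) hx3'
        · exact h'
      have e2 : y (y q) = u := by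
        rcases hy4 with h' | h' | h'
        · exact absurd h' hy2
        · exact absurd (h'.trans (h.symm.trans hxy)) hy3'
        · exact h'
      rw [e1, e2]
    · have e1 : x (x q) = r := by
        rcases hx4 with h' | h' | h'
        · exact absurd h' hx2
        · exact h'
        · exact absurd (h'.trans h.symm) hx3'
      have e2 : y (y q) = r := by
        rcases hy4 with h' | h' | h'
        · exact absurd h' hy2
        · exact h'
        · exact absurd (h'.trans (h.symm.trans hxy)) hy3'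
      rw [e1, e2]
  have hp1 : p ≠ x q := by
    intro h
    exact hD.1 (x.injective (hxp.trans h))
  have hp2 : p ≠ x (x q) := by
    intro h
    exact hp1 (x.injective (hxp.trans h))
  have hD2 : D4 p q (x q) (x (x q)) :=
    ⟨hD.1, hp1, hp2, fun h => hxq h.symm, fun h => hx2 h.symm, fun h => hx3' h.symm⟩
  apply m11p_eq hH hD2 hy hx
  · rw [hyp, hxp]
  · exact hxy.symm
  · rw [key, hxy]
  · rw [hxc q, key, hyc q]

/-- two elements of order three with a common fixed point, permuting the same three points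
without fixed points, generate the same subgroup -/
theorem m11p_cycle3 (hH : Sharp4 H) {x y : Equiv.Perm α} (hx : x ∈ H) (hy : y ∈ H)
    (hx3 : x ^ 3 = 1) (hy3 : y ^ 3 = 1) {p q r u : α} (hD : D4 p q r u) (hxp : x p = p)
    (hyp : y p = p) (hxT : ∀ z, z = q ∨ z = r ∨ z = u → x z = q ∨ x z = r ∨ x z = u)
    (hyT : ∀ z, z = q ∨ z = r ∨ z = u → y z = q ∨ y z = r ∨ y z = u)
    (hxq : x q ≠ q) (hyq : y q ≠ q) : y = x ∨ y = x * x := by
  by_cases hxy : x q = y q
  · exact Or.inl (m11p_cycle3_aux hH hx hy hx3 hy3 hD hxp hyp hxT hyT hxq hyq hxy)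
  · right
    have hxc := m11p_cube hx3
    have hx2 : x (x q) ≠ q := by
      intro h
      have h' := hxc q
      rw [h] at h'
      exact hxq h'
    have hx3' : x (x q) ≠ x q := fun h => hxq (x.injective h)
    have h1 := hxT q (Or.inl rfl)
    have h2 := hyT q (Or.inl rfl)
    have hx4 := hxT (x q) h1
    have hxx3 : (x * x) ^ 3 = 1 := by
      rw [← pow_two, ← pow_mul, mul_comm, pow_mul, hx3, one_pow]
    apply m11p_cycle3_aux hH (H.mul_mem hx hx) hy hxx3 hy3 hD
    · rw [Equiv.Perm.mul_apply, hxp, hxp]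
    · exact hyp
    · intro z hz
      rw [Equiv.Perm.mul_apply]
      exact hxT _ (hxT z hz)
    · exact hyT
    · rw [Equiv.Perm.mul_apply]
      exact hx2
    · exact hyq
    · rw [Equiv.Perm.mul_apply]
      rcases h1 with h | h | h
      · exact absurd h hxq
      · rcases h2 with h' | h' | h'
        · exact absurd h' hyq
        · exact absurd (h.trans h'.symm) hxy
        · rcases hx4 with h'' | h'' | h''
          · exact absurd h'' hx2
          · exact absurd (h''.trans h.symm) hx3'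
          · rw [h'', h']
      · rcases h2 with h' | h' | h'
        · exact absurd h' hyq
        · rcases hx4 with h'' | h'' | h''
          · exact absurd h'' hx2
          · rw [h'', h']
          · exact absurd (h''.trans h.symm) hx3'
        · exact absurd (h.trans h'.symm) hxy

theorem m11p_card4 {a b c d : α} (hD : D4 a b c d) : ({a, b, c, d} : Finset α).card = 4 := by
  obtain ⟨hab, hac, had, hbc, hbd, hcd⟩ := hD
  rw [Finset.card_insert_of_notMem (by simp [hab, hac, had]),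
    Finset.card_insert_of_notMem (by simp [hbc, hbd]),
    Finset.card_insert_of_notMem (by simp [hcd]), Finset.card_singleton]

theorem m11p_notMem {a b c d e : α} (hD : D4 a b c d) (hB : Blk H a b c d e) :
    e ∉ ({a, b, c, d} : Finset α) := by
  obtain ⟨hea, heb, hec, hed⟩ := m11p_blk_props hD hB
  simp [hea, heb, hec, hed]

theorem m11p_card5 {a b c d e : α} (hD : D4 a b c d) (hB : Blk H a b c d e) :
    (insert e ({a, b, c, d} : Finset α)).card = 5 := by
  rw [Finset.card_insert_of_notMem (m11p_notMem hD hB), m11p_card4 hD]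

theorem m11p_fixer_a (hH : Sharp4 H) {a b c d e : α} (hD : D4 a b c d) (hB : Blk H a b c d e) :
    ∃ x ∈ H, x ≠ 1 ∧ x ^ 3 = 1 ∧ x a = a ∧ x e = e ∧
      ∀ z ∈ ({a, b, c, d} : Finset α), x z ∈ ({a, b, c, d} : Finset α) := by
  obtain ⟨x, hx, hx1, hx3, hxa, hxe, hxb, hxc, hxd, hea⟩ := m11p_blk_elt hH hD hB
  refine ⟨x, hx, hx1, hx3, hxa, hxe, ?_⟩
  intro z hz
  simp only [Finset.mem_insert, Finset.mem_singleton] at hz ⊢
  rcases hz with h | h | h | h
  · left
    rw [h, hxa]
  · right; right; left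
    rw [h, hxb]
  · right; right; right
    rw [h, hxc]
  · right; left
    rw [h, hxd]

/-- every point of a block is fixed by an element of order three that fixes the last point
and preserves the first four -/
theorem m11p_fixer (hα : Fintype.card α = 11) (hH : Sharp4 H) {a b c d e : α} (hD : D4 a b c d)
    (hB : Blk H a b c d e) {v : α} (hv : v ∈ ({a, b, c, d} : Finset α)) :
    ∃ x ∈ H, x ≠ 1 ∧ x ^ 3 = 1 ∧ x v = v ∧ x e = e ∧
      ∀ z ∈ ({a, b, c, d} : Finset α), x z ∈ ({a, b, c, d} : Finset α) := by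
  simp only [Finset.mem_insert, Finset.mem_singleton] at hv
  rcases hv with h | h | h | h
  · rw [h]
    exact m11p_fixer_a hH hD hB
  · rw [h]
    have h1 := m11p_fixer_a hH (m11p_d4_swap hD) (m11p_swap hα hH hD hB)
    have e1 : ({b, a, c, d} : Finset α) = {a, b, c, d} := by
      ext z
      simp only [Finset.mem_insert, Finset.mem_singleton]
      tauto
    rw [e1] at h1
    exact h1
  · rw [h]
    have hD1 := m11p_d4_rot hD
    have h1 := m11p_fixer_a hH (m11p_d4_swap hD1) (m11p_swap hα hH hD1 (m11p_rot hB))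
    have e1 : ({c, a, d, b} : Finset α) = {a, b, c, d} := by
      ext z
      simp only [Finset.mem_insert, Finset.mem_singleton]
      tauto
    rw [e1] at h1
    exact h1
  · rw [h]
    have hD1 := m11p_d4_rot (m11p_d4_rot hD)
    have h1 := m11p_fixer_a hH (m11p_d4_swap hD1) (m11p_swap hα hH hD1 (m11p_rot (m11p_rot hB)))
    have e1 : ({d, a, b, c} : Finset α) = {a, b, c, d} := by
      ext z
      simp only [Finset.mem_insert, Finset.mem_singleton]
      tauto
    rw [e1] at h1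
    exact h1

theorem m11p_fixer2 (hα : Fintype.card α = 11) (hH : Sharp4 H) {a b c d e : α} (hD : D4 a b c d)
    (hB : Blk H a b c d e) {w : α} (hw : w ∈ insert e ({a, b, c, d} : Finset α)) :
    ∃ p ∈ insert e ({a, b, c, d} : Finset α), p ≠ w ∧ ∃ y ∈ H, y ≠ 1 ∧ y ^ 3 = 1 ∧ y w = w ∧
      y p = p ∧ ∀ z ∈ insert e ({a, b, c, d} : Finset α),
        y z ∈ insert e ({a, b, c, d} : Finset α) := by
  have het := m11p_notMem hD hB
  have hpres : ∀ y : Equiv.Perm α, y e = e →
      (∀ z ∈ ({a, b, c, d} : Finset α), y z ∈ ({a, b, c, d} : Finset α)) →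
      ∀ z ∈ insert e ({a, b, c, d} : Finset α), y z ∈ insert e ({a, b, c, d} : Finset α) := by
    intro y hye hy z hz
    rw [Finset.mem_insert] at hz ⊢
    rcases hz with h | h
    · left
      rw [h, hye]
    · right
      exact hy z h
  rw [Finset.mem_insert] at hw
  rcases hw with h | h
  · obtain ⟨x, hx, hx1, hx3, hxa, hxe, hxT⟩ := m11p_fixer_a hH hD hB
    have hat : a ∈ ({a, b, c, d} : Finset α) := Finset.mem_insert_self _ _
    refine ⟨a, Finset.mem_insert_of_mem hat, ?_, x, hx, hx1, hx3, ?_, hxa, hpres x hxe hxT⟩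
    · rw [h]
      intro h'
      exact het (h' ▸ hat)
    · rw [h]
      exact hxe
  · obtain ⟨x, hx, hx1, hx3, hxw, hxe, hxT⟩ := m11p_fixer hα hH hD hB h
    refine ⟨e, Finset.mem_insert_self _ _, ?_, x, hx, hx1, hx3, hxw, hxe, hpres x hxe hxT⟩
    intro h'
    exact het (h' ▸ h)

/-- a block containing four points of another block is that block -/
theorem m11p_steiner_unique (hα : Fintype.card α = 11) (hH : Sharp4 H) {a b c d e a' b' c' d' e' : α}
    (hD : D4 a b c d) (hB : Blk H a b c d e) (hD' : D4 a' b' c' d') (hB' : Blk H a' b' c' d' e')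
    (hsub : ({a, b, c, d} : Finset α) ⊆ insert e' ({a', b', c', d'} : Finset α)) :
    insert e' ({a', b', c', d'} : Finset α) = insert e ({a, b, c, d} : Finset α) := by
  have hct := m11p_card4 hD
  have hcs := m11p_card5 hD' hB'
  obtain ⟨w, hws, hwt⟩ := Finset.exists_mem_notMem_of_card_lt_card
    (s := ({a, b, c, d} : Finset α)) (t := insert e' ({a', b', c', d'} : Finset α)) (by omega)
  have hs'eq : insert e' ({a', b', c', d'} : Finset α) = insert w ({a, b, c, d} : Finset α) := by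
    symm
    apply Finset.eq_of_subset_of_card_le
    · intro z hz
      rw [Finset.mem_insert] at hz
      rcases hz with h | h
      · rw [h]
        exact hws
      · exact hsub h
    · rw [Finset.card_insert_of_notMem hwt, hct, hcs]
  obtain ⟨p, hps, hpw, y, hy, hy1, hy3, hyw, hyp, hyT⟩ := m11p_fixer2 hα hH hD' hB' hws
  have hpt : p ∈ ({a, b, c, d} : Finset α) := by
    rw [hs'eq, Finset.mem_insert] at hps
    rcases hps with h | h
    · exact absurd h hpw
    · exact h
  obtain ⟨x, hx, hx1, hx3, hxp, hxe, hxT⟩ := m11p_fixer hα hH hD hB hpt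
  have het := m11p_notMem hD hB
  have hpe : p ≠ e := fun h => het (h ▸ hpt)
  have hyt : ∀ z ∈ ({a, b, c, d} : Finset α), y z ∈ ({a, b, c, d} : Finset α) := by
    intro z hz
    have h1 := hyT z (hsub hz)
    rw [hs'eq, Finset.mem_insert] at h1
    rcases h1 with h | h
    · exfalso
      have h2 : z = w := y.injective (h.trans hyw.symm)
      rw [h2] at hz
      exact hwt hz
    · exact h
  have hc3 : (({a, b, c, d} : Finset α).erase p).card = 3 := by
    rw [Finset.card_erase_of_mem hpt, hct]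
  obtain ⟨q, r, u, hqr, hqu, hru, hT3⟩ := Finset.card_eq_three.1 hc3
  have hmem : ∀ z, z = q ∨ z = r ∨ z = u → z ∈ ({a, b, c, d} : Finset α) ∧ z ≠ p := by
    intro z hz
    have h1 : z ∈ ({a, b, c, d} : Finset α).erase p := by
      rw [hT3]
      simp only [Finset.mem_insert, Finset.mem_singleton]
      exact hz
    exact ⟨Finset.mem_of_mem_erase h1, Finset.ne_of_mem_erase h1⟩
  have hq := hmem q (Or.inl rfl)
  have hr := hmem r (Or.inr (Or.inl rfl))
  have hu := hmem u (Or.inr (Or.inr rfl))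
  have hDp : D4 p q r u :=
    ⟨fun h => hq.2 h.symm, fun h => hr.2 h.symm, fun h => hu.2 h.symm, hqr, hqu, hru⟩
  have hT : ∀ g : Equiv.Perm α, g p = p →
      (∀ z ∈ ({a, b, c, d} : Finset α), g z ∈ ({a, b, c, d} : Finset α)) →
      ∀ z, z = q ∨ z = r ∨ z = u → g z = q ∨ g z = r ∨ g z = u := by
    intro g hgp hg z hz
    have hz' := hmem z hz
    have h1 : g z ∈ ({a, b, c, d} : Finset α).erase p :=
      Finset.mem_erase.2 ⟨fun h => hz'.2 (g.injective (h.trans hgp.symm)), hg z hz'.1⟩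
    rw [hT3] at h1
    simp only [Finset.mem_insert, Finset.mem_singleton] at h1
    exact h1
  have hxq : x q ≠ q := by
    intro h
    rcases m11p_fix_two hα hH hx hx1 hx3 hxp hxe hpe h with h' | h'
    · exact hq.2 h'
    · exact het (h' ▸ hq.1)
  have hyq : y q ≠ q := by
    intro h
    rcases m11p_fix_two hα hH hy hy1 hy3 hyp hyw hpw h with h' | h'
    · exact hq.2 h'
    · exact hwt (h' ▸ hq.1)
  have hxw : x w = w := by
    rcases m11p_cycle3 hH hx hy hx3 hy3 hDp hxp hyp (hT x hxp hxT) (hT y hyp hyt) hxq hyq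
      with h | h
    · rw [← h]
      exact hyw
    · have h2 : x (x w) = w := by
        rw [← Equiv.Perm.mul_apply, ← h]
        exact hyw
      have h3 := m11p_cube hx3 w
      rw [h2] at h3
      exact h3
  have hwe : w = e := by
    rcases m11p_fix_two hα hH hx hx1 hx3 hxp hxe hpe hxw with h | h
    · exact absurd h.symm hpw
    · exact h
  rw [hs'eq, hwe]

end

/-- PART II (pure permutation groups): a sharply 4-transitive group of degree 11 preserves a
Steiner system S(4,5,11). -/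
theorem m11u_part2 {α : Type*} [Fintype α] [DecidableEq α] (hα : Fintype.card α = 11)
    (H : Subgroup (Equiv.Perm α)) (hH : Sharp4 H) :
    ∃ B : Set (Finset α), Cfsg.IsSteinerSystem 4 5 B ∧ H ≤ Cfsg.setSystemAut B := by
  have key : ∀ g ∈ H, ∀ s ∈ {s : Finset α | ∃ a b c d e, D4 a b c d ∧ Blk H a b c d e ∧
      s = insert e ({a, b, c, d} : Finset α)}, g • s ∈ {s : Finset α | ∃ a b c d e, D4 a b c d ∧
        Blk H a b c d e ∧ s = insert e ({a, b, c, d} : Finset α)} := by
    rintro g hg s ⟨a, b, c, d, e, hD, hB, rfl⟩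
    refine ⟨g a, g b, g c, g d, g e, ?_, m11p_conj hB hg, ?_⟩
    · obtain ⟨hab, hac, had, hbc, hbd, hcd⟩ := hD
      exact ⟨fun h => hab (g.injective h), fun h => hac (g.injective h),
        fun h => had (g.injective h), fun h => hbc (g.injective h), fun h => hbd (g.injective h),
        fun h => hcd (g.injective h)⟩
    · ext z
      simp only [Finset.mem_smul_finset, Finset.mem_insert, Finset.mem_singleton,
        Equiv.Perm.smul_def]
      constructor
      · rintro ⟨y, hy, rfl⟩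
        rcases hy with h | h | h | h | h <;> simp [h]
      · intro hz
        rcases hz with h | h | h | h | h
        · exact ⟨e, Or.inl rfl, h.symm⟩
        · exact ⟨a, Or.inr (Or.inl rfl), h.symm⟩
        · exact ⟨b, Or.inr (Or.inr (Or.inl rfl)), h.symm⟩
        · exact ⟨c, Or.inr (Or.inr (Or.inr (Or.inl rfl))), h.symm⟩
        · exact ⟨d, Or.inr (Or.inr (Or.inr (Or.inr rfl))), h.symm⟩
  refine ⟨{s : Finset α | ∃ a b c d e, D4 a b c d ∧ Blk H a b c d e ∧
      s = insert e ({a, b, c, d} : Finset α)}, ⟨?_, ?_⟩, ?_⟩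
  · rintro s ⟨a, b, c, d, e, hD, hB, rfl⟩
    exact m11p_card5 hD hB
  · intro t ht
    obtain ⟨a, t', hat, rfl, ht'⟩ := Finset.card_eq_succ.1 ht
    obtain ⟨b, c, d, hbc, hbd, hcd, rfl⟩ := Finset.card_eq_three.1 ht'
    have hD : D4 a b c d := by
      simp only [Finset.mem_insert, Finset.mem_singleton, not_or] at hat
      exact ⟨hat.1, hat.2.1, hat.2.2, hbc, hbd, hcd⟩
    obtain ⟨e, hB⟩ := m11p_blk_ex hα hH hD
    refine ⟨insert e ({a, b, c, d} : Finset α), ⟨⟨a, b, c, d, e, hD, hB, rfl⟩,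
      Finset.subset_insert _ _⟩, ?_⟩
    rintro s' ⟨⟨a', b', c', d', e', hD', hB', rfl⟩, hsub⟩
    exact m11p_steiner_unique hα hH hD hB hD' hB' hsub
  · intro g hg
    rw [MulAction.mem_stabilizer_iff]
    apply Set.Subset.antisymm
    · rintro _ ⟨s, hs, rfl⟩
      exact key g hg s hs
    · intro s hs
      exact ⟨g⁻¹ • s, key g⁻¹ (H.inv_mem hg) s hs, smul_inv_smul g s⟩

end Cfsg.Agent.Helper86
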