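import Mathlib
import Cfsg.Prelude.Def_GeometricClasses
import Cfsg.Prelude.Def_Classical
import Cfsg.Agent.Helper65.S74Defs
import Cfsg.Agent.Helper35.ELSUBT
import Cfsg.Agent.Helper86.HLCAU

set_option autoImplicit false

/-!
# CALL S74 (row S5974; top architect helper65), hypothesis stage CAUH (helper86)

Port of `Helper86.S88.s88_cauchy` (CALL S88) from elliptic to hyperbolic `m`-spaces, ALL
characteristics.  `s74_cauchy_pre`: the count set in the Prelude wording
(`IsNondegenerateOn (polar Q)`, `IsPlusTypeOn Q`); `s74_cauchy`: the count set in the wording of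
the row (`Helper65.S74.hypM_iff`); `s74_card_hyp`: the two count sets have the same cardinality.
-/

namespace Cfsg.Agent.Helper86.S74

open Module Cfsg Cfsg.Geo Cfsg.Agent.Helper65.S74
open scoped MatrixGroups

variable {ι : Type} [Fintype ι] [DecidableEq ι] {F : Type*} [Field F] [Fintype F]

/-- the count set of the row (one-sided nondegeneracy, a totally singular subspace of half the
dimension) and the count set in the Prelude wording have the same cardinality. -/
theorem s74_card_hyp (Q : (ι → F) → F) (m : ℕ) :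
    Nat.card {W : Submodule F (ι → F) // (Module.finrank F ↥W = m ∧
      (∀ u ∈ W, u ≠ 0 → ∃ v ∈ W, QuadraticMap.polar Q u v ≠ 0) ∧
      ∃ U : Submodule F (ι → F), U ≤ W ∧ 2 * Module.finrank F ↥U = m ∧ ∀ u ∈ U, Q u = 0)} =
    Nat.card {W : Submodule F (ι → F) // Module.finrank F ↥W = m ∧
      IsNondegenerateOn (QuadraticMap.polar Q) W ∧ IsPlusTypeOn Q W} :=
  Nat.card_congr (Equiv.subtypeEquivRight (fun W => hypM_iff Q m W))

/-- CAUH, Prelude wording. -/
theorem s74_cauchy_pre (Q : (ι → F) → F) (hQ : IsNondegenerateQuadraticForm Q) (d m : ℕ)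
    (hcard : Fintype.card ι = 2 * d) (hplus : IsPlusTypeOn Q ⊤)
    (hm : 2 ≤ m) (hme : Even m) (hmd : m < d) (r : ℕ) [Fact r.Prime]
    (hrΩ : r ∣ Nat.card {W : Submodule F (ι → F) // Module.finrank F ↥W = m ∧
      IsNondegenerateOn (QuadraticMap.polar Q) W ∧ IsPlusTypeOn Q W}) :
    ∃ x : GL ι F, x ∈ Cfsg.isometryGroup F Q ∧ x ^ r = 1 ∧ x ≠ 1 := by
  have htop : finrank F (⊤ : Submodule F (ι → F)) = 2 * d := by
    rw [finrank_top, Module.finrank_fintype_fun_eq_card, hcard]
  obtain ⟨X, -, hXnd, hXdim, hXty⟩ := Cfsg.Agent.Helper35.EL.el_sub Q hQ ⊤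
    (Cfsg.Agent.Helper96.OH.ond_top Q hQ) d htop m hme (by omega) (by omega) True
  exact Cfsg.Agent.Helper86.HL5974.hl_cauchy Q hQ r m hme
    ⟨X, hXdim, hXnd, hXty.mpr trivial⟩ hrΩ

/-- CAUH, wording of the row: if the prime `r` divides the number of hyperbolic `m`-spaces, the
isometry group of `Q` has an element of order `r`. -/
theorem s74_cauchy (Q : (ι → F) → F) (hQ : IsNondegenerateQuadraticForm Q) (d m : ℕ)
    (hcard : Fintype.card ι = 2 * d) (hplus : IsPlusTypeOn Q ⊤)
    (hm : 2 ≤ m) (hme : Even m) (hmd : m < d) (r : ℕ) [Fact r.Prime]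
    (hrΩ : r ∣ Nat.card {W : Submodule F (ι → F) // (Module.finrank F ↥W = m ∧
      (∀ u ∈ W, u ≠ 0 → ∃ v ∈ W, QuadraticMap.polar Q u v ≠ 0) ∧
      ∃ U : Submodule F (ι → F), U ≤ W ∧ 2 * Module.finrank F ↥U = m ∧ ∀ u ∈ U, Q u = 0)}) :
    ∃ x : GL ι F, x ∈ Cfsg.isometryGroup F Q ∧ x ^ r = 1 ∧ x ≠ 1 := by
  rw [s74_card_hyp] at hrΩ
  exact s74_cauchy_pre Q hQ d m hcard hplus hm hme hmd r hrΩ

end Cfsg.Agent.Helper86.S74
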