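import Mathlib
import Cfsg.Prelude.Def_GeometricClasses
import Cfsg.Prelude.Def_Classical
import Cfsg.Agent.Helper65.S74Defs
import Cfsg.Agent.Helper86.HLNDIVCore
import Cfsg.Agent.Helper86.ELBADMAX
import Cfsg.Agent.Helper86.S74CAUH

set_option autoImplicit false

/-!
# CALL S74 (row S5974; top architect helper65), hypothesis stage NDIVH (helper86)

Port of `Helper86.S88.s88_ndiv` (CALL S88) from elliptic to hyperbolic `m`-spaces, ALL
characteristics: `r` odd `≠ p`, `i = ord_r(q)`, `c = i` (`i` even) or `2 i` (`i` odd),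
`m < c ≤ 2 d` and [`m < (2 d) % c`, or `m = (2 d) % c` and (`i` odd or `(2 d) / i` even)]: then
`r` does NOT divide the number of hyperbolic `m`-spaces.
`s74_ndiv_pre`: Prelude wording of the count set; `s74_ndiv`: the wording of the row.
-/

namespace Cfsg.Agent.Helper86.S74

open Module Cfsg Cfsg.Geo Cfsg.Agent.Helper65.S74
open scoped MatrixGroups

variable {ι : Type} [Fintype ι] [DecidableEq ι] {F : Type*} [Field F] [Fintype F]

/-- NDIVH, Prelude wording. -/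
theorem s74_ndiv_pre {p : ℕ} [Fact p.Prime] [CharP F p] {q : ℕ} (hq : Fintype.card F = q)
    (Q : (ι → F) → F) (hQ : IsNondegenerateQuadraticForm Q) (d m : ℕ)
    (hcard : Fintype.card ι = 2 * d) (hplus : IsPlusTypeOn Q ⊤)
    (hm : 2 ≤ m) (hme : Even m) (hmd : m < d) (r : ℕ) [Fact r.Prime] (hr2 : 2 < r) (hrp : r ≠ p)
    (i c : ℕ) (hi : i = orderOf (q : ZMod r)) (hc : c = if Even i then i else 2 * i)
    (hmc : m < c) (hcd : c ≤ 2 * d)
    (hk : m < (2 * d) % c ∨ (m = (2 * d) % c ∧ (Odd i ∨ Even ((2 * d) / i)))) :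
    ¬ r ∣ Nat.card {W : Submodule F (ι → F) // Module.finrank F ↥W = m ∧
      IsNondegenerateOn (QuadraticMap.polar Q) W ∧ IsPlusTypeOn Q W} := by
  subst hq
  have hr : r.Prime := Fact.out
  have hrF : (r : F) ≠ 0 :=
    Cfsg.Agent.Helper43.CycFactors.natCast_ne_zero_of_ne (p := p) hr hrp
  have hpos : 0 < (2 * d) % c := by
    rcases hk with h | ⟨h, -⟩ <;> omega
  obtain ⟨T, hT, hTr, hker⟩ :=
    Cfsg.Agent.Helper86.EL5988.el_badmax Q hQ d hcard hplus p r hr2 hrp i c hi hc hcd hpos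
  have hcpos : 0 < c := by omega
  have hfix : finrank F (LinearMap.ker (T - 1)) < c := by
    rw [hker]
    exact Nat.mod_lt _ hcpos
  exact Cfsg.Agent.Helper86.HL5974.hl_ndiv_of_bad Q hQ hplus d hcard r hr2 hrF i c hi hc m hme
    (by omega) hmc T hT hTr hfix (by rw [hker, hcard]; exact hk)

/-- NDIVH, wording of the row. -/
theorem s74_ndiv {p : ℕ} [Fact p.Prime] [CharP F p] {q : ℕ} (hq : Fintype.card F = q)
    (Q : (ι → F) → F) (hQ : IsNondegenerateQuadraticForm Q) (d m : ℕ)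
    (hcard : Fintype.card ι = 2 * d) (hplus : IsPlusTypeOn Q ⊤)
    (hm : 2 ≤ m) (hme : Even m) (hmd : m < d) (r : ℕ) [Fact r.Prime] (hr2 : 2 < r) (hrp : r ≠ p)
    (i c : ℕ) (hi : i = orderOf (q : ZMod r)) (hc : c = if Even i then i else 2 * i)
    (hmc : m < c) (hcd : c ≤ 2 * d)
    (hk : m < (2 * d) % c ∨ (m = (2 * d) % c ∧ (Odd i ∨ Even ((2 * d) / i)))) :
    ¬ r ∣ Nat.card {W : Submodule F (ι → F) // (Module.finrank F ↥W = m ∧
      (∀ u ∈ W, u ≠ 0 → ∃ v ∈ W, QuadraticMap.polar Q u v ≠ 0) ∧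
      ∃ U : Submodule F (ι → F), U ≤ W ∧ 2 * Module.finrank F ↥U = m ∧ ∀ u ∈ U, Q u = 0)} := by
  rw [s74_card_hyp]
  exact s74_ndiv_pre hq Q hQ d m hcard hplus hm hme hmd r hr2 hrp i c hi hc hmc hcd hk

end Cfsg.Agent.Helper86.S74
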