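import Mathlib
import Cfsg.Prelude.Def_GeometricClasses
import Cfsg.Prelude.Def_Classical
import Cfsg.Agent.Helper65.S74Defs
import Cfsg.Agent.Helper96.OHDefs
import Cfsg.Agent.Helper31.OHOPERP
import Cfsg.Agent.Helper33.OType

set_option autoImplicit false

/-!
# Sub-CALL S74T2 (helper65) of CALL S74 (row S5974): piece DEC (`t2_dec`), helper86 (double)

Block decomposition of an invariant nondegenerate subspace, by strong induction.
-/

namespace Cfsg.Agent.Helper86.S74T2

open Module Cfsg Cfsg.Geo Cfsg.Agent.Helper65.S74 Cfsg.Agent.Helper96.OH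
open scoped MatrixGroups

section general

variable {ι : Type} [Fintype ι] [DecidableEq ι] {F : Type*} [Field F] (Q : (ι → F) → F)

/-- one step: an invariant nondegenerate block `P` plus an invariant nondegenerate `X'` inside the
orthogonal complement `K'` of `P`. -/
theorem dec86_step [Fintype F] (hQ : IsNondegenerateQuadraticForm Q) (T : Module.End F (ι → F))
    (K K' P X' : Submodule F (ι → F)) (hPK : P ≤ K) (hK'K : K' ≤ K) (hPT : P.map T ≤ P)
    (hP : ONd Q P) (horth : OOrth Q P K') (hX'K' : X' ≤ K') (hX'T : X'.map T ≤ X')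
    (hX' : ONd Q X') (hPev : Even (finrank F P)) (hX'ev : Even (finrank F X')) :
    P ⊔ X' ≤ K ∧ (P ⊔ X').map T ≤ P ⊔ X' ∧ ONd Q (P ⊔ X') ∧
      finrank F ↥(P ⊔ X') = finrank F P + finrank F X' ∧
      (OPl Q (P ⊔ X') ↔ (OPl Q P ↔ OPl Q X')) := by
  have horth' : OOrth Q P X' := fun u hu v hv => horth u hu v (hX'K' hv)
  refine ⟨sup_le hPK (hX'K'.trans hK'K), ?_,
    Cfsg.Agent.Helper33.OType.nondeg_sup Q hQ P X' hP hX' horth',
    Cfsg.Agent.Helper33.OType.finrank_sup_of_orth Q P X' hP horth',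
    Cfsg.Agent.Helper33.o_type_mul Q hQ P X' hP hX' horth' hPev hX'ev⟩
  rw [Submodule.map_sup]
  exact sup_le_sup hPT hX'T

/-- DEC: block decomposition. -/
theorem t2_dec [Fintype F] (hQ : IsNondegenerateQuadraticForm Q)
    (T : Module.End F (ι → F)) (hT : OPres Q T) (hTT : T ^ 2 = 1)
    (hblk : ∀ K : Submodule F (ι → F), K.map T ≤ K → ONd Q K → K ≠ ⊥ →
      ∃ P : Submodule F (ι → F), P ≤ K ∧ P.map T ≤ P ∧ ONd Q P ∧
        (finrank F ↥P = 2 ∨ (finrank F ↥P = 4 ∧ OPl Q P)))
    (n : ℕ) (K : Submodule F (ι → F)) (hKT : K.map T ≤ K) (hK : ONd Q K)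
    (hn : finrank F ↥K = 2 * n) :
    ∃ A h e : ℕ, 2 * A + h + e = n ∧ ∀ a' h' e' : ℕ, a' ≤ A → h' ≤ h → e' ≤ e →
      ∃ X : Submodule F (ι → F), X ≤ K ∧ X.map T ≤ X ∧ ONd Q X ∧
        finrank F ↥X = 4 * a' + 2 * h' + 2 * e' ∧ (OPl Q X ↔ Even e') := by
  induction n using Nat.strong_induction_on generalizing K with
  | _ n ih =>
    rcases Nat.eq_zero_or_pos n with hn0 | hnpos
    · subst hn0
      refine ⟨0, 0, 0, rfl, ?_⟩
      intro a' h' e' ha hh he
      have ha0 : a' = 0 := by omega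
      have hh0 : h' = 0 := by omega
      have he0 : e' = 0 := by omega
      subst ha0 hh0 he0
      refine ⟨⊥, bot_le, ?_, ?_, ?_, ?_⟩
      · rw [Submodule.map_bot]
      · intro w hw hw0
        exact absurd ((Submodule.mem_bot F).mp hw) hw0
      · rw [finrank_bot]
      · exact ⟨fun _ => ⟨0, rfl⟩, fun _ => Cfsg.Agent.Helper33.o_plus_bot Q hQ⟩
    · have hK0 : K ≠ ⊥ := by
        intro h
        rw [h, finrank_bot] at hn
        omega
      obtain ⟨P, hPK, hPT, hP, hPdim⟩ := hblk K hKT hK hK0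
      obtain ⟨K', hK'K, hK'T, hK', -, -, horth, hdim⟩ :=
        Cfsg.Agent.Helper31.OH5992.o_perp Q hQ T hT 2 two_pos hTT K P hK hP hPK hKT hPT
      rcases hPdim with hP2 | ⟨hP4, hPpl⟩
      · -- a plane
        have hK'dim : finrank F ↥K' = 2 * (n - 1) := by omega
        obtain ⟨A, h, e, hsum, hdec⟩ := ih (n - 1) (by omega) K' hK'T hK' hK'dim
        by_cases hPpl : OPl Q P
        · refine ⟨A, h + 1, e, by omega, ?_⟩
          intro a' h' e' ha hh he
          rcases Nat.eq_zero_or_pos h' with hh0 | hhpos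
          · subst hh0
            obtain ⟨X, hXK, hXT, hX, hXdim, hXty⟩ := hdec a' 0 e' ha (Nat.zero_le _) he
            exact ⟨X, hXK.trans hK'K, hXT, hX, hXdim, hXty⟩
          · obtain ⟨X, hXK, hXT, hX, hXdim, hXty⟩ := hdec a' (h' - 1) e' ha (by omega) he
            obtain ⟨s1, s2, s3, s4, s5⟩ := dec86_step Q hQ T K K' P X hPK hK'K hPT hP horth hXK
              hXT hX (by rw [hP2]; exact even_two)
              (by rw [hXdim]; exact ⟨2 * a' + (h' - 1) + e', by omega⟩)
            refine ⟨P ⊔ X, s1, s2, s3, by rw [s4, hP2, hXdim]; omega, ?_⟩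
            rw [s5, hXty]
            exact ⟨fun h => h.mp hPpl, fun h => ⟨fun _ => h, fun _ => hPpl⟩⟩
        · refine ⟨A, h, e + 1, by omega, ?_⟩
          intro a' h' e' ha hh he
          rcases Nat.eq_zero_or_pos e' with he0 | hepos
          · subst he0
            obtain ⟨X, hXK, hXT, hX, hXdim, hXty⟩ := hdec a' h' 0 ha hh (Nat.zero_le _)
            exact ⟨X, hXK.trans hK'K, hXT, hX, hXdim, hXty⟩
          · obtain ⟨X, hXK, hXT, hX, hXdim, hXty⟩ := hdec a' h' (e' - 1) ha hh (by omega)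
            obtain ⟨s1, s2, s3, s4, s5⟩ := dec86_step Q hQ T K K' P X hPK hK'K hPT hP horth hXK
              hXT hX (by rw [hP2]; exact even_two)
              (by rw [hXdim]; exact ⟨2 * a' + h' + (e' - 1), by omega⟩)
            refine ⟨P ⊔ X, s1, s2, s3, by rw [s4, hP2, hXdim]; omega, ?_⟩
            rw [s5, hXty]
            have hpar : Even (e' - 1) ↔ ¬ Even e' := by
              rw [Nat.even_iff, Nat.even_iff]
              omega
            rw [hpar]
            constructor
            · intro h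
              by_contra hne
              exact hPpl (h.mpr hne)
            · intro h
              exact ⟨fun hp => absurd hp hPpl, fun hne => absurd h hne⟩
      · -- a four-block of plus type
        have hK'dim : finrank F ↥K' = 2 * (n - 2) := by omega
        obtain ⟨A, h, e, hsum, hdec⟩ := ih (n - 2) (by omega) K' hK'T hK' hK'dim
        refine ⟨A + 1, h, e, by omega, ?_⟩
        intro a' h' e' ha hh he
        rcases Nat.eq_zero_or_pos a' with ha0 | hapos
        · subst ha0
          obtain ⟨X, hXK, hXT, hX, hXdim, hXty⟩ := hdec 0 h' e' (Nat.zero_le _) hh he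
          exact ⟨X, hXK.trans hK'K, hXT, hX, hXdim, hXty⟩
        · obtain ⟨X, hXK, hXT, hX, hXdim, hXty⟩ := hdec (a' - 1) h' e' (by omega) hh he
          obtain ⟨s1, s2, s3, s4, s5⟩ := dec86_step Q hQ T K K' P X hPK hK'K hPT hP horth hXK
            hXT hX (by rw [hP4]; exact ⟨2, rfl⟩)
            (by rw [hXdim]; exact ⟨2 * (a' - 1) + h' + e', by omega⟩)
          refine ⟨P ⊔ X, s1, s2, s3, by rw [s4, hP4, hXdim]; omega, ?_⟩
          rw [s5, hXty]
          exact ⟨fun h => h.mp hPpl, fun h => ⟨fun _ => h, fun _ => hPpl⟩⟩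

end general

end Cfsg.Agent.Helper86.S74T2
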