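import Mathlib
import Cfsg.Prelude.Def_GeometricClasses
import Cfsg.Prelude.Def_Classical
import Cfsg.Agent.Helper65.S74Defs
import Cfsg.Agent.Helper96.OHDefs

set_option autoImplicit false

/-!
# Sub-CALL S74T2 (helper65) of CALL S74 (row S5974): piece GDUAL (`t2_gdual`), helper86 (double)
-/

namespace Cfsg.Agent.Helper86.S74T2

open Module Cfsg Cfsg.Geo Cfsg.Agent.Helper65.S74 Cfsg.Agent.Helper96.OH
open scoped MatrixGroups

section general

variable {ι : Type} [Fintype ι] [DecidableEq ι] {F : Type*} [Field F] (Q : (ι → F) → F)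

/-- GDUAL: a family `b` with a dual family `b'` inside its span spans a nondegenerate subspace of
dimension `n`. -/
theorem t2_gdual (hQ : IsNondegenerateQuadraticForm Q) {n : ℕ} (b b' : Fin n → (ι → F))
    (hb' : ∀ j, b' j ∈ Submodule.span F (Set.range b))
    (hdual : ∀ i j, QuadraticMap.polar Q (b i) (b' j) = if i = j then 1 else 0) :
    ONd Q (Submodule.span F (Set.range b)) ∧ finrank F ↥(Submodule.span F (Set.range b)) = n := by
  classical
  have hpair : ∀ (c : Fin n → F) (j : Fin n), pB Q hQ (∑ i, c i • b i) (b' j) = c j := by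
    intro c j
    rw [map_sum, LinearMap.sum_apply]
    have h1 : ∀ i ∈ (Finset.univ : Finset (Fin n)),
        (pB Q hQ (c i • b i)) (b' j) = if i = j then c i else 0 := by
      intro i _
      rw [map_smul, LinearMap.smul_apply, pB_apply, hdual, smul_eq_mul]
      split_ifs
      · rw [mul_one]
      · rw [mul_zero]
    rw [Finset.sum_congr rfl h1, Finset.sum_ite_eq' Finset.univ j, if_pos (Finset.mem_univ j)]
  refine ⟨?_, ?_⟩
  · rw [← und_iff Q hQ]
    intro u hu hall
    obtain ⟨c, rfl⟩ := (Submodule.mem_span_range_iff_exists_fun F).mp hu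
    have hc : ∀ j, c j = 0 := fun j => by
      rw [← hpair c j]
      exact hall (b' j) (hb' j)
    apply Finset.sum_eq_zero
    intro i _
    rw [hc i, zero_smul]
  · have hli : LinearIndependent F b := by
      rw [Fintype.linearIndependent_iff]
      intro g hg j
      rw [← hpair g j, hg, map_zero, LinearMap.zero_apply]
    rw [finrank_span_eq_card hli, Fintype.card_fin]

end general

end Cfsg.Agent.Helper86.S74T2
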