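import Mathlib
import Cfsg.Prelude.Def_GeometricClasses
import Cfsg.Prelude.Def_Classical
import Cfsg.Agent.Helper35.S88Defs
import Cfsg.Agent.Helper58.TSDefs
import Cfsg.Agent.Helper43.PrimeOrdO3
import Cfsg.Agent.Helper33.OType
import Cfsg.Agent.Helper43.S88OEDefs
import Cfsg.Agent.Helper98.TBSPLIT
import Cfsg.Agent.Helper10.S88OEPSND
import Cfsg.Agent.Helper98.S88OEPSTYPE
import Cfsg.Agent.Helper67.S88OEBLKCHAR
import Cfsg.Agent.Helper88.S88OEBLKTYPEof

set_option autoImplicit false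

/-!
# Sub-CALL S88OE (helper43) of CALL S88 (row S5988): piece BSPLIT (`oe_bad_split`), helper86 (double)

Invariant nondegenerate subspaces of `V₀ × V₁`, `T = 1 × T₁`, `V₁` a block.
-/

namespace Cfsg.Agent.Helper86.S88OE

open Module Polynomial Cfsg Cfsg.Geo Cfsg.Agent.Helper58.TS Cfsg.Agent.Helper35.S88
open Cfsg.Agent.Helper43 Cfsg.Agent.Helper43.OrthEven Cfsg.Agent.Helper43.CycFactors
  Cfsg.Agent.Helper43.PrimeOrdMat Cfsg.Agent.Helper43.S88OE
open scoped MatrixGroups

universe u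

section lin

variable {F : Type*} [Field F] {Va : Type*} [AddCommGroup Va] [Module F Va]

/-- the restriction of a block to an invariant nondegenerate subspace is a block (own copy of
BLKRESTR under a fresh name). -/
theorem oe86_blk_restr (r : ℕ) (Qa : QuadraticForm F Va) (T : Module.End F Va)
    (hT : ∀ v, Qa (T v) = Qa v) (hcyc : aeval T (cyclotomic r F) = 0) (U : Submodule F Va)
    (hU : U.map T ≤ U) (hnd : PolarNondeg (Qa.comp U.subtype)) :
    ∃ T' : Module.End F U, Blk r (Qa.comp U.subtype) T' := by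
  have hU' : ∀ u ∈ U, T u ∈ U := fun u hu => hU ⟨u, hu, rfl⟩
  have key : ∀ f : F[X], ∀ u : U,
      ((aeval (T.restrict hU') f) u : Va) = aeval T f (u : Va) := by
    intro f
    induction f using Polynomial.induction_on with
    | C a =>
      intro u
      rw [aeval_C, aeval_C, Module.algebraMap_end_apply, Module.algebraMap_end_apply,
        Submodule.coe_smul]
    | add f g hf hg =>
      intro u
      rw [map_add, map_add, LinearMap.add_apply, LinearMap.add_apply, Submodule.coe_add, hf, hg]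
    | monomial n a ih =>
      intro u
      have e1 : aeval (T.restrict hU') (C a * X ^ (n + 1)) =
          aeval (T.restrict hU') (C a * X ^ n) * T.restrict hU' := by
        rw [pow_succ, ← mul_assoc, map_mul, aeval_X]
      have e2 : aeval T (C a * X ^ (n + 1)) = aeval T (C a * X ^ n) * T := by
        rw [pow_succ, ← mul_assoc, map_mul, aeval_X]
      rw [e1, e2, Module.End.mul_apply, Module.End.mul_apply, ih]
      rfl
  refine ⟨T.restrict hU', hnd, ?_, ?_⟩
  · intro v
    show Qa (U.subtype (T.restrict hU' v)) = Qa (U.subtype v)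
    exact hT v
  · apply LinearMap.ext
    intro u
    apply Subtype.ext
    rw [key, hcyc]
    rfl

end lin

section fin

variable {F : Type u} [Field F] [Fintype F]

/-- BSPLIT: invariant nondegenerate subspaces of `V₀ × V₁`, `T = 1 × T₁`, `V₁` a block. -/
theorem oe_bad_split (p : ℕ) [Fact p.Prime] [CharP F p] (r : ℕ) [Fact r.Prime] (hr2 : 2 < r)
    (hrp : r ≠ p) (heven : Even (orderOf ((Fintype.card F : ℕ) : ZMod r))) {V₀ V₁ : Type u}
    [AddCommGroup V₀] [Module F V₀] [FiniteDimensional F V₀] [AddCommGroup V₁] [Module F V₁]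
    [FiniteDimensional F V₁] (Q₀ : QuadraticForm F V₀) (Q₁ : QuadraticForm F V₁)
    (T₁ : Module.End F V₁) (hblk : Blk r Q₁ T₁) (l : ℕ) (W : Submodule F (V₀ × V₁))
    (hW : W.map ((1 : Module.End F V₀).prodMap T₁) ≤ W) (hWdim : finrank F W = 2 * l)
    (hWnd : PolarNondeg ((Q₀.prod Q₁).comp W.subtype)) :
    ∃ (Ua : Submodule F V₀) (s w₂ : ℕ), PolarNondeg (Q₀.comp Ua.subtype) ∧
      finrank F Ua = 2 * w₂ ∧ l = orderOf ((Fintype.card F : ℕ) : ZMod r) / 2 * s + w₂ ∧
      2 * (orderOf ((Fintype.card F : ℕ) : ZMod r) / 2 * s) ≤ finrank F V₁ ∧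
      (HasTS ((Q₀.prod Q₁).comp W.subtype) l ↔ (HasTS (Q₀.comp Ua.subtype) w₂ ↔ Even s)) := by
  classical
  have hr : r.Prime := Fact.out
  have hrF : (r : F) ≠ 0 := natCast_ne_zero_of_ne (p := p) hr hrp
  have hcop : IsCoprime (X - 1 : F[X]) (cyclotomic r F) := by
    have hirr : Irreducible (X - 1 : F[X]) := by
      have := irreducible_X_sub_C (1 : F)
      rwa [map_one] at this
    exact (hirr.coprime_iff_not_dvd).mpr (X_sub_one_not_dvd_cyclotomic hr hrF)
  obtain ⟨Ua, Ub, -, hUb, hWeq⟩ := Cfsg.Agent.Helper98.TB.tb_split (1 : Module.End F V₀) T₁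
    (X - 1) (cyclotomic r F) hcop (by simp) hblk.2.2 W hW
  subst hWeq
  obtain ⟨hnda, hndb⟩ := (Cfsg.Agent.Helper10.S88OE.oe_prod_sub_nd Q₀ Q₁ Ua Ub).mp hWnd
  obtain ⟨T', hblk'⟩ := oe86_blk_restr r Q₁ T₁ hblk.2.1 hblk.2.2 Ub hUb hndb
  obtain ⟨s, hs, hts⟩ := Cfsg.Agent.Helper88.S88OE.oe_blk_type_of p r hr2 hrp heven
    (Q₁.comp Ub.subtype) T' hblk' (Cfsg.Agent.Helper67.S88OE.oe_blk_char p r hrp T' hblk'.2.2)
  have hdim : finrank F ↥(Ua.prod Ub) = finrank F Ua + finrank F Ub := by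
    rw [(Cfsg.Agent.Helper98.S88OE.psEquiv Ua Ub).finrank_eq, Module.finrank_prod]
  rw [hWdim, hs] at hdim
  obtain ⟨j, hj⟩ : ∃ j, j = orderOf ((Fintype.card F : ℕ) : ZMod r) / 2 := ⟨_, rfl⟩
  rw [← hj] at hs hts hdim ⊢
  have hUa : finrank F Ua = 2 * (l - j * s) := by omega
  have hl : l = j * s + (l - j * s) := by omega
  refine ⟨Ua, s, l - j * s, hnda, hUa, hl, ?_, ?_⟩
  · rw [← hs]
    exact Submodule.finrank_le Ub
  · have h := Cfsg.Agent.Helper98.S88OE.oe_prod_sub_type Q₀ Q₁ Ua Ub hnda hndb (l - j * s) (j * s)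
      hUa hs
    have hl' : l - j * s + j * s = l := by omega
    rw [hl'] at h
    rw [h, hts]

end fin

end Cfsg.Agent.Helper86.S88OE
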