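import Mathlib
import Cfsg.Prelude.Def_GeometricClasses
import Cfsg.Prelude.Def_Classical
import Cfsg.Agent.Helper35.S88Defs
import Cfsg.Agent.Helper98.ELPDefs
import Cfsg.Agent.Helper98.S90T2Defs
import Cfsg.Agent.Helper97.S74T2G

set_option autoImplicit false

/-!
# Sub-CALL S90T2 (helper98) of CALL S90 (row S5990): pieces BLOCK (`t2_block`), PROFILE
(`t2_profile`), ZONE (`t2_sq_one`), helper86

BLOCK and PROFILE are helper97's generic lemmas `Cfsg.Agent.Helper97.S74.t2_block / t2_profile`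
(module `Cfsg.Agent.Helper97.S74T2G`) in the wording of `tools/calls/S90T2Skel.lean.txt`.
-/

namespace Cfsg.Agent.Helper86.S90T2

open Module Matrix Cfsg Cfsg.Geo Cfsg.Agent.Helper35.S88 Cfsg.Agent.Helper98.ELP
  Cfsg.Agent.Helper98.S90T2
open scoped MatrixGroups

section good

variable {ι : Type} [Fintype ι] [DecidableEq ι] {F : Type*} [Field F]

/-- BLOCK: a nonzero invariant nondegenerate subspace contains an invariant nondegenerate block of
dimension `2`, or of dimension `4` and plus type. -/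
theorem t2_block [Fintype F] (Q : (ι → F) → F) (hQ : IsNondegenerateQuadraticForm Q)
    (h2 : (2 : F) = 0) (T : Module.End F (ι → F)) (hT : ∀ v, Q (T v) = Q v) (hT2 : T * T = 1)
    (U : Submodule F (ι → F)) (hU : IsNondegenerateOn (QuadraticMap.polar Q) U)
    (hUT : U.map T ≤ U) (hU0 : U ≠ ⊥) :
    ∃ B : Submodule F (ι → F), B ≤ U ∧ B.map T ≤ B ∧ IsNondegenerateOn (QuadraticMap.polar Q) B ∧
      (finrank F B = 2 ∨ (finrank F B = 4 ∧ IsPlusTypeOn Q B)) :=
  Cfsg.Agent.Helper97.S74.t2_block Q hQ h2 T hT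
    (fun v => by rw [← Module.End.mul_apply, hT2, Module.End.one_apply]) U hUT hU hU0

/-- PROFILE: block decomposition of an invariant nondegenerate subspace. -/
theorem t2_profile [Fintype F] (Q : (ι → F) → F) (hQ : IsNondegenerateQuadraticForm Q)
    (h2 : (2 : F) = 0) (T : Module.End F (ι → F)) (hT : ∀ v, Q (T v) = Q v) (hT2 : T * T = 1)
    (U : Submodule F (ι → F)) (hU : IsNondegenerateOn (QuadraticMap.polar Q) U)
    (hUT : U.map T ≤ U) :
    ∃ A h e : ℕ, finrank F U = 2 * (2 * A + h + e) ∧ ∀ a' h' e', a' ≤ A → h' ≤ h → e' ≤ e →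
      ∃ W : Submodule F (ι → F), W ≤ U ∧ W.map T ≤ W ∧
        IsNondegenerateOn (QuadraticMap.polar Q) W ∧
        finrank F W = 2 * (2 * a' + h' + e') ∧ (IsPlusTypeOn Q W ↔ Even e') := by
  obtain ⟨A, h, e, h1, hall⟩ := Cfsg.Agent.Helper97.S74.t2_profile Q hQ h2 T hT
    (fun v => by rw [← Module.End.mul_apply, hT2, Module.End.one_apply]) (finrank F U) U rfl hUT hU
  exact ⟨A, h, e, h1, fun a' h' e' ha hh he => hall a' ha h' hh e' he⟩

/-- ZONE: in characteristic `2` an isometry with scalar square is an involution. -/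
theorem t2_sq_one (Q : (ι → F) → F) (hQ : IsNondegenerateQuadraticForm Q) (h2 : (2 : F) = 0)
    (hne : Nonempty ι) (x : GL ι F) (hx : x ∈ Cfsg.isometryGroup F Q) (z : F)
    (hz : ((x ^ 2 : GL ι F) : Matrix ι ι F) = z • (1 : Matrix ι ι F)) :
    (Matrix.toLin' (x : Matrix ι ι F)) * (Matrix.toLin' (x : Matrix ι ι F)) = 1 := by
  classical
  have hM : ∀ v, Q ((x : Matrix ι ι F).mulVec v) = Q v := fun v => hx v v
  have hzM : (x : Matrix ι ι F) * (x : Matrix ι ι F) = z • (1 : Matrix ι ι F) := by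
    rw [← hz, pow_two]
    rfl
  obtain ⟨i⟩ := hne
  have hw0 : (Pi.single i (1 : F) : ι → F) ≠ 0 := by
    intro h
    have := congrFun h i
    simp at this
  obtain ⟨-, y, hy⟩ := hQ.nondegenerate _ hw0
  have hex : ∃ v : ι → F, Q v ≠ 0 := by
    by_contra hcon
    push Not at hcon
    apply hy
    unfold QuadraticMap.polar
    rw [hcon, hcon, hcon]; ring
  obtain ⟨v, hv⟩ := hex
  have h1 : Q ((x : Matrix ι ι F).mulVec ((x : Matrix ι ι F).mulVec v)) = Q v := by rw [hM, hM]
  rw [Matrix.mulVec_mulVec, hzM, Matrix.smul_mulVec, Matrix.one_mulVec, hQ.smul] at h1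
  have h3 : (z + 1) * (z + 1) = 0 := by
    have h4 : (z ^ 2 - 1) * Q v = 0 := by linear_combination h1
    rcases mul_eq_zero.mp h4 with h5 | h5
    · linear_combination h5 + z * h2 + h2
    · exact absurd h5 hv
  have hz1 : z = 1 := by
    have h6 : z + 1 = 0 := by
      rcases mul_eq_zero.mp h3 with h5 | h5 <;> exact h5
    linear_combination h6 - h2
  rw [Module.End.mul_eq_comp, ← Matrix.toLin'_mul, hzM, hz1, one_smul, Matrix.toLin'_one]
  rfl

end good

end Cfsg.Agent.Helper86.S90T2
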